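import Cfsg.Agent.H8.T.Co2Cc0
import Cfsg.Agent.H8.CosetGlue
import Cfsg.Agent.H8.T.LtC2

set_option Elab.async false
set_option autoImplicit false
set_option linter.all false
set_option maxRecDepth 100000
set_option maxHeartbeats 400000

namespace Cfsg.Agent.H8.Co2C
open Cfsg.Agent.H8.LtC2 (T0 T1 T2)

theorem pk0 : allR (ckPerm (nat_lit 4600) X0 X1) (nat_lit 0) (nat_lit 4600) = true := by
  apply allR_of_forall
  intro i hi
  have hi : i < 4600 := hi
  rcases Nat.lt_or_ge i 2300 with h0 | h0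
  · exact allR_spec _ (0 : ℕ) (2300 : ℕ) pk0_0 i (by omega) (by omega)
  exact allR_spec _ (2300 : ℕ) (2300 : ℕ) pk0_1 i (by omega) (by omega)
theorem pk1 : allR (ckPerm (nat_lit 4600) X1 X0) (nat_lit 0) (nat_lit 4600) = true := by
  apply allR_of_forall
  intro i hi
  have hi : i < 4600 := hi
  rcases Nat.lt_or_ge i 2300 with h0 | h0
  · exact allR_spec _ (0 : ℕ) (2300 : ℕ) pk1_0 i (by omega) (by omega)
  exact allR_spec _ (2300 : ℕ) (2300 : ℕ) pk1_1 i (by omega) (by omega)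
theorem pk2 : allR (ckPerm (nat_lit 4600) X2 X3) (nat_lit 0) (nat_lit 4600) = true := by
  apply allR_of_forall
  intro i hi
  have hi : i < 4600 := hi
  rcases Nat.lt_or_ge i 2300 with h0 | h0
  · exact allR_spec _ (0 : ℕ) (2300 : ℕ) pk2_0 i (by omega) (by omega)
  exact allR_spec _ (2300 : ℕ) (2300 : ℕ) pk2_1 i (by omega) (by omega)
theorem pk3 : allR (ckPerm (nat_lit 4600) X3 X2) (nat_lit 0) (nat_lit 4600) = true := by
  apply allR_of_forall
  intro i hi
  have hi : i < 4600 := hi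
  rcases Nat.lt_or_ge i 2300 with h0 | h0
  · exact allR_spec _ (0 : ℕ) (2300 : ℕ) pk3_0 i (by omega) (by omega)
  exact allR_spec _ (2300 : ℕ) (2300 : ℕ) pk3_1 i (by omega) (by omega)
theorem pk4 : allR (ckPerm (nat_lit 4600) X4 X5) (nat_lit 0) (nat_lit 4600) = true := by
  apply allR_of_forall
  intro i hi
  have hi : i < 4600 := hi
  rcases Nat.lt_or_ge i 2300 with h0 | h0
  · exact allR_spec _ (0 : ℕ) (2300 : ℕ) pk4_0 i (by omega) (by omega)
  exact allR_spec _ (2300 : ℕ) (2300 : ℕ) pk4_1 i (by omega) (by omega)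
theorem pk5 : allR (ckPerm (nat_lit 4600) X5 X4) (nat_lit 0) (nat_lit 4600) = true := by
  apply allR_of_forall
  intro i hi
  have hi : i < 4600 := hi
  rcases Nat.lt_or_ge i 2300 with h0 | h0
  · exact allR_spec _ (0 : ℕ) (2300 : ℕ) pk5_0 i (by omega) (by omega)
  exact allR_spec _ (2300 : ℕ) (2300 : ℕ) pk5_1 i (by omega) (by omega)
theorem pk6 : allR (ckPerm (nat_lit 4600) X6 X7) (nat_lit 0) (nat_lit 4600) = true := by
  apply allR_of_forall
  intro i hi
  have hi : i < 4600 := hi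
  rcases Nat.lt_or_ge i 2300 with h0 | h0
  · exact allR_spec _ (0 : ℕ) (2300 : ℕ) pk6_0 i (by omega) (by omega)
  exact allR_spec _ (2300 : ℕ) (2300 : ℕ) pk6_1 i (by omega) (by omega)
theorem pk7 : allR (ckPerm (nat_lit 4600) X7 X6) (nat_lit 0) (nat_lit 4600) = true := by
  apply allR_of_forall
  intro i hi
  have hi : i < 4600 := hi
  rcases Nat.lt_or_ge i 2300 with h0 | h0
  · exact allR_spec _ (0 : ℕ) (2300 : ℕ) pk7_0 i (by omega) (by omega)
  exact allR_spec _ (2300 : ℕ) (2300 : ℕ) pk7_1 i (by omega) (by omega)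
theorem pk8 : allR (ckPerm (nat_lit 4600) X8 X9) (nat_lit 0) (nat_lit 4600) = true := by
  apply allR_of_forall
  intro i hi
  have hi : i < 4600 := hi
  rcases Nat.lt_or_ge i 2300 with h0 | h0
  · exact allR_spec _ (0 : ℕ) (2300 : ℕ) pk8_0 i (by omega) (by omega)
  exact allR_spec _ (2300 : ℕ) (2300 : ℕ) pk8_1 i (by omega) (by omega)
theorem pk9 : allR (ckPerm (nat_lit 4600) X9 X8) (nat_lit 0) (nat_lit 4600) = true := by
  apply allR_of_forall
  intro i hi
  have hi : i < 4600 := hi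
  rcases Nat.lt_or_ge i 2300 with h0 | h0
  · exact allR_spec _ (0 : ℕ) (2300 : ℕ) pk9_0 i (by omega) (by omega)
  exact allR_spec _ (2300 : ℕ) (2300 : ℕ) pk9_1 i (by omega) (by omega)
theorem pk10 : allR (ckPerm (nat_lit 4600) X10 X11) (nat_lit 0) (nat_lit 4600) = true := by
  apply allR_of_forall
  intro i hi
  have hi : i < 4600 := hi
  rcases Nat.lt_or_ge i 2300 with h0 | h0
  · exact allR_spec _ (0 : ℕ) (2300 : ℕ) pk10_0 i (by omega) (by omega)
  exact allR_spec _ (2300 : ℕ) (2300 : ℕ) pk10_1 i (by omega) (by omega)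
theorem pk11 : allR (ckPerm (nat_lit 4600) X11 X10) (nat_lit 0) (nat_lit 4600) = true := by
  apply allR_of_forall
  intro i hi
  have hi : i < 4600 := hi
  rcases Nat.lt_or_ge i 2300 with h0 | h0
  · exact allR_spec _ (0 : ℕ) (2300 : ℕ) pk11_0 i (by omega) (by omega)
  exact allR_spec _ (2300 : ℕ) (2300 : ℕ) pk11_1 i (by omega) (by omega)
theorem pk12 : allR (ckPerm (nat_lit 4600) X12 X13) (nat_lit 0) (nat_lit 4600) = true := by
  apply allR_of_forall
  intro i hi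
  have hi : i < 4600 := hi
  rcases Nat.lt_or_ge i 2300 with h0 | h0
  · exact allR_spec _ (0 : ℕ) (2300 : ℕ) pk12_0 i (by omega) (by omega)
  exact allR_spec _ (2300 : ℕ) (2300 : ℕ) pk12_1 i (by omega) (by omega)
theorem pk13 : allR (ckPerm (nat_lit 4600) X13 X12) (nat_lit 0) (nat_lit 4600) = true := by
  apply allR_of_forall
  intro i hi
  have hi : i < 4600 := hi
  rcases Nat.lt_or_ge i 2300 with h0 | h0
  · exact allR_spec _ (0 : ℕ) (2300 : ℕ) pk13_0 i (by omega) (by omega)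
  exact allR_spec _ (2300 : ℕ) (2300 : ℕ) pk13_1 i (by omega) (by omega)
theorem pk14 : allR (ckPerm (nat_lit 4600) X14 X15) (nat_lit 0) (nat_lit 4600) = true := by
  apply allR_of_forall
  intro i hi
  have hi : i < 4600 := hi
  rcases Nat.lt_or_ge i 2300 with h0 | h0
  · exact allR_spec _ (0 : ℕ) (2300 : ℕ) pk14_0 i (by omega) (by omega)
  exact allR_spec _ (2300 : ℕ) (2300 : ℕ) pk14_1 i (by omega) (by omega)
theorem pk15 : allR (ckPerm (nat_lit 4600) X15 X14) (nat_lit 0) (nat_lit 4600) = true := by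
  apply allR_of_forall
  intro i hi
  have hi : i < 4600 := hi
  rcases Nat.lt_or_ge i 2300 with h0 | h0
  · exact allR_spec _ (0 : ℕ) (2300 : ℕ) pk15_0 i (by omega) (by omega)
  exact allR_spec _ (2300 : ℕ) (2300 : ℕ) pk15_1 i (by omega) (by omega)
theorem pk16 : allR (ckPerm (nat_lit 4600) X16 X17) (nat_lit 0) (nat_lit 4600) = true := by
  apply allR_of_forall
  intro i hi
  have hi : i < 4600 := hi
  rcases Nat.lt_or_ge i 2300 with h0 | h0
  · exact allR_spec _ (0 : ℕ) (2300 : ℕ) pk16_0 i (by omega) (by omega)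
  exact allR_spec _ (2300 : ℕ) (2300 : ℕ) pk16_1 i (by omega) (by omega)
theorem pk17 : allR (ckPerm (nat_lit 4600) X17 X16) (nat_lit 0) (nat_lit 4600) = true := by
  apply allR_of_forall
  intro i hi
  have hi : i < 4600 := hi
  rcases Nat.lt_or_ge i 2300 with h0 | h0
  · exact allR_spec _ (0 : ℕ) (2300 : ℕ) pk17_0 i (by omega) (by omega)
  exact allR_spec _ (2300 : ℕ) (2300 : ℕ) pk17_1 i (by omega) (by omega)
theorem pk18 : allR (ckPerm (nat_lit 4600) X18 X19) (nat_lit 0) (nat_lit 4600) = true := by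
  apply allR_of_forall
  intro i hi
  have hi : i < 4600 := hi
  rcases Nat.lt_or_ge i 2300 with h0 | h0
  · exact allR_spec _ (0 : ℕ) (2300 : ℕ) pk18_0 i (by omega) (by omega)
  exact allR_spec _ (2300 : ℕ) (2300 : ℕ) pk18_1 i (by omega) (by omega)
theorem pk19 : allR (ckPerm (nat_lit 4600) X19 X18) (nat_lit 0) (nat_lit 4600) = true := by
  apply allR_of_forall
  intro i hi
  have hi : i < 4600 := hi
  rcases Nat.lt_or_ge i 2300 with h0 | h0
  · exact allR_spec _ (0 : ℕ) (2300 : ℕ) pk19_0 i (by omega) (by omega)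
  exact allR_spec _ (2300 : ℕ) (2300 : ℕ) pk19_1 i (by omega) (by omega)
theorem pk20 : allR (ckPerm (nat_lit 4600) X20 X21) (nat_lit 0) (nat_lit 4600) = true := by
  apply allR_of_forall
  intro i hi
  have hi : i < 4600 := hi
  rcases Nat.lt_or_ge i 2300 with h0 | h0
  · exact allR_spec _ (0 : ℕ) (2300 : ℕ) pk20_0 i (by omega) (by omega)
  exact allR_spec _ (2300 : ℕ) (2300 : ℕ) pk20_1 i (by omega) (by omega)
theorem pk21 : allR (ckPerm (nat_lit 4600) X21 X20) (nat_lit 0) (nat_lit 4600) = true := by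
  apply allR_of_forall
  intro i hi
  have hi : i < 4600 := hi
  rcases Nat.lt_or_ge i 2300 with h0 | h0
  · exact allR_spec _ (0 : ℕ) (2300 : ℕ) pk21_0 i (by omega) (by omega)
  exact allR_spec _ (2300 : ℕ) (2300 : ℕ) pk21_1 i (by omega) (by omega)
theorem pk22 : allR (ckPerm (nat_lit 4600) X22 X23) (nat_lit 0) (nat_lit 4600) = true := by
  apply allR_of_forall
  intro i hi
  have hi : i < 4600 := hi
  rcases Nat.lt_or_ge i 2300 with h0 | h0
  · exact allR_spec _ (0 : ℕ) (2300 : ℕ) pk22_0 i (by omega) (by omega)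
  exact allR_spec _ (2300 : ℕ) (2300 : ℕ) pk22_1 i (by omega) (by omega)
theorem pk23 : allR (ckPerm (nat_lit 4600) X23 X22) (nat_lit 0) (nat_lit 4600) = true := by
  apply allR_of_forall
  intro i hi
  have hi : i < 4600 := hi
  rcases Nat.lt_or_ge i 2300 with h0 | h0
  · exact allR_spec _ (0 : ℕ) (2300 : ℕ) pk23_0 i (by omega) (by omega)
  exact allR_spec _ (2300 : ℕ) (2300 : ℕ) pk23_1 i (by omega) (by omega)
theorem pk24 : allR (ckPerm (nat_lit 4600) X24 X25) (nat_lit 0) (nat_lit 4600) = true := by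
  apply allR_of_forall
  intro i hi
  have hi : i < 4600 := hi
  rcases Nat.lt_or_ge i 2300 with h0 | h0
  · exact allR_spec _ (0 : ℕ) (2300 : ℕ) pk24_0 i (by omega) (by omega)
  exact allR_spec _ (2300 : ℕ) (2300 : ℕ) pk24_1 i (by omega) (by omega)
theorem pk25 : allR (ckPerm (nat_lit 4600) X25 X24) (nat_lit 0) (nat_lit 4600) = true := by
  apply allR_of_forall
  intro i hi
  have hi : i < 4600 := hi
  rcases Nat.lt_or_ge i 2300 with h0 | h0
  · exact allR_spec _ (0 : ℕ) (2300 : ℕ) pk25_0 i (by omega) (by omega)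
  exact allR_spec _ (2300 : ℕ) (2300 : ℕ) pk25_1 i (by omega) (by omega)
theorem pk26 : allR (ckPerm (nat_lit 4600) X26 X27) (nat_lit 0) (nat_lit 4600) = true := by
  apply allR_of_forall
  intro i hi
  have hi : i < 4600 := hi
  rcases Nat.lt_or_ge i 2300 with h0 | h0
  · exact allR_spec _ (0 : ℕ) (2300 : ℕ) pk26_0 i (by omega) (by omega)
  exact allR_spec _ (2300 : ℕ) (2300 : ℕ) pk26_1 i (by omega) (by omega)
theorem pk27 : allR (ckPerm (nat_lit 4600) X27 X26) (nat_lit 0) (nat_lit 4600) = true := by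
  apply allR_of_forall
  intro i hi
  have hi : i < 4600 := hi
  rcases Nat.lt_or_ge i 2300 with h0 | h0
  · exact allR_spec _ (0 : ℕ) (2300 : ℕ) pk27_0 i (by omega) (by omega)
  exact allR_spec _ (2300 : ℕ) (2300 : ℕ) pk27_1 i (by omega) (by omega)
theorem pk28 : allR (ckPerm (nat_lit 4600) X28 X29) (nat_lit 0) (nat_lit 4600) = true := by
  apply allR_of_forall
  intro i hi
  have hi : i < 4600 := hi
  rcases Nat.lt_or_ge i 2300 with h0 | h0
  · exact allR_spec _ (0 : ℕ) (2300 : ℕ) pk28_0 i (by omega) (by omega)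
  exact allR_spec _ (2300 : ℕ) (2300 : ℕ) pk28_1 i (by omega) (by omega)
theorem pk29 : allR (ckPerm (nat_lit 4600) X29 X28) (nat_lit 0) (nat_lit 4600) = true := by
  apply allR_of_forall
  intro i hi
  have hi : i < 4600 := hi
  rcases Nat.lt_or_ge i 2300 with h0 | h0
  · exact allR_spec _ (0 : ℕ) (2300 : ℕ) pk29_0 i (by omega) (by omega)
  exact allR_spec _ (2300 : ℕ) (2300 : ℕ) pk29_1 i (by omega) (by omega)
theorem pk30 : allR (ckPerm (nat_lit 4600) X30 X31) (nat_lit 0) (nat_lit 4600) = true := by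
  apply allR_of_forall
  intro i hi
  have hi : i < 4600 := hi
  rcases Nat.lt_or_ge i 2300 with h0 | h0
  · exact allR_spec _ (0 : ℕ) (2300 : ℕ) pk30_0 i (by omega) (by omega)
  exact allR_spec _ (2300 : ℕ) (2300 : ℕ) pk30_1 i (by omega) (by omega)
theorem pk31 : allR (ckPerm (nat_lit 4600) X31 X30) (nat_lit 0) (nat_lit 4600) = true := by
  apply allR_of_forall
  intro i hi
  have hi : i < 4600 := hi
  rcases Nat.lt_or_ge i 2300 with h0 | h0
  · exact allR_spec _ (0 : ℕ) (2300 : ℕ) pk31_0 i (by omega) (by omega)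
  exact allR_spec _ (2300 : ℕ) (2300 : ℕ) pk31_1 i (by omega) (by omega)
theorem pk32 : allR (ckPerm (nat_lit 4600) X32 X33) (nat_lit 0) (nat_lit 4600) = true := by
  apply allR_of_forall
  intro i hi
  have hi : i < 4600 := hi
  rcases Nat.lt_or_ge i 2300 with h0 | h0
  · exact allR_spec _ (0 : ℕ) (2300 : ℕ) pk32_0 i (by omega) (by omega)
  exact allR_spec _ (2300 : ℕ) (2300 : ℕ) pk32_1 i (by omega) (by omega)
theorem pk33 : allR (ckPerm (nat_lit 4600) X33 X32) (nat_lit 0) (nat_lit 4600) = true := by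
  apply allR_of_forall
  intro i hi
  have hi : i < 4600 := hi
  rcases Nat.lt_or_ge i 2300 with h0 | h0
  · exact allR_spec _ (0 : ℕ) (2300 : ℕ) pk33_0 i (by omega) (by omega)
  exact allR_spec _ (2300 : ℕ) (2300 : ℕ) pk33_1 i (by omega) (by omega)
theorem pk34 : allR (ckPerm (nat_lit 4600) X34 X35) (nat_lit 0) (nat_lit 4600) = true := by
  apply allR_of_forall
  intro i hi
  have hi : i < 4600 := hi
  rcases Nat.lt_or_ge i 2300 with h0 | h0
  · exact allR_spec _ (0 : ℕ) (2300 : ℕ) pk34_0 i (by omega) (by omega)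
  exact allR_spec _ (2300 : ℕ) (2300 : ℕ) pk34_1 i (by omega) (by omega)
theorem pk35 : allR (ckPerm (nat_lit 4600) X35 X34) (nat_lit 0) (nat_lit 4600) = true := by
  apply allR_of_forall
  intro i hi
  have hi : i < 4600 := hi
  rcases Nat.lt_or_ge i 2300 with h0 | h0
  · exact allR_spec _ (0 : ℕ) (2300 : ℕ) pk35_0 i (by omega) (by omega)
  exact allR_spec _ (2300 : ℕ) (2300 : ℕ) pk35_1 i (by omega) (by omega)
theorem pk36 : allR (ckPerm (nat_lit 4600) X36 X37) (nat_lit 0) (nat_lit 4600) = true := by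
  apply allR_of_forall
  intro i hi
  have hi : i < 4600 := hi
  rcases Nat.lt_or_ge i 2300 with h0 | h0
  · exact allR_spec _ (0 : ℕ) (2300 : ℕ) pk36_0 i (by omega) (by omega)
  exact allR_spec _ (2300 : ℕ) (2300 : ℕ) pk36_1 i (by omega) (by omega)
theorem pk37 : allR (ckPerm (nat_lit 4600) X37 X36) (nat_lit 0) (nat_lit 4600) = true := by
  apply allR_of_forall
  intro i hi
  have hi : i < 4600 := hi
  rcases Nat.lt_or_ge i 2300 with h0 | h0
  · exact allR_spec _ (0 : ℕ) (2300 : ℕ) pk37_0 i (by omega) (by omega)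
  exact allR_spec _ (2300 : ℕ) (2300 : ℕ) pk37_1 i (by omega) (by omega)
theorem pk38 : allR (ckPerm (nat_lit 4600) X38 X39) (nat_lit 0) (nat_lit 4600) = true := by
  apply allR_of_forall
  intro i hi
  have hi : i < 4600 := hi
  rcases Nat.lt_or_ge i 2300 with h0 | h0
  · exact allR_spec _ (0 : ℕ) (2300 : ℕ) pk38_0 i (by omega) (by omega)
  exact allR_spec _ (2300 : ℕ) (2300 : ℕ) pk38_1 i (by omega) (by omega)
theorem pk39 : allR (ckPerm (nat_lit 4600) X39 X38) (nat_lit 0) (nat_lit 4600) = true := by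
  apply allR_of_forall
  intro i hi
  have hi : i < 4600 := hi
  rcases Nat.lt_or_ge i 2300 with h0 | h0
  · exact allR_spec _ (0 : ℕ) (2300 : ℕ) pk39_0 i (by omega) (by omega)
  exact allR_spec _ (2300 : ℕ) (2300 : ℕ) pk39_1 i (by omega) (by omega)
theorem pk40 : allR (ckPerm (nat_lit 4600) X40 X41) (nat_lit 0) (nat_lit 4600) = true := by
  apply allR_of_forall
  intro i hi
  have hi : i < 4600 := hi
  rcases Nat.lt_or_ge i 2300 with h0 | h0
  · exact allR_spec _ (0 : ℕ) (2300 : ℕ) pk40_0 i (by omega) (by omega)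
  exact allR_spec _ (2300 : ℕ) (2300 : ℕ) pk40_1 i (by omega) (by omega)
theorem pk41 : allR (ckPerm (nat_lit 4600) X41 X40) (nat_lit 0) (nat_lit 4600) = true := by
  apply allR_of_forall
  intro i hi
  have hi : i < 4600 := hi
  rcases Nat.lt_or_ge i 2300 with h0 | h0
  · exact allR_spec _ (0 : ℕ) (2300 : ℕ) pk41_0 i (by omega) (by omega)
  exact allR_spec _ (2300 : ℕ) (2300 : ℕ) pk41_1 i (by omega) (by omega)
theorem pk42 : allR (ckPerm (nat_lit 4600) X42 X43) (nat_lit 0) (nat_lit 4600) = true := by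
  apply allR_of_forall
  intro i hi
  have hi : i < 4600 := hi
  rcases Nat.lt_or_ge i 2300 with h0 | h0
  · exact allR_spec _ (0 : ℕ) (2300 : ℕ) pk42_0 i (by omega) (by omega)
  exact allR_spec _ (2300 : ℕ) (2300 : ℕ) pk42_1 i (by omega) (by omega)
theorem pk43 : allR (ckPerm (nat_lit 4600) X43 X42) (nat_lit 0) (nat_lit 4600) = true := by
  apply allR_of_forall
  intro i hi
  have hi : i < 4600 := hi
  rcases Nat.lt_or_ge i 2300 with h0 | h0
  · exact allR_spec _ (0 : ℕ) (2300 : ℕ) pk43_0 i (by omega) (by omega)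
  exact allR_spec _ (2300 : ℕ) (2300 : ℕ) pk43_1 i (by omega) (by omega)
theorem pk44 : allR (ckPerm (nat_lit 4600) X44 X45) (nat_lit 0) (nat_lit 4600) = true := by
  apply allR_of_forall
  intro i hi
  have hi : i < 4600 := hi
  rcases Nat.lt_or_ge i 2300 with h0 | h0
  · exact allR_spec _ (0 : ℕ) (2300 : ℕ) pk44_0 i (by omega) (by omega)
  exact allR_spec _ (2300 : ℕ) (2300 : ℕ) pk44_1 i (by omega) (by omega)
theorem pk45 : allR (ckPerm (nat_lit 4600) X45 X44) (nat_lit 0) (nat_lit 4600) = true := by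
  apply allR_of_forall
  intro i hi
  have hi : i < 4600 := hi
  rcases Nat.lt_or_ge i 2300 with h0 | h0
  · exact allR_spec _ (0 : ℕ) (2300 : ℕ) pk45_0 i (by omega) (by omega)
  exact allR_spec _ (2300 : ℕ) (2300 : ℕ) pk45_1 i (by omega) (by omega)
theorem pk46 : allR (ckPerm (nat_lit 4600) X46 X47) (nat_lit 0) (nat_lit 4600) = true := by
  apply allR_of_forall
  intro i hi
  have hi : i < 4600 := hi
  rcases Nat.lt_or_ge i 2300 with h0 | h0
  · exact allR_spec _ (0 : ℕ) (2300 : ℕ) pk46_0 i (by omega) (by omega)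
  exact allR_spec _ (2300 : ℕ) (2300 : ℕ) pk46_1 i (by omega) (by omega)
theorem pk47 : allR (ckPerm (nat_lit 4600) X47 X46) (nat_lit 0) (nat_lit 4600) = true := by
  apply allR_of_forall
  intro i hi
  have hi : i < 4600 := hi
  rcases Nat.lt_or_ge i 2300 with h0 | h0
  · exact allR_spec _ (0 : ℕ) (2300 : ℕ) pk47_0 i (by omega) (by omega)
  exact allR_spec _ (2300 : ℕ) (2300 : ℕ) pk47_1 i (by omega) (by omega)
theorem pk48 : allR (ckPerm (nat_lit 4600) X48 X49) (nat_lit 0) (nat_lit 4600) = true := by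
  apply allR_of_forall
  intro i hi
  have hi : i < 4600 := hi
  rcases Nat.lt_or_ge i 2300 with h0 | h0
  · exact allR_spec _ (0 : ℕ) (2300 : ℕ) pk48_0 i (by omega) (by omega)
  exact allR_spec _ (2300 : ℕ) (2300 : ℕ) pk48_1 i (by omega) (by omega)
theorem pk49 : allR (ckPerm (nat_lit 4600) X49 X48) (nat_lit 0) (nat_lit 4600) = true := by
  apply allR_of_forall
  intro i hi
  have hi : i < 4600 := hi
  rcases Nat.lt_or_ge i 2300 with h0 | h0
  · exact allR_spec _ (0 : ℕ) (2300 : ℕ) pk49_0 i (by omega) (by omega)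
  exact allR_spec _ (2300 : ℕ) (2300 : ℕ) pk49_1 i (by omega) (by omega)
theorem pk50 : allR (ckPerm (nat_lit 4600) X50 X51) (nat_lit 0) (nat_lit 4600) = true := by
  apply allR_of_forall
  intro i hi
  have hi : i < 4600 := hi
  rcases Nat.lt_or_ge i 2300 with h0 | h0
  · exact allR_spec _ (0 : ℕ) (2300 : ℕ) pk50_0 i (by omega) (by omega)
  exact allR_spec _ (2300 : ℕ) (2300 : ℕ) pk50_1 i (by omega) (by omega)
theorem pk51 : allR (ckPerm (nat_lit 4600) X51 X50) (nat_lit 0) (nat_lit 4600) = true := by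
  apply allR_of_forall
  intro i hi
  have hi : i < 4600 := hi
  rcases Nat.lt_or_ge i 2300 with h0 | h0
  · exact allR_spec _ (0 : ℕ) (2300 : ℕ) pk51_0 i (by omega) (by omega)
  exact allR_spec _ (2300 : ℕ) (2300 : ℕ) pk51_1 i (by omega) (by omega)
theorem pk52 : allR (ckPerm (nat_lit 4600) X52 X53) (nat_lit 0) (nat_lit 4600) = true := by
  apply allR_of_forall
  intro i hi
  have hi : i < 4600 := hi
  rcases Nat.lt_or_ge i 2300 with h0 | h0
  · exact allR_spec _ (0 : ℕ) (2300 : ℕ) pk52_0 i (by omega) (by omega)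
  exact allR_spec _ (2300 : ℕ) (2300 : ℕ) pk52_1 i (by omega) (by omega)
theorem pk53 : allR (ckPerm (nat_lit 4600) X53 X52) (nat_lit 0) (nat_lit 4600) = true := by
  apply allR_of_forall
  intro i hi
  have hi : i < 4600 := hi
  rcases Nat.lt_or_ge i 2300 with h0 | h0
  · exact allR_spec _ (0 : ℕ) (2300 : ℕ) pk53_0 i (by omega) (by omega)
  exact allR_spec _ (2300 : ℕ) (2300 : ℕ) pk53_1 i (by omega) (by omega)
theorem pk54 : allR (ckPerm (nat_lit 4600) X54 X55) (nat_lit 0) (nat_lit 4600) = true := by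
  apply allR_of_forall
  intro i hi
  have hi : i < 4600 := hi
  rcases Nat.lt_or_ge i 2300 with h0 | h0
  · exact allR_spec _ (0 : ℕ) (2300 : ℕ) pk54_0 i (by omega) (by omega)
  exact allR_spec _ (2300 : ℕ) (2300 : ℕ) pk54_1 i (by omega) (by omega)
theorem pk55 : allR (ckPerm (nat_lit 4600) X55 X54) (nat_lit 0) (nat_lit 4600) = true := by
  apply allR_of_forall
  intro i hi
  have hi : i < 4600 := hi
  rcases Nat.lt_or_ge i 2300 with h0 | h0
  · exact allR_spec _ (0 : ℕ) (2300 : ℕ) pk55_0 i (by omega) (by omega)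
  exact allR_spec _ (2300 : ℕ) (2300 : ℕ) pk55_1 i (by omega) (by omega)
theorem pk56 : allR (ckPerm (nat_lit 4600) X56 X57) (nat_lit 0) (nat_lit 4600) = true := by
  apply allR_of_forall
  intro i hi
  have hi : i < 4600 := hi
  rcases Nat.lt_or_ge i 2300 with h0 | h0
  · exact allR_spec _ (0 : ℕ) (2300 : ℕ) pk56_0 i (by omega) (by omega)
  exact allR_spec _ (2300 : ℕ) (2300 : ℕ) pk56_1 i (by omega) (by omega)
theorem pk57 : allR (ckPerm (nat_lit 4600) X57 X56) (nat_lit 0) (nat_lit 4600) = true := by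
  apply allR_of_forall
  intro i hi
  have hi : i < 4600 := hi
  rcases Nat.lt_or_ge i 2300 with h0 | h0
  · exact allR_spec _ (0 : ℕ) (2300 : ℕ) pk57_0 i (by omega) (by omega)
  exact allR_spec _ (2300 : ℕ) (2300 : ℕ) pk57_1 i (by omega) (by omega)
theorem wk0 : allR (OT.ckEqW [T2, T1, T2, T1, T0, T1, T0, T1, T0, T2, T0, T1, T0, T2, T0, T2, T0, T2, T1, T2, T1, T0, T2, T1] [X0]) (nat_lit 0) (nat_lit 4600) = true := by
  apply allR_of_forall
  intro i hi
  have hi : i < 4600 := hi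
  rcases Nat.lt_or_ge i 184 with h0 | h0
  · exact allR_spec _ (0 : ℕ) (184 : ℕ) wk0_0 i (by omega) (by omega)
  rcases Nat.lt_or_ge i 368 with h1 | h1
  · exact allR_spec _ (184 : ℕ) (184 : ℕ) wk0_1 i (by omega) (by omega)
  rcases Nat.lt_or_ge i 552 with h2 | h2
  · exact allR_spec _ (368 : ℕ) (184 : ℕ) wk0_2 i (by omega) (by omega)
  rcases Nat.lt_or_ge i 736 with h3 | h3
  · exact allR_spec _ (552 : ℕ) (184 : ℕ) wk0_3 i (by omega) (by omega)
  rcases Nat.lt_or_ge i 920 with h4 | h4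
  · exact allR_spec _ (736 : ℕ) (184 : ℕ) wk0_4 i (by omega) (by omega)
  rcases Nat.lt_or_ge i 1104 with h5 | h5
  · exact allR_spec _ (920 : ℕ) (184 : ℕ) wk0_5 i (by omega) (by omega)
  rcases Nat.lt_or_ge i 1288 with h6 | h6
  · exact allR_spec _ (1104 : ℕ) (184 : ℕ) wk0_6 i (by omega) (by omega)
  rcases Nat.lt_or_ge i 1472 with h7 | h7
  · exact allR_spec _ (1288 : ℕ) (184 : ℕ) wk0_7 i (by omega) (by omega)
  rcases Nat.lt_or_ge i 1656 with h8 | h8
  · exact allR_spec _ (1472 : ℕ) (184 : ℕ) wk0_8 i (by omega) (by omega)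
  rcases Nat.lt_or_ge i 1840 with h9 | h9
  · exact allR_spec _ (1656 : ℕ) (184 : ℕ) wk0_9 i (by omega) (by omega)
  rcases Nat.lt_or_ge i 2024 with h10 | h10
  · exact allR_spec _ (1840 : ℕ) (184 : ℕ) wk0_10 i (by omega) (by omega)
  rcases Nat.lt_or_ge i 2208 with h11 | h11
  · exact allR_spec _ (2024 : ℕ) (184 : ℕ) wk0_11 i (by omega) (by omega)
  rcases Nat.lt_or_ge i 2392 with h12 | h12
  · exact allR_spec _ (2208 : ℕ) (184 : ℕ) wk0_12 i (by omega) (by omega)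
  rcases Nat.lt_or_ge i 2576 with h13 | h13
  · exact allR_spec _ (2392 : ℕ) (184 : ℕ) wk0_13 i (by omega) (by omega)
  rcases Nat.lt_or_ge i 2760 with h14 | h14
  · exact allR_spec _ (2576 : ℕ) (184 : ℕ) wk0_14 i (by omega) (by omega)
  rcases Nat.lt_or_ge i 2944 with h15 | h15
  · exact allR_spec _ (2760 : ℕ) (184 : ℕ) wk0_15 i (by omega) (by omega)
  rcases Nat.lt_or_ge i 3128 with h16 | h16
  · exact allR_spec _ (2944 : ℕ) (184 : ℕ) wk0_16 i (by omega) (by omega)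
  rcases Nat.lt_or_ge i 3312 with h17 | h17
  · exact allR_spec _ (3128 : ℕ) (184 : ℕ) wk0_17 i (by omega) (by omega)
  rcases Nat.lt_or_ge i 3496 with h18 | h18
  · exact allR_spec _ (3312 : ℕ) (184 : ℕ) wk0_18 i (by omega) (by omega)
  rcases Nat.lt_or_ge i 3680 with h19 | h19
  · exact allR_spec _ (3496 : ℕ) (184 : ℕ) wk0_19 i (by omega) (by omega)
  rcases Nat.lt_or_ge i 3864 with h20 | h20
  · exact allR_spec _ (3680 : ℕ) (184 : ℕ) wk0_20 i (by omega) (by omega)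
  rcases Nat.lt_or_ge i 4048 with h21 | h21
  · exact allR_spec _ (3864 : ℕ) (184 : ℕ) wk0_21 i (by omega) (by omega)
  rcases Nat.lt_or_ge i 4232 with h22 | h22
  · exact allR_spec _ (4048 : ℕ) (184 : ℕ) wk0_22 i (by omega) (by omega)
  rcases Nat.lt_or_ge i 4416 with h23 | h23
  · exact allR_spec _ (4232 : ℕ) (184 : ℕ) wk0_23 i (by omega) (by omega)
  exact allR_spec _ (4416 : ℕ) (184 : ℕ) wk0_24 i (by omega) (by omega)
theorem wk1 : allR (OT.ckEqW [T0, T1, T0, T1, T0, T2, T0, T2, T0, T1, T0, T2, T0, T1, T0, T2, T0, T1, T2, T0, T1] [X2]) (nat_lit 0) (nat_lit 4600) = true := by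
  apply allR_of_forall
  intro i hi
  have hi : i < 4600 := hi
  rcases Nat.lt_or_ge i 209 with h0 | h0
  · exact allR_spec _ (0 : ℕ) (209 : ℕ) wk1_0 i (by omega) (by omega)
  rcases Nat.lt_or_ge i 418 with h1 | h1
  · exact allR_spec _ (209 : ℕ) (209 : ℕ) wk1_1 i (by omega) (by omega)
  rcases Nat.lt_or_ge i 627 with h2 | h2
  · exact allR_spec _ (418 : ℕ) (209 : ℕ) wk1_2 i (by omega) (by omega)
  rcases Nat.lt_or_ge i 836 with h3 | h3
  · exact allR_spec _ (627 : ℕ) (209 : ℕ) wk1_3 i (by omega) (by omega)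
  rcases Nat.lt_or_ge i 1045 with h4 | h4
  · exact allR_spec _ (836 : ℕ) (209 : ℕ) wk1_4 i (by omega) (by omega)
  rcases Nat.lt_or_ge i 1254 with h5 | h5
  · exact allR_spec _ (1045 : ℕ) (209 : ℕ) wk1_5 i (by omega) (by omega)
  rcases Nat.lt_or_ge i 1463 with h6 | h6
  · exact allR_spec _ (1254 : ℕ) (209 : ℕ) wk1_6 i (by omega) (by omega)
  rcases Nat.lt_or_ge i 1672 with h7 | h7
  · exact allR_spec _ (1463 : ℕ) (209 : ℕ) wk1_7 i (by omega) (by omega)
  rcases Nat.lt_or_ge i 1881 with h8 | h8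
  · exact allR_spec _ (1672 : ℕ) (209 : ℕ) wk1_8 i (by omega) (by omega)
  rcases Nat.lt_or_ge i 2090 with h9 | h9
  · exact allR_spec _ (1881 : ℕ) (209 : ℕ) wk1_9 i (by omega) (by omega)
  rcases Nat.lt_or_ge i 2299 with h10 | h10
  · exact allR_spec _ (2090 : ℕ) (209 : ℕ) wk1_10 i (by omega) (by omega)
  rcases Nat.lt_or_ge i 2508 with h11 | h11
  · exact allR_spec _ (2299 : ℕ) (209 : ℕ) wk1_11 i (by omega) (by omega)
  rcases Nat.lt_or_ge i 2717 with h12 | h12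
  · exact allR_spec _ (2508 : ℕ) (209 : ℕ) wk1_12 i (by omega) (by omega)
  rcases Nat.lt_or_ge i 2926 with h13 | h13
  · exact allR_spec _ (2717 : ℕ) (209 : ℕ) wk1_13 i (by omega) (by omega)
  rcases Nat.lt_or_ge i 3135 with h14 | h14
  · exact allR_spec _ (2926 : ℕ) (209 : ℕ) wk1_14 i (by omega) (by omega)
  rcases Nat.lt_or_ge i 3344 with h15 | h15
  · exact allR_spec _ (3135 : ℕ) (209 : ℕ) wk1_15 i (by omega) (by omega)
  rcases Nat.lt_or_ge i 3553 with h16 | h16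
  · exact allR_spec _ (3344 : ℕ) (209 : ℕ) wk1_16 i (by omega) (by omega)
  rcases Nat.lt_or_ge i 3762 with h17 | h17
  · exact allR_spec _ (3553 : ℕ) (209 : ℕ) wk1_17 i (by omega) (by omega)
  rcases Nat.lt_or_ge i 3971 with h18 | h18
  · exact allR_spec _ (3762 : ℕ) (209 : ℕ) wk1_18 i (by omega) (by omega)
  rcases Nat.lt_or_ge i 4180 with h19 | h19
  · exact allR_spec _ (3971 : ℕ) (209 : ℕ) wk1_19 i (by omega) (by omega)
  rcases Nat.lt_or_ge i 4389 with h20 | h20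
  · exact allR_spec _ (4180 : ℕ) (209 : ℕ) wk1_20 i (by omega) (by omega)
  rcases Nat.lt_or_ge i 4598 with h21 | h21
  · exact allR_spec _ (4389 : ℕ) (209 : ℕ) wk1_21 i (by omega) (by omega)
  exact allR_spec _ (4598 : ℕ) (2 : ℕ) wk1_22 i (by omega) (by omega)
theorem wk2 : allR (OT.ckEqW [X1, X3, X0, X2, X0, X0, X3, X3, X1, X1, X1, X2] [X4]) (nat_lit 0) (nat_lit 4600) = true := by
  apply allR_of_forall
  intro i hi
  have hi : i < 4600 := hi
  rcases Nat.lt_or_ge i 353 with h0 | h0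
  · exact allR_spec _ (0 : ℕ) (353 : ℕ) wk2_0 i (by omega) (by omega)
  rcases Nat.lt_or_ge i 706 with h1 | h1
  · exact allR_spec _ (353 : ℕ) (353 : ℕ) wk2_1 i (by omega) (by omega)
  rcases Nat.lt_or_ge i 1059 with h2 | h2
  · exact allR_spec _ (706 : ℕ) (353 : ℕ) wk2_2 i (by omega) (by omega)
  rcases Nat.lt_or_ge i 1412 with h3 | h3
  · exact allR_spec _ (1059 : ℕ) (353 : ℕ) wk2_3 i (by omega) (by omega)
  rcases Nat.lt_or_ge i 1765 with h4 | h4
  · exact allR_spec _ (1412 : ℕ) (353 : ℕ) wk2_4 i (by omega) (by omega)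
  rcases Nat.lt_or_ge i 2118 with h5 | h5
  · exact allR_spec _ (1765 : ℕ) (353 : ℕ) wk2_5 i (by omega) (by omega)
  rcases Nat.lt_or_ge i 2471 with h6 | h6
  · exact allR_spec _ (2118 : ℕ) (353 : ℕ) wk2_6 i (by omega) (by omega)
  rcases Nat.lt_or_ge i 2824 with h7 | h7
  · exact allR_spec _ (2471 : ℕ) (353 : ℕ) wk2_7 i (by omega) (by omega)
  rcases Nat.lt_or_ge i 3177 with h8 | h8
  · exact allR_spec _ (2824 : ℕ) (353 : ℕ) wk2_8 i (by omega) (by omega)
  rcases Nat.lt_or_ge i 3530 with h9 | h9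
  · exact allR_spec _ (3177 : ℕ) (353 : ℕ) wk2_9 i (by omega) (by omega)
  rcases Nat.lt_or_ge i 3883 with h10 | h10
  · exact allR_spec _ (3530 : ℕ) (353 : ℕ) wk2_10 i (by omega) (by omega)
  rcases Nat.lt_or_ge i 4236 with h11 | h11
  · exact allR_spec _ (3883 : ℕ) (353 : ℕ) wk2_11 i (by omega) (by omega)
  rcases Nat.lt_or_ge i 4589 with h12 | h12
  · exact allR_spec _ (4236 : ℕ) (353 : ℕ) wk2_12 i (by omega) (by omega)
  exact allR_spec _ (4589 : ℕ) (11 : ℕ) wk2_13 i (by omega) (by omega)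
theorem wk3 : allR (OT.ckEqW [X1, X3, X3, X1, X1, X2, X1, X3, X1, X3, X0] [X6]) (nat_lit 0) (nat_lit 4600) = true := by
  apply allR_of_forall
  intro i hi
  have hi : i < 4600 := hi
  rcases Nat.lt_or_ge i 383 with h0 | h0
  · exact allR_spec _ (0 : ℕ) (383 : ℕ) wk3_0 i (by omega) (by omega)
  rcases Nat.lt_or_ge i 766 with h1 | h1
  · exact allR_spec _ (383 : ℕ) (383 : ℕ) wk3_1 i (by omega) (by omega)
  rcases Nat.lt_or_ge i 1149 with h2 | h2
  · exact allR_spec _ (766 : ℕ) (383 : ℕ) wk3_2 i (by omega) (by omega)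
  rcases Nat.lt_or_ge i 1532 with h3 | h3
  · exact allR_spec _ (1149 : ℕ) (383 : ℕ) wk3_3 i (by omega) (by omega)
  rcases Nat.lt_or_ge i 1915 with h4 | h4
  · exact allR_spec _ (1532 : ℕ) (383 : ℕ) wk3_4 i (by omega) (by omega)
  rcases Nat.lt_or_ge i 2298 with h5 | h5
  · exact allR_spec _ (1915 : ℕ) (383 : ℕ) wk3_5 i (by omega) (by omega)
  rcases Nat.lt_or_ge i 2681 with h6 | h6
  · exact allR_spec _ (2298 : ℕ) (383 : ℕ) wk3_6 i (by omega) (by omega)
  rcases Nat.lt_or_ge i 3064 with h7 | h7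
  · exact allR_spec _ (2681 : ℕ) (383 : ℕ) wk3_7 i (by omega) (by omega)
  rcases Nat.lt_or_ge i 3447 with h8 | h8
  · exact allR_spec _ (3064 : ℕ) (383 : ℕ) wk3_8 i (by omega) (by omega)
  rcases Nat.lt_or_ge i 3830 with h9 | h9
  · exact allR_spec _ (3447 : ℕ) (383 : ℕ) wk3_9 i (by omega) (by omega)
  rcases Nat.lt_or_ge i 4213 with h10 | h10
  · exact allR_spec _ (3830 : ℕ) (383 : ℕ) wk3_10 i (by omega) (by omega)
  rcases Nat.lt_or_ge i 4596 with h11 | h11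
  · exact allR_spec _ (4213 : ℕ) (383 : ℕ) wk3_11 i (by omega) (by omega)
  exact allR_spec _ (4596 : ℕ) (4 : ℕ) wk3_12 i (by omega) (by omega)
theorem wk4 : allR (OT.ckEqW [X5, X6, X5, X6, X4, X7, X5, X5] [X8]) (nat_lit 0) (nat_lit 4600) = true := by
  apply allR_of_forall
  intro i hi
  have hi : i < 4600 := hi
  rcases Nat.lt_or_ge i 511 with h0 | h0
  · exact allR_spec _ (0 : ℕ) (511 : ℕ) wk4_0 i (by omega) (by omega)
  rcases Nat.lt_or_ge i 1022 with h1 | h1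
  · exact allR_spec _ (511 : ℕ) (511 : ℕ) wk4_1 i (by omega) (by omega)
  rcases Nat.lt_or_ge i 1533 with h2 | h2
  · exact allR_spec _ (1022 : ℕ) (511 : ℕ) wk4_2 i (by omega) (by omega)
  rcases Nat.lt_or_ge i 2044 with h3 | h3
  · exact allR_spec _ (1533 : ℕ) (511 : ℕ) wk4_3 i (by omega) (by omega)
  rcases Nat.lt_or_ge i 2555 with h4 | h4
  · exact allR_spec _ (2044 : ℕ) (511 : ℕ) wk4_4 i (by omega) (by omega)
  rcases Nat.lt_or_ge i 3066 with h5 | h5
  · exact allR_spec _ (2555 : ℕ) (511 : ℕ) wk4_5 i (by omega) (by omega)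
  rcases Nat.lt_or_ge i 3577 with h6 | h6
  · exact allR_spec _ (3066 : ℕ) (511 : ℕ) wk4_6 i (by omega) (by omega)
  rcases Nat.lt_or_ge i 4088 with h7 | h7
  · exact allR_spec _ (3577 : ℕ) (511 : ℕ) wk4_7 i (by omega) (by omega)
  rcases Nat.lt_or_ge i 4599 with h8 | h8
  · exact allR_spec _ (4088 : ℕ) (511 : ℕ) wk4_8 i (by omega) (by omega)
  exact allR_spec _ (4599 : ℕ) (1 : ℕ) wk4_9 i (by omega) (by omega)
theorem wk5 : allR (OT.ckEqW [X7, X4, X6, X6, X5, X7, X7] [X10]) (nat_lit 0) (nat_lit 4600) = true := by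
  apply allR_of_forall
  intro i hi
  have hi : i < 4600 := hi
  rcases Nat.lt_or_ge i 575 with h0 | h0
  · exact allR_spec _ (0 : ℕ) (575 : ℕ) wk5_0 i (by omega) (by omega)
  rcases Nat.lt_or_ge i 1150 with h1 | h1
  · exact allR_spec _ (575 : ℕ) (575 : ℕ) wk5_1 i (by omega) (by omega)
  rcases Nat.lt_or_ge i 1725 with h2 | h2
  · exact allR_spec _ (1150 : ℕ) (575 : ℕ) wk5_2 i (by omega) (by omega)
  rcases Nat.lt_or_ge i 2300 with h3 | h3
  · exact allR_spec _ (1725 : ℕ) (575 : ℕ) wk5_3 i (by omega) (by omega)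
  rcases Nat.lt_or_ge i 2875 with h4 | h4
  · exact allR_spec _ (2300 : ℕ) (575 : ℕ) wk5_4 i (by omega) (by omega)
  rcases Nat.lt_or_ge i 3450 with h5 | h5
  · exact allR_spec _ (2875 : ℕ) (575 : ℕ) wk5_5 i (by omega) (by omega)
  rcases Nat.lt_or_ge i 4025 with h6 | h6
  · exact allR_spec _ (3450 : ℕ) (575 : ℕ) wk5_6 i (by omega) (by omega)
  exact allR_spec _ (4025 : ℕ) (575 : ℕ) wk5_7 i (by omega) (by omega)
theorem wk6 : allR (OT.ckEqW [X7, X4, X6, X5, X7, X7, X5, X7, X4, X6, X4, X6] [X12]) (nat_lit 0) (nat_lit 4600) = true := by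
  apply allR_of_forall
  intro i hi
  have hi : i < 4600 := hi
  rcases Nat.lt_or_ge i 353 with h0 | h0
  · exact allR_spec _ (0 : ℕ) (353 : ℕ) wk6_0 i (by omega) (by omega)
  rcases Nat.lt_or_ge i 706 with h1 | h1
  · exact allR_spec _ (353 : ℕ) (353 : ℕ) wk6_1 i (by omega) (by omega)
  rcases Nat.lt_or_ge i 1059 with h2 | h2
  · exact allR_spec _ (706 : ℕ) (353 : ℕ) wk6_2 i (by omega) (by omega)
  rcases Nat.lt_or_ge i 1412 with h3 | h3
  · exact allR_spec _ (1059 : ℕ) (353 : ℕ) wk6_3 i (by omega) (by omega)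
  rcases Nat.lt_or_ge i 1765 with h4 | h4
  · exact allR_spec _ (1412 : ℕ) (353 : ℕ) wk6_4 i (by omega) (by omega)
  rcases Nat.lt_or_ge i 2118 with h5 | h5
  · exact allR_spec _ (1765 : ℕ) (353 : ℕ) wk6_5 i (by omega) (by omega)
  rcases Nat.lt_or_ge i 2471 with h6 | h6
  · exact allR_spec _ (2118 : ℕ) (353 : ℕ) wk6_6 i (by omega) (by omega)
  rcases Nat.lt_or_ge i 2824 with h7 | h7
  · exact allR_spec _ (2471 : ℕ) (353 : ℕ) wk6_7 i (by omega) (by omega)
  rcases Nat.lt_or_ge i 3177 with h8 | h8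
  · exact allR_spec _ (2824 : ℕ) (353 : ℕ) wk6_8 i (by omega) (by omega)
  rcases Nat.lt_or_ge i 3530 with h9 | h9
  · exact allR_spec _ (3177 : ℕ) (353 : ℕ) wk6_9 i (by omega) (by omega)
  rcases Nat.lt_or_ge i 3883 with h10 | h10
  · exact allR_spec _ (3530 : ℕ) (353 : ℕ) wk6_10 i (by omega) (by omega)
  rcases Nat.lt_or_ge i 4236 with h11 | h11
  · exact allR_spec _ (3883 : ℕ) (353 : ℕ) wk6_11 i (by omega) (by omega)
  rcases Nat.lt_or_ge i 4589 with h12 | h12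
  · exact allR_spec _ (4236 : ℕ) (353 : ℕ) wk6_12 i (by omega) (by omega)
  exact allR_spec _ (4589 : ℕ) (11 : ℕ) wk6_13 i (by omega) (by omega)
theorem wk7 : allR (OT.ckEqW [X11, X8, X12, X11, X9] [X14]) (nat_lit 0) (nat_lit 4600) = true := by
  apply allR_of_forall
  intro i hi
  have hi : i < 4600 := hi
  rcases Nat.lt_or_ge i 766 with h0 | h0
  · exact allR_spec _ (0 : ℕ) (766 : ℕ) wk7_0 i (by omega) (by omega)
  rcases Nat.lt_or_ge i 1532 with h1 | h1
  · exact allR_spec _ (766 : ℕ) (766 : ℕ) wk7_1 i (by omega) (by omega)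
  rcases Nat.lt_or_ge i 2298 with h2 | h2
  · exact allR_spec _ (1532 : ℕ) (766 : ℕ) wk7_2 i (by omega) (by omega)
  rcases Nat.lt_or_ge i 3064 with h3 | h3
  · exact allR_spec _ (2298 : ℕ) (766 : ℕ) wk7_3 i (by omega) (by omega)
  rcases Nat.lt_or_ge i 3830 with h4 | h4
  · exact allR_spec _ (3064 : ℕ) (766 : ℕ) wk7_4 i (by omega) (by omega)
  rcases Nat.lt_or_ge i 4596 with h5 | h5
  · exact allR_spec _ (3830 : ℕ) (766 : ℕ) wk7_5 i (by omega) (by omega)
  exact allR_spec _ (4596 : ℕ) (4 : ℕ) wk7_6 i (by omega) (by omega)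
theorem wk8 : allR (OT.ckEqW [X11, X11] [X16]) (nat_lit 0) (nat_lit 4600) = true := by
  apply allR_of_forall
  intro i hi
  have hi : i < 4600 := hi
  rcases Nat.lt_or_ge i 1533 with h0 | h0
  · exact allR_spec _ (0 : ℕ) (1533 : ℕ) wk8_0 i (by omega) (by omega)
  rcases Nat.lt_or_ge i 3066 with h1 | h1
  · exact allR_spec _ (1533 : ℕ) (1533 : ℕ) wk8_1 i (by omega) (by omega)
  rcases Nat.lt_or_ge i 4599 with h2 | h2
  · exact allR_spec _ (3066 : ℕ) (1533 : ℕ) wk8_2 i (by omega) (by omega)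
  exact allR_spec _ (4599 : ℕ) (1 : ℕ) wk8_3 i (by omega) (by omega)
theorem wk9 : allR (OT.ckEqW [X9, X10, X8, X10, X9] [X18]) (nat_lit 0) (nat_lit 4600) = true := by
  apply allR_of_forall
  intro i hi
  have hi : i < 4600 := hi
  rcases Nat.lt_or_ge i 766 with h0 | h0
  · exact allR_spec _ (0 : ℕ) (766 : ℕ) wk9_0 i (by omega) (by omega)
  rcases Nat.lt_or_ge i 1532 with h1 | h1
  · exact allR_spec _ (766 : ℕ) (766 : ℕ) wk9_1 i (by omega) (by omega)
  rcases Nat.lt_or_ge i 2298 with h2 | h2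
  · exact allR_spec _ (1532 : ℕ) (766 : ℕ) wk9_2 i (by omega) (by omega)
  rcases Nat.lt_or_ge i 3064 with h3 | h3
  · exact allR_spec _ (2298 : ℕ) (766 : ℕ) wk9_3 i (by omega) (by omega)
  rcases Nat.lt_or_ge i 3830 with h4 | h4
  · exact allR_spec _ (3064 : ℕ) (766 : ℕ) wk9_4 i (by omega) (by omega)
  rcases Nat.lt_or_ge i 4596 with h5 | h5
  · exact allR_spec _ (3830 : ℕ) (766 : ℕ) wk9_5 i (by omega) (by omega)
  exact allR_spec _ (4596 : ℕ) (4 : ℕ) wk9_6 i (by omega) (by omega)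
theorem wk10 : allR (OT.ckEqW [X16, X15, X15, X18, X16, X18, X14, X16, X15] [X20]) (nat_lit 0) (nat_lit 4600) = true := by
  apply allR_of_forall
  intro i hi
  have hi : i < 4600 := hi
  rcases Nat.lt_or_ge i 460 with h0 | h0
  · exact allR_spec _ (0 : ℕ) (460 : ℕ) wk10_0 i (by omega) (by omega)
  rcases Nat.lt_or_ge i 920 with h1 | h1
  · exact allR_spec _ (460 : ℕ) (460 : ℕ) wk10_1 i (by omega) (by omega)
  rcases Nat.lt_or_ge i 1380 with h2 | h2
  · exact allR_spec _ (920 : ℕ) (460 : ℕ) wk10_2 i (by omega) (by omega)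
  rcases Nat.lt_or_ge i 1840 with h3 | h3
  · exact allR_spec _ (1380 : ℕ) (460 : ℕ) wk10_3 i (by omega) (by omega)
  rcases Nat.lt_or_ge i 2300 with h4 | h4
  · exact allR_spec _ (1840 : ℕ) (460 : ℕ) wk10_4 i (by omega) (by omega)
  rcases Nat.lt_or_ge i 2760 with h5 | h5
  · exact allR_spec _ (2300 : ℕ) (460 : ℕ) wk10_5 i (by omega) (by omega)
  rcases Nat.lt_or_ge i 3220 with h6 | h6
  · exact allR_spec _ (2760 : ℕ) (460 : ℕ) wk10_6 i (by omega) (by omega)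
  rcases Nat.lt_or_ge i 3680 with h7 | h7
  · exact allR_spec _ (3220 : ℕ) (460 : ℕ) wk10_7 i (by omega) (by omega)
  rcases Nat.lt_or_ge i 4140 with h8 | h8
  · exact allR_spec _ (3680 : ℕ) (460 : ℕ) wk10_8 i (by omega) (by omega)
  exact allR_spec _ (4140 : ℕ) (460 : ℕ) wk10_9 i (by omega) (by omega)
theorem wk11 : allR (OT.ckEqW [X15, X15] [X22]) (nat_lit 0) (nat_lit 4600) = true := by
  apply allR_of_forall
  intro i hi
  have hi : i < 4600 := hi
  rcases Nat.lt_or_ge i 1533 with h0 | h0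
  · exact allR_spec _ (0 : ℕ) (1533 : ℕ) wk11_0 i (by omega) (by omega)
  rcases Nat.lt_or_ge i 3066 with h1 | h1
  · exact allR_spec _ (1533 : ℕ) (1533 : ℕ) wk11_1 i (by omega) (by omega)
  rcases Nat.lt_or_ge i 4599 with h2 | h2
  · exact allR_spec _ (3066 : ℕ) (1533 : ℕ) wk11_2 i (by omega) (by omega)
  exact allR_spec _ (4599 : ℕ) (1 : ℕ) wk11_3 i (by omega) (by omega)
theorem wk12 : allR (OT.ckEqW [X16, X18, X16, X15, X15] [X24]) (nat_lit 0) (nat_lit 4600) = true := by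
  apply allR_of_forall
  intro i hi
  have hi : i < 4600 := hi
  rcases Nat.lt_or_ge i 766 with h0 | h0
  · exact allR_spec _ (0 : ℕ) (766 : ℕ) wk12_0 i (by omega) (by omega)
  rcases Nat.lt_or_ge i 1532 with h1 | h1
  · exact allR_spec _ (766 : ℕ) (766 : ℕ) wk12_1 i (by omega) (by omega)
  rcases Nat.lt_or_ge i 2298 with h2 | h2
  · exact allR_spec _ (1532 : ℕ) (766 : ℕ) wk12_2 i (by omega) (by omega)
  rcases Nat.lt_or_ge i 3064 with h3 | h3
  · exact allR_spec _ (2298 : ℕ) (766 : ℕ) wk12_3 i (by omega) (by omega)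
  rcases Nat.lt_or_ge i 3830 with h4 | h4
  · exact allR_spec _ (3064 : ℕ) (766 : ℕ) wk12_4 i (by omega) (by omega)
  rcases Nat.lt_or_ge i 4596 with h5 | h5
  · exact allR_spec _ (3830 : ℕ) (766 : ℕ) wk12_5 i (by omega) (by omega)
  exact allR_spec _ (4596 : ℕ) (4 : ℕ) wk12_6 i (by omega) (by omega)
theorem wk13 : allR (OT.ckEqW [X17, X18] [X26]) (nat_lit 0) (nat_lit 4600) = true := by
  apply allR_of_forall
  intro i hi
  have hi : i < 4600 := hi
  rcases Nat.lt_or_ge i 1533 with h0 | h0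
  · exact allR_spec _ (0 : ℕ) (1533 : ℕ) wk13_0 i (by omega) (by omega)
  rcases Nat.lt_or_ge i 3066 with h1 | h1
  · exact allR_spec _ (1533 : ℕ) (1533 : ℕ) wk13_1 i (by omega) (by omega)
  rcases Nat.lt_or_ge i 4599 with h2 | h2
  · exact allR_spec _ (3066 : ℕ) (1533 : ℕ) wk13_2 i (by omega) (by omega)
  exact allR_spec _ (4599 : ℕ) (1 : ℕ) wk13_3 i (by omega) (by omega)
theorem wk14 : allR (OT.ckEqW [X17, X15, X19, X15] [X28]) (nat_lit 0) (nat_lit 4600) = true := by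
  apply allR_of_forall
  intro i hi
  have hi : i < 4600 := hi
  rcases Nat.lt_or_ge i 920 with h0 | h0
  · exact allR_spec _ (0 : ℕ) (920 : ℕ) wk14_0 i (by omega) (by omega)
  rcases Nat.lt_or_ge i 1840 with h1 | h1
  · exact allR_spec _ (920 : ℕ) (920 : ℕ) wk14_1 i (by omega) (by omega)
  rcases Nat.lt_or_ge i 2760 with h2 | h2
  · exact allR_spec _ (1840 : ℕ) (920 : ℕ) wk14_2 i (by omega) (by omega)
  rcases Nat.lt_or_ge i 3680 with h3 | h3
  · exact allR_spec _ (2760 : ℕ) (920 : ℕ) wk14_3 i (by omega) (by omega)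
  exact allR_spec _ (3680 : ℕ) (920 : ℕ) wk14_4 i (by omega) (by omega)
theorem wk15 : allR (OT.ckEqW [X18, X16, X14, X17, X15] [X30]) (nat_lit 0) (nat_lit 4600) = true := by
  apply allR_of_forall
  intro i hi
  have hi : i < 4600 := hi
  rcases Nat.lt_or_ge i 766 with h0 | h0
  · exact allR_spec _ (0 : ℕ) (766 : ℕ) wk15_0 i (by omega) (by omega)
  rcases Nat.lt_or_ge i 1532 with h1 | h1
  · exact allR_spec _ (766 : ℕ) (766 : ℕ) wk15_1 i (by omega) (by omega)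
  rcases Nat.lt_or_ge i 2298 with h2 | h2
  · exact allR_spec _ (1532 : ℕ) (766 : ℕ) wk15_2 i (by omega) (by omega)
  rcases Nat.lt_or_ge i 3064 with h3 | h3
  · exact allR_spec _ (2298 : ℕ) (766 : ℕ) wk15_3 i (by omega) (by omega)
  rcases Nat.lt_or_ge i 3830 with h4 | h4
  · exact allR_spec _ (3064 : ℕ) (766 : ℕ) wk15_4 i (by omega) (by omega)
  rcases Nat.lt_or_ge i 4596 with h5 | h5
  · exact allR_spec _ (3830 : ℕ) (766 : ℕ) wk15_5 i (by omega) (by omega)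
  exact allR_spec _ (4596 : ℕ) (4 : ℕ) wk15_6 i (by omega) (by omega)
theorem wk16 : allR (OT.ckEqW [X17, X15, X18, X17, X17, X15] [X32]) (nat_lit 0) (nat_lit 4600) = true := by
  apply allR_of_forall
  intro i hi
  have hi : i < 4600 := hi
  rcases Nat.lt_or_ge i 657 with h0 | h0
  · exact allR_spec _ (0 : ℕ) (657 : ℕ) wk16_0 i (by omega) (by omega)
  rcases Nat.lt_or_ge i 1314 with h1 | h1
  · exact allR_spec _ (657 : ℕ) (657 : ℕ) wk16_1 i (by omega) (by omega)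
  rcases Nat.lt_or_ge i 1971 with h2 | h2
  · exact allR_spec _ (1314 : ℕ) (657 : ℕ) wk16_2 i (by omega) (by omega)
  rcases Nat.lt_or_ge i 2628 with h3 | h3
  · exact allR_spec _ (1971 : ℕ) (657 : ℕ) wk16_3 i (by omega) (by omega)
  rcases Nat.lt_or_ge i 3285 with h4 | h4
  · exact allR_spec _ (2628 : ℕ) (657 : ℕ) wk16_4 i (by omega) (by omega)
  rcases Nat.lt_or_ge i 3942 with h5 | h5
  · exact allR_spec _ (3285 : ℕ) (657 : ℕ) wk16_5 i (by omega) (by omega)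
  rcases Nat.lt_or_ge i 4599 with h6 | h6
  · exact allR_spec _ (3942 : ℕ) (657 : ℕ) wk16_6 i (by omega) (by omega)
  exact allR_spec _ (4599 : ℕ) (1 : ℕ) wk16_7 i (by omega) (by omega)
theorem wk17 : allR (OT.ckEqW [X16, X15, X15, X19] [X34]) (nat_lit 0) (nat_lit 4600) = true := by
  apply allR_of_forall
  intro i hi
  have hi : i < 4600 := hi
  rcases Nat.lt_or_ge i 920 with h0 | h0
  · exact allR_spec _ (0 : ℕ) (920 : ℕ) wk17_0 i (by omega) (by omega)
  rcases Nat.lt_or_ge i 1840 with h1 | h1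
  · exact allR_spec _ (920 : ℕ) (920 : ℕ) wk17_1 i (by omega) (by omega)
  rcases Nat.lt_or_ge i 2760 with h2 | h2
  · exact allR_spec _ (1840 : ℕ) (920 : ℕ) wk17_2 i (by omega) (by omega)
  rcases Nat.lt_or_ge i 3680 with h3 | h3
  · exact allR_spec _ (2760 : ℕ) (920 : ℕ) wk17_3 i (by omega) (by omega)
  exact allR_spec _ (3680 : ℕ) (920 : ℕ) wk17_4 i (by omega) (by omega)
theorem wk18 : allR (OT.ckEqW [T0, T1, T0, T2, T0, T1, T2, T0, T2, T1, T0, T2, T0, T1, T0, T2, T0, T1, T2, T0, T2, T1, T0, T2] [X36]) (nat_lit 0) (nat_lit 4600) = true := by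
  apply allR_of_forall
  intro i hi
  have hi : i < 4600 := hi
  rcases Nat.lt_or_ge i 184 with h0 | h0
  · exact allR_spec _ (0 : ℕ) (184 : ℕ) wk18_0 i (by omega) (by omega)
  rcases Nat.lt_or_ge i 368 with h1 | h1
  · exact allR_spec _ (184 : ℕ) (184 : ℕ) wk18_1 i (by omega) (by omega)
  rcases Nat.lt_or_ge i 552 with h2 | h2
  · exact allR_spec _ (368 : ℕ) (184 : ℕ) wk18_2 i (by omega) (by omega)
  rcases Nat.lt_or_ge i 736 with h3 | h3
  · exact allR_spec _ (552 : ℕ) (184 : ℕ) wk18_3 i (by omega) (by omega)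
  rcases Nat.lt_or_ge i 920 with h4 | h4
  · exact allR_spec _ (736 : ℕ) (184 : ℕ) wk18_4 i (by omega) (by omega)
  rcases Nat.lt_or_ge i 1104 with h5 | h5
  · exact allR_spec _ (920 : ℕ) (184 : ℕ) wk18_5 i (by omega) (by omega)
  rcases Nat.lt_or_ge i 1288 with h6 | h6
  · exact allR_spec _ (1104 : ℕ) (184 : ℕ) wk18_6 i (by omega) (by omega)
  rcases Nat.lt_or_ge i 1472 with h7 | h7
  · exact allR_spec _ (1288 : ℕ) (184 : ℕ) wk18_7 i (by omega) (by omega)
  rcases Nat.lt_or_ge i 1656 with h8 | h8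
  · exact allR_spec _ (1472 : ℕ) (184 : ℕ) wk18_8 i (by omega) (by omega)
  rcases Nat.lt_or_ge i 1840 with h9 | h9
  · exact allR_spec _ (1656 : ℕ) (184 : ℕ) wk18_9 i (by omega) (by omega)
  rcases Nat.lt_or_ge i 2024 with h10 | h10
  · exact allR_spec _ (1840 : ℕ) (184 : ℕ) wk18_10 i (by omega) (by omega)
  rcases Nat.lt_or_ge i 2208 with h11 | h11
  · exact allR_spec _ (2024 : ℕ) (184 : ℕ) wk18_11 i (by omega) (by omega)
  rcases Nat.lt_or_ge i 2392 with h12 | h12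
  · exact allR_spec _ (2208 : ℕ) (184 : ℕ) wk18_12 i (by omega) (by omega)
  rcases Nat.lt_or_ge i 2576 with h13 | h13
  · exact allR_spec _ (2392 : ℕ) (184 : ℕ) wk18_13 i (by omega) (by omega)
  rcases Nat.lt_or_ge i 2760 with h14 | h14
  · exact allR_spec _ (2576 : ℕ) (184 : ℕ) wk18_14 i (by omega) (by omega)
  rcases Nat.lt_or_ge i 2944 with h15 | h15
  · exact allR_spec _ (2760 : ℕ) (184 : ℕ) wk18_15 i (by omega) (by omega)
  rcases Nat.lt_or_ge i 3128 with h16 | h16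
  · exact allR_spec _ (2944 : ℕ) (184 : ℕ) wk18_16 i (by omega) (by omega)
  rcases Nat.lt_or_ge i 3312 with h17 | h17
  · exact allR_spec _ (3128 : ℕ) (184 : ℕ) wk18_17 i (by omega) (by omega)
  rcases Nat.lt_or_ge i 3496 with h18 | h18
  · exact allR_spec _ (3312 : ℕ) (184 : ℕ) wk18_18 i (by omega) (by omega)
  rcases Nat.lt_or_ge i 3680 with h19 | h19
  · exact allR_spec _ (3496 : ℕ) (184 : ℕ) wk18_19 i (by omega) (by omega)
  rcases Nat.lt_or_ge i 3864 with h20 | h20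
  · exact allR_spec _ (3680 : ℕ) (184 : ℕ) wk18_20 i (by omega) (by omega)
  rcases Nat.lt_or_ge i 4048 with h21 | h21
  · exact allR_spec _ (3864 : ℕ) (184 : ℕ) wk18_21 i (by omega) (by omega)
  rcases Nat.lt_or_ge i 4232 with h22 | h22
  · exact allR_spec _ (4048 : ℕ) (184 : ℕ) wk18_22 i (by omega) (by omega)
  rcases Nat.lt_or_ge i 4416 with h23 | h23
  · exact allR_spec _ (4232 : ℕ) (184 : ℕ) wk18_23 i (by omega) (by omega)
  exact allR_spec _ (4416 : ℕ) (184 : ℕ) wk18_24 i (by omega) (by omega)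
theorem wk19 : allR (OT.ckEqW [X20, X22, X24, X26, X30, X34, X14, X17, X13, X5, X5, X6, X6, X6, X0, X0, X2, X2, X1, X2, T1, T2, T0, T1, T0, T1, T0, T2, T0, T1, T2, T0] [X38]) (nat_lit 0) (nat_lit 4600) = true := by
  apply allR_of_forall
  intro i hi
  have hi : i < 4600 := hi
  rcases Nat.lt_or_ge i 139 with h0 | h0
  · exact allR_spec _ (0 : ℕ) (139 : ℕ) wk19_0 i (by omega) (by omega)
  rcases Nat.lt_or_ge i 278 with h1 | h1
  · exact allR_spec _ (139 : ℕ) (139 : ℕ) wk19_1 i (by omega) (by omega)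
  rcases Nat.lt_or_ge i 417 with h2 | h2
  · exact allR_spec _ (278 : ℕ) (139 : ℕ) wk19_2 i (by omega) (by omega)
  rcases Nat.lt_or_ge i 556 with h3 | h3
  · exact allR_spec _ (417 : ℕ) (139 : ℕ) wk19_3 i (by omega) (by omega)
  rcases Nat.lt_or_ge i 695 with h4 | h4
  · exact allR_spec _ (556 : ℕ) (139 : ℕ) wk19_4 i (by omega) (by omega)
  rcases Nat.lt_or_ge i 834 with h5 | h5
  · exact allR_spec _ (695 : ℕ) (139 : ℕ) wk19_5 i (by omega) (by omega)
  rcases Nat.lt_or_ge i 973 with h6 | h6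
  · exact allR_spec _ (834 : ℕ) (139 : ℕ) wk19_6 i (by omega) (by omega)
  rcases Nat.lt_or_ge i 1112 with h7 | h7
  · exact allR_spec _ (973 : ℕ) (139 : ℕ) wk19_7 i (by omega) (by omega)
  rcases Nat.lt_or_ge i 1251 with h8 | h8
  · exact allR_spec _ (1112 : ℕ) (139 : ℕ) wk19_8 i (by omega) (by omega)
  rcases Nat.lt_or_ge i 1390 with h9 | h9
  · exact allR_spec _ (1251 : ℕ) (139 : ℕ) wk19_9 i (by omega) (by omega)
  rcases Nat.lt_or_ge i 1529 with h10 | h10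
  · exact allR_spec _ (1390 : ℕ) (139 : ℕ) wk19_10 i (by omega) (by omega)
  rcases Nat.lt_or_ge i 1668 with h11 | h11
  · exact allR_spec _ (1529 : ℕ) (139 : ℕ) wk19_11 i (by omega) (by omega)
  rcases Nat.lt_or_ge i 1807 with h12 | h12
  · exact allR_spec _ (1668 : ℕ) (139 : ℕ) wk19_12 i (by omega) (by omega)
  rcases Nat.lt_or_ge i 1946 with h13 | h13
  · exact allR_spec _ (1807 : ℕ) (139 : ℕ) wk19_13 i (by omega) (by omega)
  rcases Nat.lt_or_ge i 2085 with h14 | h14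
  · exact allR_spec _ (1946 : ℕ) (139 : ℕ) wk19_14 i (by omega) (by omega)
  rcases Nat.lt_or_ge i 2224 with h15 | h15
  · exact allR_spec _ (2085 : ℕ) (139 : ℕ) wk19_15 i (by omega) (by omega)
  rcases Nat.lt_or_ge i 2363 with h16 | h16
  · exact allR_spec _ (2224 : ℕ) (139 : ℕ) wk19_16 i (by omega) (by omega)
  rcases Nat.lt_or_ge i 2502 with h17 | h17
  · exact allR_spec _ (2363 : ℕ) (139 : ℕ) wk19_17 i (by omega) (by omega)
  rcases Nat.lt_or_ge i 2641 with h18 | h18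
  · exact allR_spec _ (2502 : ℕ) (139 : ℕ) wk19_18 i (by omega) (by omega)
  rcases Nat.lt_or_ge i 2780 with h19 | h19
  · exact allR_spec _ (2641 : ℕ) (139 : ℕ) wk19_19 i (by omega) (by omega)
  rcases Nat.lt_or_ge i 2919 with h20 | h20
  · exact allR_spec _ (2780 : ℕ) (139 : ℕ) wk19_20 i (by omega) (by omega)
  rcases Nat.lt_or_ge i 3058 with h21 | h21
  · exact allR_spec _ (2919 : ℕ) (139 : ℕ) wk19_21 i (by omega) (by omega)
  rcases Nat.lt_or_ge i 3197 with h22 | h22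
  · exact allR_spec _ (3058 : ℕ) (139 : ℕ) wk19_22 i (by omega) (by omega)
  rcases Nat.lt_or_ge i 3336 with h23 | h23
  · exact allR_spec _ (3197 : ℕ) (139 : ℕ) wk19_23 i (by omega) (by omega)
  rcases Nat.lt_or_ge i 3475 with h24 | h24
  · exact allR_spec _ (3336 : ℕ) (139 : ℕ) wk19_24 i (by omega) (by omega)
  rcases Nat.lt_or_ge i 3614 with h25 | h25
  · exact allR_spec _ (3475 : ℕ) (139 : ℕ) wk19_25 i (by omega) (by omega)
  rcases Nat.lt_or_ge i 3753 with h26 | h26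
  · exact allR_spec _ (3614 : ℕ) (139 : ℕ) wk19_26 i (by omega) (by omega)
  rcases Nat.lt_or_ge i 3892 with h27 | h27
  · exact allR_spec _ (3753 : ℕ) (139 : ℕ) wk19_27 i (by omega) (by omega)
  rcases Nat.lt_or_ge i 4031 with h28 | h28
  · exact allR_spec _ (3892 : ℕ) (139 : ℕ) wk19_28 i (by omega) (by omega)
  rcases Nat.lt_or_ge i 4170 with h29 | h29
  · exact allR_spec _ (4031 : ℕ) (139 : ℕ) wk19_29 i (by omega) (by omega)
  rcases Nat.lt_or_ge i 4309 with h30 | h30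
  · exact allR_spec _ (4170 : ℕ) (139 : ℕ) wk19_30 i (by omega) (by omega)
  rcases Nat.lt_or_ge i 4448 with h31 | h31
  · exact allR_spec _ (4309 : ℕ) (139 : ℕ) wk19_31 i (by omega) (by omega)
  rcases Nat.lt_or_ge i 4587 with h32 | h32
  · exact allR_spec _ (4448 : ℕ) (139 : ℕ) wk19_32 i (by omega) (by omega)
  exact allR_spec _ (4587 : ℕ) (13 : ℕ) wk19_33 i (by omega) (by omega)
theorem wk20 : allR (OT.ckEqW [X22, X32, X17, X8, X13, X5, X6, X4, X4, X3, X1, X2, X0, X0, T1, T0, T2, T0, T2, T1, T0, T2, T1, T2, T0, T1] [X40]) (nat_lit 0) (nat_lit 4600) = true := by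
  apply allR_of_forall
  intro i hi
  have hi : i < 4600 := hi
  rcases Nat.lt_or_ge i 170 with h0 | h0
  · exact allR_spec _ (0 : ℕ) (170 : ℕ) wk20_0 i (by omega) (by omega)
  rcases Nat.lt_or_ge i 340 with h1 | h1
  · exact allR_spec _ (170 : ℕ) (170 : ℕ) wk20_1 i (by omega) (by omega)
  rcases Nat.lt_or_ge i 510 with h2 | h2
  · exact allR_spec _ (340 : ℕ) (170 : ℕ) wk20_2 i (by omega) (by omega)
  rcases Nat.lt_or_ge i 680 with h3 | h3
  · exact allR_spec _ (510 : ℕ) (170 : ℕ) wk20_3 i (by omega) (by omega)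
  rcases Nat.lt_or_ge i 850 with h4 | h4
  · exact allR_spec _ (680 : ℕ) (170 : ℕ) wk20_4 i (by omega) (by omega)
  rcases Nat.lt_or_ge i 1020 with h5 | h5
  · exact allR_spec _ (850 : ℕ) (170 : ℕ) wk20_5 i (by omega) (by omega)
  rcases Nat.lt_or_ge i 1190 with h6 | h6
  · exact allR_spec _ (1020 : ℕ) (170 : ℕ) wk20_6 i (by omega) (by omega)
  rcases Nat.lt_or_ge i 1360 with h7 | h7
  · exact allR_spec _ (1190 : ℕ) (170 : ℕ) wk20_7 i (by omega) (by omega)
  rcases Nat.lt_or_ge i 1530 with h8 | h8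
  · exact allR_spec _ (1360 : ℕ) (170 : ℕ) wk20_8 i (by omega) (by omega)
  rcases Nat.lt_or_ge i 1700 with h9 | h9
  · exact allR_spec _ (1530 : ℕ) (170 : ℕ) wk20_9 i (by omega) (by omega)
  rcases Nat.lt_or_ge i 1870 with h10 | h10
  · exact allR_spec _ (1700 : ℕ) (170 : ℕ) wk20_10 i (by omega) (by omega)
  rcases Nat.lt_or_ge i 2040 with h11 | h11
  · exact allR_spec _ (1870 : ℕ) (170 : ℕ) wk20_11 i (by omega) (by omega)
  rcases Nat.lt_or_ge i 2210 with h12 | h12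
  · exact allR_spec _ (2040 : ℕ) (170 : ℕ) wk20_12 i (by omega) (by omega)
  rcases Nat.lt_or_ge i 2380 with h13 | h13
  · exact allR_spec _ (2210 : ℕ) (170 : ℕ) wk20_13 i (by omega) (by omega)
  rcases Nat.lt_or_ge i 2550 with h14 | h14
  · exact allR_spec _ (2380 : ℕ) (170 : ℕ) wk20_14 i (by omega) (by omega)
  rcases Nat.lt_or_ge i 2720 with h15 | h15
  · exact allR_spec _ (2550 : ℕ) (170 : ℕ) wk20_15 i (by omega) (by omega)
  rcases Nat.lt_or_ge i 2890 with h16 | h16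
  · exact allR_spec _ (2720 : ℕ) (170 : ℕ) wk20_16 i (by omega) (by omega)
  rcases Nat.lt_or_ge i 3060 with h17 | h17
  · exact allR_spec _ (2890 : ℕ) (170 : ℕ) wk20_17 i (by omega) (by omega)
  rcases Nat.lt_or_ge i 3230 with h18 | h18
  · exact allR_spec _ (3060 : ℕ) (170 : ℕ) wk20_18 i (by omega) (by omega)
  rcases Nat.lt_or_ge i 3400 with h19 | h19
  · exact allR_spec _ (3230 : ℕ) (170 : ℕ) wk20_19 i (by omega) (by omega)
  rcases Nat.lt_or_ge i 3570 with h20 | h20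
  · exact allR_spec _ (3400 : ℕ) (170 : ℕ) wk20_20 i (by omega) (by omega)
  rcases Nat.lt_or_ge i 3740 with h21 | h21
  · exact allR_spec _ (3570 : ℕ) (170 : ℕ) wk20_21 i (by omega) (by omega)
  rcases Nat.lt_or_ge i 3910 with h22 | h22
  · exact allR_spec _ (3740 : ℕ) (170 : ℕ) wk20_22 i (by omega) (by omega)
  rcases Nat.lt_or_ge i 4080 with h23 | h23
  · exact allR_spec _ (3910 : ℕ) (170 : ℕ) wk20_23 i (by omega) (by omega)
  rcases Nat.lt_or_ge i 4250 with h24 | h24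
  · exact allR_spec _ (4080 : ℕ) (170 : ℕ) wk20_24 i (by omega) (by omega)
  rcases Nat.lt_or_ge i 4420 with h25 | h25
  · exact allR_spec _ (4250 : ℕ) (170 : ℕ) wk20_25 i (by omega) (by omega)
  rcases Nat.lt_or_ge i 4590 with h26 | h26
  · exact allR_spec _ (4420 : ℕ) (170 : ℕ) wk20_26 i (by omega) (by omega)
  exact allR_spec _ (4590 : ℕ) (10 : ℕ) wk20_27 i (by omega) (by omega)
theorem wk21 : allR (OT.ckEqW [X24, X30, X32] [X42]) (nat_lit 0) (nat_lit 4600) = true := by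
  apply allR_of_forall
  intro i hi
  have hi : i < 4600 := hi
  rcases Nat.lt_or_ge i 1150 with h0 | h0
  · exact allR_spec _ (0 : ℕ) (1150 : ℕ) wk21_0 i (by omega) (by omega)
  rcases Nat.lt_or_ge i 2300 with h1 | h1
  · exact allR_spec _ (1150 : ℕ) (1150 : ℕ) wk21_1 i (by omega) (by omega)
  rcases Nat.lt_or_ge i 3450 with h2 | h2
  · exact allR_spec _ (2300 : ℕ) (1150 : ℕ) wk21_2 i (by omega) (by omega)
  exact allR_spec _ (3450 : ℕ) (1150 : ℕ) wk21_3 i (by omega) (by omega)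
theorem wk22 : allR (OT.ckEqW [X30, X32, X34] [X44]) (nat_lit 0) (nat_lit 4600) = true := by
  apply allR_of_forall
  intro i hi
  have hi : i < 4600 := hi
  rcases Nat.lt_or_ge i 1150 with h0 | h0
  · exact allR_spec _ (0 : ℕ) (1150 : ℕ) wk22_0 i (by omega) (by omega)
  rcases Nat.lt_or_ge i 2300 with h1 | h1
  · exact allR_spec _ (1150 : ℕ) (1150 : ℕ) wk22_1 i (by omega) (by omega)
  rcases Nat.lt_or_ge i 3450 with h2 | h2
  · exact allR_spec _ (2300 : ℕ) (1150 : ℕ) wk22_2 i (by omega) (by omega)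
  exact allR_spec _ (3450 : ℕ) (1150 : ℕ) wk22_3 i (by omega) (by omega)
theorem wk23 : allR (OT.ckEqW [X20, X22, X24, X26, X35] [X46]) (nat_lit 0) (nat_lit 4600) = true := by
  apply allR_of_forall
  intro i hi
  have hi : i < 4600 := hi
  rcases Nat.lt_or_ge i 766 with h0 | h0
  · exact allR_spec _ (0 : ℕ) (766 : ℕ) wk23_0 i (by omega) (by omega)
  rcases Nat.lt_or_ge i 1532 with h1 | h1
  · exact allR_spec _ (766 : ℕ) (766 : ℕ) wk23_1 i (by omega) (by omega)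
  rcases Nat.lt_or_ge i 2298 with h2 | h2
  · exact allR_spec _ (1532 : ℕ) (766 : ℕ) wk23_2 i (by omega) (by omega)
  rcases Nat.lt_or_ge i 3064 with h3 | h3
  · exact allR_spec _ (2298 : ℕ) (766 : ℕ) wk23_3 i (by omega) (by omega)
  rcases Nat.lt_or_ge i 3830 with h4 | h4
  · exact allR_spec _ (3064 : ℕ) (766 : ℕ) wk23_4 i (by omega) (by omega)
  rcases Nat.lt_or_ge i 4596 with h5 | h5
  · exact allR_spec _ (3830 : ℕ) (766 : ℕ) wk23_5 i (by omega) (by omega)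
  exact allR_spec _ (4596 : ℕ) (4 : ℕ) wk23_6 i (by omega) (by omega)
theorem wk24 : allR (OT.ckEqW [X22, X26, X28, X30] [X48]) (nat_lit 0) (nat_lit 4600) = true := by
  apply allR_of_forall
  intro i hi
  have hi : i < 4600 := hi
  rcases Nat.lt_or_ge i 920 with h0 | h0
  · exact allR_spec _ (0 : ℕ) (920 : ℕ) wk24_0 i (by omega) (by omega)
  rcases Nat.lt_or_ge i 1840 with h1 | h1
  · exact allR_spec _ (920 : ℕ) (920 : ℕ) wk24_1 i (by omega) (by omega)
  rcases Nat.lt_or_ge i 2760 with h2 | h2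
  · exact allR_spec _ (1840 : ℕ) (920 : ℕ) wk24_2 i (by omega) (by omega)
  rcases Nat.lt_or_ge i 3680 with h3 | h3
  · exact allR_spec _ (2760 : ℕ) (920 : ℕ) wk24_3 i (by omega) (by omega)
  exact allR_spec _ (3680 : ℕ) (920 : ℕ) wk24_4 i (by omega) (by omega)
theorem wk25 : allR (OT.ckEqW [X24, X32, X34] [X50]) (nat_lit 0) (nat_lit 4600) = true := by
  apply allR_of_forall
  intro i hi
  have hi : i < 4600 := hi
  rcases Nat.lt_or_ge i 1150 with h0 | h0
  · exact allR_spec _ (0 : ℕ) (1150 : ℕ) wk25_0 i (by omega) (by omega)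
  rcases Nat.lt_or_ge i 2300 with h1 | h1
  · exact allR_spec _ (1150 : ℕ) (1150 : ℕ) wk25_1 i (by omega) (by omega)
  rcases Nat.lt_or_ge i 3450 with h2 | h2
  · exact allR_spec _ (2300 : ℕ) (1150 : ℕ) wk25_2 i (by omega) (by omega)
  exact allR_spec _ (3450 : ℕ) (1150 : ℕ) wk25_3 i (by omega) (by omega)
theorem wk26 : allR (OT.ckEqW [X20, X22, X24, X30, X32, X35] [X52]) (nat_lit 0) (nat_lit 4600) = true := by
  apply allR_of_forall
  intro i hi
  have hi : i < 4600 := hi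
  rcases Nat.lt_or_ge i 657 with h0 | h0
  · exact allR_spec _ (0 : ℕ) (657 : ℕ) wk26_0 i (by omega) (by omega)
  rcases Nat.lt_or_ge i 1314 with h1 | h1
  · exact allR_spec _ (657 : ℕ) (657 : ℕ) wk26_1 i (by omega) (by omega)
  rcases Nat.lt_or_ge i 1971 with h2 | h2
  · exact allR_spec _ (1314 : ℕ) (657 : ℕ) wk26_2 i (by omega) (by omega)
  rcases Nat.lt_or_ge i 2628 with h3 | h3
  · exact allR_spec _ (1971 : ℕ) (657 : ℕ) wk26_3 i (by omega) (by omega)
  rcases Nat.lt_or_ge i 3285 with h4 | h4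
  · exact allR_spec _ (2628 : ℕ) (657 : ℕ) wk26_4 i (by omega) (by omega)
  rcases Nat.lt_or_ge i 3942 with h5 | h5
  · exact allR_spec _ (3285 : ℕ) (657 : ℕ) wk26_5 i (by omega) (by omega)
  rcases Nat.lt_or_ge i 4599 with h6 | h6
  · exact allR_spec _ (3942 : ℕ) (657 : ℕ) wk26_6 i (by omega) (by omega)
  exact allR_spec _ (4599 : ℕ) (1 : ℕ) wk26_7 i (by omega) (by omega)
theorem wk27 : allR (OT.ckEqW [X20, X22, X24, X26, X30, X32, X35] [X54]) (nat_lit 0) (nat_lit 4600) = true := by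
  apply allR_of_forall
  intro i hi
  have hi : i < 4600 := hi
  rcases Nat.lt_or_ge i 575 with h0 | h0
  · exact allR_spec _ (0 : ℕ) (575 : ℕ) wk27_0 i (by omega) (by omega)
  rcases Nat.lt_or_ge i 1150 with h1 | h1
  · exact allR_spec _ (575 : ℕ) (575 : ℕ) wk27_1 i (by omega) (by omega)
  rcases Nat.lt_or_ge i 1725 with h2 | h2
  · exact allR_spec _ (1150 : ℕ) (575 : ℕ) wk27_2 i (by omega) (by omega)
  rcases Nat.lt_or_ge i 2300 with h3 | h3
  · exact allR_spec _ (1725 : ℕ) (575 : ℕ) wk27_3 i (by omega) (by omega)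
  rcases Nat.lt_or_ge i 2875 with h4 | h4
  · exact allR_spec _ (2300 : ℕ) (575 : ℕ) wk27_4 i (by omega) (by omega)
  rcases Nat.lt_or_ge i 3450 with h5 | h5
  · exact allR_spec _ (2875 : ℕ) (575 : ℕ) wk27_5 i (by omega) (by omega)
  rcases Nat.lt_or_ge i 4025 with h6 | h6
  · exact allR_spec _ (3450 : ℕ) (575 : ℕ) wk27_6 i (by omega) (by omega)
  exact allR_spec _ (4025 : ℕ) (575 : ℕ) wk27_7 i (by omega) (by omega)
theorem wk28 : allR (OT.ckEqW [X20, X22, X28, X30, X32] [X56]) (nat_lit 0) (nat_lit 4600) = true := by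
  apply allR_of_forall
  intro i hi
  have hi : i < 4600 := hi
  rcases Nat.lt_or_ge i 766 with h0 | h0
  · exact allR_spec _ (0 : ℕ) (766 : ℕ) wk28_0 i (by omega) (by omega)
  rcases Nat.lt_or_ge i 1532 with h1 | h1
  · exact allR_spec _ (766 : ℕ) (766 : ℕ) wk28_1 i (by omega) (by omega)
  rcases Nat.lt_or_ge i 2298 with h2 | h2
  · exact allR_spec _ (1532 : ℕ) (766 : ℕ) wk28_2 i (by omega) (by omega)
  rcases Nat.lt_or_ge i 3064 with h3 | h3
  · exact allR_spec _ (2298 : ℕ) (766 : ℕ) wk28_3 i (by omega) (by omega)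
  rcases Nat.lt_or_ge i 3830 with h4 | h4
  · exact allR_spec _ (3064 : ℕ) (766 : ℕ) wk28_4 i (by omega) (by omega)
  rcases Nat.lt_or_ge i 4596 with h5 | h5
  · exact allR_spec _ (3830 : ℕ) (766 : ℕ) wk28_5 i (by omega) (by omega)
  exact allR_spec _ (4596 : ℕ) (4 : ℕ) wk28_6 i (by omega) (by omega)
def bws : List (List Nat) := [[2, 1, 2, 1, 0, 1, 0, 1, 0, 2, 0, 1, 0, 2, 0, 2, 0, 2, 1, 2, 1, 0, 2, 1], [0, 1, 0, 1, 0, 2, 0, 2, 0, 1, 0, 2, 0, 1, 0, 2, 0, 1, 2, 0, 1], [4, 6, 3, 5, 3, 3, 6, 6, 4, 4, 4, 5], [4, 6, 6, 4, 4, 5, 4, 6, 4, 6, 3], [8, 9, 8, 9, 7, 10, 8, 8], [10, 7, 9, 9, 8, 10, 10], [10, 7, 9, 8, 10, 10, 8, 10, 7, 9, 7, 9], [14, 11, 15, 14, 12], [14, 14], [12, 13, 11, 13, 12], [19, 18, 18, 21, 19, 21, 17, 19, 18], [18, 18], [19, 21, 19, 18, 18], [20, 21], [20, 18, 22, 18], [21, 19, 17, 20, 18], [20, 18, 21, 20, 20, 18], [19, 18, 18, 22], [0, 1, 0, 2, 0, 1, 2, 0, 2, 1, 0, 2, 0, 1, 0, 2, 0, 1, 2, 0, 2, 1, 0,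 2], [23, 25, 27, 29, 33, 37, 17, 20, 16, 8, 8, 9, 9, 9, 3, 3, 5, 5, 4, 5, 1, 2, 0, 1, 0, 1, 0, 2, 0, 1, 2, 0], [25, 35, 20, 11, 16, 8, 9, 7, 7, 6, 4, 5, 3, 3, 1, 0, 2, 0, 2, 1, 0, 2, 1, 2, 0, 1], [27, 33, 35], [33, 35, 37], [23, 25, 27, 29, 38], [25, 29, 31, 33], [27, 35, 37], [23, 25, 27, 33, 35, 38], [23, 25, 27, 29, 33, 35, 38], [23, 25, 31, 33, 35]]
noncomputable def T' : Nat → Nat → Nat := fun l => (@Nat.rec (fun _ => Nat → Nat) T0 (fun l _ => (@Nat.rec (fun _ => Nat → Nat) T1 (fun l _ => (@Nat.rec (fun _ => Nat → Nat) T2 (fun l _ => (@Nat.rec (fun _ => Nat → Nat) X0 (fun l _ => (@Nat.rec (fun _ => Nat → Nat) X1 (fun l _ => (@Nat.rec (fun _ => Nat → Nat) X2 (fun l _ => (@Nat.rec (fun _ => Nat → Nat) X3 (fun l _ => (@Nat.rec (fun _ => Nat → Nat) X4 (fun l _ => (@Nat.rec (fun _ => Nat → Nat) X5 (fun l _ => (@Nat.rec (fun _ => Nat → Nat) X6 (fun l _ => (@Nat.rec (fun _ => Nat → Nat) X7 (fun l _ => (@Nat.rec (fun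 _ => Nat → Nat) X8 (fun l _ => (@Nat.rec (fun _ => Nat → Nat) X9 (fun l _ => (@Nat.rec (fun _ => Nat → Nat) X10 (fun l _ => (@Nat.rec (fun _ => Nat → Nat) X11 (fun l _ => (@Nat.rec (fun _ => Nat → Nat) X12 (fun l _ => (@Nat.rec (fun _ => Nat → Nat) X13 (fun l _ => (@Nat.rec (fun _ => Nat → Nat) X14 (fun l _ => (@Nat.rec (fun _ => Nat → Nat) X15 (fun l _ => (@Nat.rec (fun _ => Nat → Nat) X16 (fun l _ => (@Nat.rec (fun _ => Nat → Nat) X17 (fun l _ => (@Nat.rec (fun _ => Nat → Nat) X18 (fun l _ => (@Nat.rec (fun _ => Nat → Nat) X19 (fun l _ => (@Nat.rec (fun _ => Nat → Nat) X20 (fun l _ => (@Nat.rec (fun _ => Nat → Nat) X21 (fun l _ => (@Nat.rec (fun _ => Nat → Nat) X22 (fun l _ => (@Nat.rec (fun _ => Nat → Nat) X23 (fun l _ => (@Nat.rec (fun _ => Nat → Nat) X24 (fun l _ => (@Nat.rec (fun _ => Nat → Nat) X25 (fun l _ => (@Nat.rec (fun _ => Nat → Nat) X26 (fun l _ => (@Nat.rec (fun _ => Nat → Nat) X27 (fun l _ => (@Nat.rec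 (fun _ => Nat → Nat) X28 (fun l _ => (@Nat.rec (fun _ => Nat → Nat) X29 (fun l _ => (@Nat.rec (fun _ => Nat → Nat) X30 (fun l _ => (@Nat.rec (fun _ => Nat → Nat) X31 (fun l _ => (@Nat.rec (fun _ => Nat → Nat) X32 (fun l _ => (@Nat.rec (fun _ => Nat → Nat) X33 (fun l _ => (@Nat.rec (fun _ => Nat → Nat) X34 (fun l _ => (@Nat.rec (fun _ => Nat → Nat) X35 (fun l _ => (@Nat.rec (fun _ => Nat → Nat) X36 (fun l _ => (@Nat.rec (fun _ => Nat → Nat) X37 (fun l _ => (@Nat.rec (fun _ => Nat → Nat) X38 (fun l _ => (@Nat.rec (fun _ => Nat → Nat) X39 (fun l _ => (@Nat.rec (fun _ => Nat → Nat) X40 (fun l _ => (@Nat.rec (fun _ => Nat → Nat) X41 (fun l _ => (@Nat.rec (fun _ => Nat → Nat) X42 (fun l _ => (@Nat.rec (fun _ => Nat → Nat) X43 (fun l _ => (@Nat.rec (fun _ => Nat → Nat) X44 (fun l _ => (@Nat.rec (fun _ => Nat → Nat) X45 (fun l _ => (@Nat.rec (fun _ => Nat → Nat) X46 (fun l _ => (@Nat.rec (fun _ => Nat → Nat) X47 (fun l _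 => (@Nat.rec (fun _ => Nat → Nat) X48 (fun l _ => (@Nat.rec (fun _ => Nat → Nat) X49 (fun l _ => (@Nat.rec (fun _ => Nat → Nat) X50 (fun l _ => (@Nat.rec (fun _ => Nat → Nat) X51 (fun l _ => (@Nat.rec (fun _ => Nat → Nat) X52 (fun l _ => (@Nat.rec (fun _ => Nat → Nat) X53 (fun l _ => (@Nat.rec (fun _ => Nat → Nat) X54 (fun l _ => (@Nat.rec (fun _ => Nat → Nat) X55 (fun l _ => (@Nat.rec (fun _ => Nat → Nat) X56 (fun l _ => X57) l)) l)) l)) l)) l)) l)) l)) l)) l)) l)) l)) l)) l)) l)) l)) l)) l)) l)) l)) l)) l)) l)) l)) l)) l)) l)) l)) l)) l)) l)) l)) l)) l)) l)) l)) l)) l)) l)) l)) l)) l)) l)) l)) l)) l)) l)) l)) l)) l)) l)) l)) l)) l)) l)) l)) l)) l)) l)) l)) l)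
def inv' : Nat → Nat := fun l => [0, 1, 2, 4, 3, 6, 5, 8, 7, 10, 9, 12, 11, 14, 13, 16, 15, 18, 17, 20, 19, 22, 21, 24, 23, 26, 25, 28, 27, 30, 29, 32, 31, 34, 33, 36, 35, 38, 37, 40, 39, 42, 41, 44, 43, 46, 45, 48, 47, 50, 49, 52, 51, 54, 53, 56, 55, 58, 57, 60, 59].getD l 0

theorem hTT : ∀ l < 3, T' l = Cfsg.Agent.H8.LtC2.T l := by
  intro l hl
  interval_cases l <;> rfl

theorem hii : ∀ l < 3, inv' l = Cfsg.Agent.H8.LtC2.inv l := by
  intro l hl
  interval_cases l <;> rfl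

theorem h1 : ∀ l, 3 ≤ l → l < 61 → inv' l < 61 ∧ inv' (inv' l) = l := by
  intro l h1 h2
  interval_cases l <;> decide

theorem h2 : ∀ l, 3 ≤ l → l < 61 → ∀ i < 4600, T' l i < 4600 ∧ T' (inv' l) (T' l i) = i := by
  intro l h1 h2 i hi
  interval_cases l
  · exact ckPerm_sound _ _ _ _ (allR_zero _ _ pk0 i hi)
  · exact ckPerm_sound _ _ _ _ (allR_zero _ _ pk1 i hi)
  · exact ckPerm_sound _ _ _ _ (allR_zero _ _ pk2 i hi)
  · exact ckPerm_sound _ _ _ _ (allR_zero _ _ pk3 i hi)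
  · exact ckPerm_sound _ _ _ _ (allR_zero _ _ pk4 i hi)
  · exact ckPerm_sound _ _ _ _ (allR_zero _ _ pk5 i hi)
  · exact ckPerm_sound _ _ _ _ (allR_zero _ _ pk6 i hi)
  · exact ckPerm_sound _ _ _ _ (allR_zero _ _ pk7 i hi)
  · exact ckPerm_sound _ _ _ _ (allR_zero _ _ pk8 i hi)
  · exact ckPerm_sound _ _ _ _ (allR_zero _ _ pk9 i hi)
  · exact ckPerm_sound _ _ _ _ (allR_zero _ _ pk10 i hi)
  · exact ckPerm_sound _ _ _ _ (allR_zero _ _ pk11 i hi)
  · exact ckPerm_sound _ _ _ _ (allR_zero _ _ pk12 i hi)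
  · exact ckPerm_sound _ _ _ _ (allR_zero _ _ pk13 i hi)
  · exact ckPerm_sound _ _ _ _ (allR_zero _ _ pk14 i hi)
  · exact ckPerm_sound _ _ _ _ (allR_zero _ _ pk15 i hi)
  · exact ckPerm_sound _ _ _ _ (allR_zero _ _ pk16 i hi)
  · exact ckPerm_sound _ _ _ _ (allR_zero _ _ pk17 i hi)
  · exact ckPerm_sound _ _ _ _ (allR_zero _ _ pk18 i hi)
  · exact ckPerm_sound _ _ _ _ (allR_zero _ _ pk19 i hi)
  · exact ckPerm_sound _ _ _ _ (allR_zero _ _ pk20 i hi)
  · exact ckPerm_sound _ _ _ _ (allR_zero _ _ pk21 i hi)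
  · exact ckPerm_sound _ _ _ _ (allR_zero _ _ pk22 i hi)
  · exact ckPerm_sound _ _ _ _ (allR_zero _ _ pk23 i hi)
  · exact ckPerm_sound _ _ _ _ (allR_zero _ _ pk24 i hi)
  · exact ckPerm_sound _ _ _ _ (allR_zero _ _ pk25 i hi)
  · exact ckPerm_sound _ _ _ _ (allR_zero _ _ pk26 i hi)
  · exact ckPerm_sound _ _ _ _ (allR_zero _ _ pk27 i hi)
  · exact ckPerm_sound _ _ _ _ (allR_zero _ _ pk28 i hi)
  · exact ckPerm_sound _ _ _ _ (allR_zero _ _ pk29 i hi)
  · exact ckPerm_sound _ _ _ _ (allR_zero _ _ pk30 i hi)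
  · exact ckPerm_sound _ _ _ _ (allR_zero _ _ pk31 i hi)
  · exact ckPerm_sound _ _ _ _ (allR_zero _ _ pk32 i hi)
  · exact ckPerm_sound _ _ _ _ (allR_zero _ _ pk33 i hi)
  · exact ckPerm_sound _ _ _ _ (allR_zero _ _ pk34 i hi)
  · exact ckPerm_sound _ _ _ _ (allR_zero _ _ pk35 i hi)
  · exact ckPerm_sound _ _ _ _ (allR_zero _ _ pk36 i hi)
  · exact ckPerm_sound _ _ _ _ (allR_zero _ _ pk37 i hi)
  · exact ckPerm_sound _ _ _ _ (allR_zero _ _ pk38 i hi)
  · exact ckPerm_sound _ _ _ _ (allR_zero _ _ pk39 i hi)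
  · exact ckPerm_sound _ _ _ _ (allR_zero _ _ pk40 i hi)
  · exact ckPerm_sound _ _ _ _ (allR_zero _ _ pk41 i hi)
  · exact ckPerm_sound _ _ _ _ (allR_zero _ _ pk42 i hi)
  · exact ckPerm_sound _ _ _ _ (allR_zero _ _ pk43 i hi)
  · exact ckPerm_sound _ _ _ _ (allR_zero _ _ pk44 i hi)
  · exact ckPerm_sound _ _ _ _ (allR_zero _ _ pk45 i hi)
  · exact ckPerm_sound _ _ _ _ (allR_zero _ _ pk46 i hi)
  · exact ckPerm_sound _ _ _ _ (allR_zero _ _ pk47 i hi)
  · exact ckPerm_sound _ _ _ _ (allR_zero _ _ pk48 i hi)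
  · exact ckPerm_sound _ _ _ _ (allR_zero _ _ pk49 i hi)
  · exact ckPerm_sound _ _ _ _ (allR_zero _ _ pk50 i hi)
  · exact ckPerm_sound _ _ _ _ (allR_zero _ _ pk51 i hi)
  · exact ckPerm_sound _ _ _ _ (allR_zero _ _ pk52 i hi)
  · exact ckPerm_sound _ _ _ _ (allR_zero _ _ pk53 i hi)
  · exact ckPerm_sound _ _ _ _ (allR_zero _ _ pk54 i hi)
  · exact ckPerm_sound _ _ _ _ (allR_zero _ _ pk55 i hi)
  · exact ckPerm_sound _ _ _ _ (allR_zero _ _ pk56 i hi)
  · exact ckPerm_sound _ _ _ _ (allR_zero _ _ pk57 i hi)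

theorem tok : TableOK 4600 61 T' inv' :=
  OT.tableOK_ext Cfsg.Agent.H8.LtC2.tok (by decide) hTT hii h1 h2

theorem hwb : ∀ i < bws.length, (∀ l ∈ bws.getD i [], l < 3 + 2 * i) ∧ inv' (3 + 2 * i) = 3 + 2 * i + 1 ∧
    ∀ j < 4600, trN T' (bws.getD i []) j = T' (3 + 2 * i) j := by
  intro i hi
  have hl : bws.length = 29 := by decide
  rw [hl] at hi
  interval_cases i
  · exact ⟨by decide, by decide, fun j hj => OT.ckEqW_sound (T := T') [2, 1, 2, 1, 0, 1, 0, 1, 0, 2, 0, 1, 0, 2, 0, 2, 0, 2, 1, 2, 1, 0, 2, 1] [3] j (allR_zero _ _ wk0 j hj)⟩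
  · exact ⟨by decide, by decide, fun j hj => OT.ckEqW_sound (T := T') [0, 1, 0, 1, 0, 2, 0, 2, 0, 1, 0, 2, 0, 1, 0, 2, 0, 1, 2, 0, 1] [5] j (allR_zero _ _ wk1 j hj)⟩
  · exact ⟨by decide, by decide, fun j hj => OT.ckEqW_sound (T := T') [4, 6, 3, 5, 3, 3, 6, 6, 4, 4, 4, 5] [7] j (allR_zero _ _ wk2 j hj)⟩
  · exact ⟨by decide, by decide, fun j hj => OT.ckEqW_sound (T := T') [4, 6, 6, 4, 4, 5, 4, 6, 4, 6, 3] [9] j (allR_zero _ _ wk3 j hj)⟩
  · exact ⟨by decide, by decide, fun j hj => OT.ckEqW_sound (T := T') [8, 9, 8, 9, 7, 10, 8, 8] [11] j (allR_zero _ _ wk4 j hj)⟩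
  · exact ⟨by decide, by decide, fun j hj => OT.ckEqW_sound (T := T') [10, 7, 9, 9, 8, 10, 10] [13] j (allR_zero _ _ wk5 j hj)⟩
  · exact ⟨by decide, by decide, fun j hj => OT.ckEqW_sound (T := T') [10, 7, 9, 8, 10, 10, 8, 10, 7, 9, 7, 9] [15] j (allR_zero _ _ wk6 j hj)⟩
  · exact ⟨by decide, by decide, fun j hj => OT.ckEqW_sound (T := T') [14, 11, 15, 14, 12] [17] j (allR_zero _ _ wk7 j hj)⟩
  · exact ⟨by decide, by decide, fun j hj => OT.ckEqW_sound (T := T') [14, 14] [19] j (allR_zero _ _ wk8 j hj)⟩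
  · exact ⟨by decide, by decide, fun j hj => OT.ckEqW_sound (T := T') [12, 13, 11, 13, 12] [21] j (allR_zero _ _ wk9 j hj)⟩
  · exact ⟨by decide, by decide, fun j hj => OT.ckEqW_sound (T := T') [19, 18, 18, 21, 19, 21, 17, 19, 18] [23] j (allR_zero _ _ wk10 j hj)⟩
  · exact ⟨by decide, by decide, fun j hj => OT.ckEqW_sound (T := T') [18, 18] [25] j (allR_zero _ _ wk11 j hj)⟩
  · exact ⟨by decide, by decide, fun j hj => OT.ckEqW_sound (T := T') [19, 21, 19, 18, 18] [27] j (allR_zero _ _ wk12 j hj)⟩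
  · exact ⟨by decide, by decide, fun j hj => OT.ckEqW_sound (T := T') [20, 21] [29] j (allR_zero _ _ wk13 j hj)⟩
  · exact ⟨by decide, by decide, fun j hj => OT.ckEqW_sound (T := T') [20, 18, 22, 18] [31] j (allR_zero _ _ wk14 j hj)⟩
  · exact ⟨by decide, by decide, fun j hj => OT.ckEqW_sound (T := T') [21, 19, 17, 20, 18] [33] j (allR_zero _ _ wk15 j hj)⟩
  · exact ⟨by decide, by decide, fun j hj => OT.ckEqW_sound (T := T') [20, 18, 21, 20, 20, 18] [35] j (allR_zero _ _ wk16 j hj)⟩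
  · exact ⟨by decide, by decide, fun j hj => OT.ckEqW_sound (T := T') [19, 18, 18, 22] [37] j (allR_zero _ _ wk17 j hj)⟩
  · exact ⟨by decide, by decide, fun j hj => OT.ckEqW_sound (T := T') [0, 1, 0, 2, 0, 1, 2, 0, 2, 1, 0, 2, 0, 1, 0, 2, 0, 1, 2, 0, 2, 1, 0, 2] [39] j (allR_zero _ _ wk18 j hj)⟩
  · exact ⟨by decide, by decide, fun j hj => OT.ckEqW_sound (T := T') [23, 25, 27, 29, 33, 37, 17, 20, 16, 8, 8, 9, 9, 9, 3, 3, 5, 5, 4, 5, 1, 2, 0, 1, 0, 1, 0, 2, 0, 1, 2, 0] [41] j (allR_zero _ _ wk19 j hj)⟩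
  · exact ⟨by decide, by decide, fun j hj => OT.ckEqW_sound (T := T') [25, 35, 20, 11, 16, 8, 9, 7, 7, 6, 4, 5, 3, 3, 1, 0, 2, 0, 2, 1, 0, 2, 1, 2, 0, 1] [43] j (allR_zero _ _ wk20 j hj)⟩
  · exact ⟨by decide, by decide, fun j hj => OT.ckEqW_sound (T := T') [27, 33, 35] [45] j (allR_zero _ _ wk21 j hj)⟩
  · exact ⟨by decide, by decide, fun j hj => OT.ckEqW_sound (T := T') [33, 35, 37] [47] j (allR_zero _ _ wk22 j hj)⟩
  · exact ⟨by decide, by decide, fun j hj => OT.ckEqW_sound (T := T') [23, 25, 27, 29, 38] [49] j (allR_zero _ _ wk23 j hj)⟩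
  · exact ⟨by decide, by decide, fun j hj => OT.ckEqW_sound (T := T') [25, 29, 31, 33] [51] j (allR_zero _ _ wk24 j hj)⟩
  · exact ⟨by decide, by decide, fun j hj => OT.ckEqW_sound (T := T') [27, 35, 37] [53] j (allR_zero _ _ wk25 j hj)⟩
  · exact ⟨by decide, by decide, fun j hj => OT.ckEqW_sound (T := T') [23, 25, 27, 33, 35, 38] [55] j (allR_zero _ _ wk26 j hj)⟩
  · exact ⟨by decide, by decide, fun j hj => OT.ckEqW_sound (T := T') [23, 25, 27, 29, 33, 35, 38] [57] j (allR_zero _ _ wk27 j hj)⟩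
  · exact ⟨by decide, by decide, fun j hj => OT.ckEqW_sound (T := T') [23, 25, 31, 33, 35] [59] j (allR_zero _ _ wk28 j hj)⟩

end Cfsg.Agent.H8.Co2C
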