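import Cfsg.Agent.H8.T.Fi24tTab

set_option Elab.async false
set_option autoImplicit false
set_option linter.all false
set_option maxRecDepth 100000

namespace Cfsg.Agent.H8.Fi24t
theorem ck10_0 : allR (ckE (nat_lit 0x4aef8) (nat_lit 0x7ffff) (nat_lit 19) (nat_lit 31) (nat_lit 24) (nat_lit 10) D E10 E10 RF10 sp) (nat_lit 0) (nat_lit 16384) = true := by decide +kernel
theorem ck10_1 : allR (ckE (nat_lit 0x4aef8) (nat_lit 0x7ffff) (nat_lit 19) (nat_lit 31) (nat_lit 24) (nat_lit 10) D E10 E10 RF10 sp) (nat_lit 16384) (nat_lit 16384) = true := by decide +kernel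
theorem ck10_2 : allR (ckE (nat_lit 0x4aef8) (nat_lit 0x7ffff) (nat_lit 19) (nat_lit 31) (nat_lit 24) (nat_lit 10) D E10 E10 RF10 sp) (nat_lit 32768) (nat_lit 16384) = true := by decide +kernel
theorem ck10_3 : allR (ckE (nat_lit 0x4aef8) (nat_lit 0x7ffff) (nat_lit 19) (nat_lit 31) (nat_lit 24) (nat_lit 10) D E10 E10 RF10 sp) (nat_lit 49152) (nat_lit 16384) = true := by decide +kernel
theorem ck10_4 : allR (ckE (nat_lit 0x4aef8) (nat_lit 0x7ffff) (nat_lit 19) (nat_lit 31) (nat_lit 24) (nat_lit 10) D E10 E10 RF10 sp) (nat_lit 65536) (nat_lit 16384) = true := by decide +kernel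
theorem ck10_5 : allR (ckE (nat_lit 0x4aef8) (nat_lit 0x7ffff) (nat_lit 19) (nat_lit 31) (nat_lit 24) (nat_lit 10) D E10 E10 RF10 sp) (nat_lit 81920) (nat_lit 16384) = true := by decide +kernel
theorem ck10_6 : allR (ckE (nat_lit 0x4aef8) (nat_lit 0x7ffff) (nat_lit 19) (nat_lit 31) (nat_lit 24) (nat_lit 10) D E10 E10 RF10 sp) (nat_lit 98304) (nat_lit 16384) = true := by decide +kernel
theorem ck10_7 : allR (ckE (nat_lit 0x4aef8) (nat_lit 0x7ffff) (nat_lit 19) (nat_lit 31) (nat_lit 24) (nat_lit 10) D E10 E10 RF10 sp) (nat_lit 114688) (nat_lit 16384) = true := by decide +kernel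
theorem ck10_8 : allR (ckE (nat_lit 0x4aef8) (nat_lit 0x7ffff) (nat_lit 19) (nat_lit 31) (nat_lit 24) (nat_lit 10) D E10 E10 RF10 sp) (nat_lit 131072) (nat_lit 16384) = true := by decide +kernel
theorem ck10_9 : allR (ckE (nat_lit 0x4aef8) (nat_lit 0x7ffff) (nat_lit 19) (nat_lit 31) (nat_lit 24) (nat_lit 10) D E10 E10 RF10 sp) (nat_lit 147456) (nat_lit 16384) = true := by decide +kernel
theorem ck10_10 : allR (ckE (nat_lit 0x4aef8) (nat_lit 0x7ffff) (nat_lit 19) (nat_lit 31) (nat_lit 24) (nat_lit 10) D E10 E10 RF10 sp) (nat_lit 163840) (nat_lit 16384) = true := by decide +kernel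
theorem ck10_11 : allR (ckE (nat_lit 0x4aef8) (nat_lit 0x7ffff) (nat_lit 19) (nat_lit 31) (nat_lit 24) (nat_lit 10) D E10 E10 RF10 sp) (nat_lit 180224) (nat_lit 16384) = true := by decide +kernel
theorem ck10_12 : allR (ckE (nat_lit 0x4aef8) (nat_lit 0x7ffff) (nat_lit 19) (nat_lit 31) (nat_lit 24) (nat_lit 10) D E10 E10 RF10 sp) (nat_lit 196608) (nat_lit 16384) = true := by decide +kernel
theorem ck10_13 : allR (ckE (nat_lit 0x4aef8) (nat_lit 0x7ffff) (nat_lit 19) (nat_lit 31) (nat_lit 24) (nat_lit 10) D E10 E10 RF10 sp) (nat_lit 212992) (nat_lit 16384) = true := by decide +kernel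
theorem ck10_14 : allR (ckE (nat_lit 0x4aef8) (nat_lit 0x7ffff) (nat_lit 19) (nat_lit 31) (nat_lit 24) (nat_lit 10) D E10 E10 RF10 sp) (nat_lit 229376) (nat_lit 16384) = true := by decide +kernel
theorem ck10_15 : allR (ckE (nat_lit 0x4aef8) (nat_lit 0x7ffff) (nat_lit 19) (nat_lit 31) (nat_lit 24) (nat_lit 10) D E10 E10 RF10 sp) (nat_lit 245760) (nat_lit 16384) = true := by decide +kernel
theorem ck10_16 : allR (ckE (nat_lit 0x4aef8) (nat_lit 0x7ffff) (nat_lit 19) (nat_lit 31) (nat_lit 24) (nat_lit 10) D E10 E10 RF10 sp) (nat_lit 262144) (nat_lit 16384) = true := by decide +kernel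
theorem ck10_17 : allR (ckE (nat_lit 0x4aef8) (nat_lit 0x7ffff) (nat_lit 19) (nat_lit 31) (nat_lit 24) (nat_lit 10) D E10 E10 RF10 sp) (nat_lit 278528) (nat_lit 16384) = true := by decide +kernel
theorem ck10_18 : allR (ckE (nat_lit 0x4aef8) (nat_lit 0x7ffff) (nat_lit 19) (nat_lit 31) (nat_lit 24) (nat_lit 10) D E10 E10 RF10 sp) (nat_lit 294912) (nat_lit 12024) = true := by decide +kernel
theorem ck10 : allR (ckE (nat_lit 0x4aef8) (nat_lit 0x7ffff) (nat_lit 19) (nat_lit 31) (nat_lit 24) (nat_lit 10) D E10 E10 RF10 sp) (nat_lit 0) (nat_lit 306936) = true := by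
  apply allR_of_forall
  intro i hi
  have hi : i < 306936 := hi
  rcases Nat.lt_or_ge i 16384 with h0 | h0
  · exact allR_spec _ (0 : ℕ) (16384 : ℕ) ck10_0 i (by omega) (by omega)
  rcases Nat.lt_or_ge i 32768 with h1 | h1
  · exact allR_spec _ (16384 : ℕ) (16384 : ℕ) ck10_1 i (by omega) (by omega)
  rcases Nat.lt_or_ge i 49152 with h2 | h2
  · exact allR_spec _ (32768 : ℕ) (16384 : ℕ) ck10_2 i (by omega) (by omega)
  rcases Nat.lt_or_ge i 65536 with h3 | h3
  · exact allR_spec _ (49152 : ℕ) (16384 : ℕ) ck10_3 i (by omega) (by omega)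
  rcases Nat.lt_or_ge i 81920 with h4 | h4
  · exact allR_spec _ (65536 : ℕ) (16384 : ℕ) ck10_4 i (by omega) (by omega)
  rcases Nat.lt_or_ge i 98304 with h5 | h5
  · exact allR_spec _ (81920 : ℕ) (16384 : ℕ) ck10_5 i (by omega) (by omega)
  rcases Nat.lt_or_ge i 114688 with h6 | h6
  · exact allR_spec _ (98304 : ℕ) (16384 : ℕ) ck10_6 i (by omega) (by omega)
  rcases Nat.lt_or_ge i 131072 with h7 | h7
  · exact allR_spec _ (114688 : ℕ) (16384 : ℕ) ck10_7 i (by omega) (by omega)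
  rcases Nat.lt_or_ge i 147456 with h8 | h8
  · exact allR_spec _ (131072 : ℕ) (16384 : ℕ) ck10_8 i (by omega) (by omega)
  rcases Nat.lt_or_ge i 163840 with h9 | h9
  · exact allR_spec _ (147456 : ℕ) (16384 : ℕ) ck10_9 i (by omega) (by omega)
  rcases Nat.lt_or_ge i 180224 with h10 | h10
  · exact allR_spec _ (163840 : ℕ) (16384 : ℕ) ck10_10 i (by omega) (by omega)
  rcases Nat.lt_or_ge i 196608 with h11 | h11
  · exact allR_spec _ (180224 : ℕ) (16384 : ℕ) ck10_11 i (by omega) (by omega)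
  rcases Nat.lt_or_ge i 212992 with h12 | h12
  · exact allR_spec _ (196608 : ℕ) (16384 : ℕ) ck10_12 i (by omega) (by omega)
  rcases Nat.lt_or_ge i 229376 with h13 | h13
  · exact allR_spec _ (212992 : ℕ) (16384 : ℕ) ck10_13 i (by omega) (by omega)
  rcases Nat.lt_or_ge i 245760 with h14 | h14
  · exact allR_spec _ (229376 : ℕ) (16384 : ℕ) ck10_14 i (by omega) (by omega)
  rcases Nat.lt_or_ge i 262144 with h15 | h15
  · exact allR_spec _ (245760 : ℕ) (16384 : ℕ) ck10_15 i (by omega) (by omega)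
  rcases Nat.lt_or_ge i 278528 with h16 | h16
  · exact allR_spec _ (262144 : ℕ) (16384 : ℕ) ck10_16 i (by omega) (by omega)
  rcases Nat.lt_or_ge i 294912 with h17 | h17
  · exact allR_spec _ (278528 : ℕ) (16384 : ℕ) ck10_17 i (by omega) (by omega)
  exact allR_spec _ (294912 : ℕ) (12024 : ℕ) ck10_18 i (by omega) (by omega)
theorem rf10 : RF10 = (RW10).map (·.map E) := rfl
theorem rc10 : ckRels 12 inv rels 10 RW10 RC10 = true := by decide +kernel

end Cfsg.Agent.H8.Fi24t
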