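import Cfsg.Agent.H8.CosetPres
import Cfsg.Agent.H8.T.Fi24tC0
import Cfsg.Agent.H8.T.Fi24tC1
import Cfsg.Agent.H8.T.Fi24tC2
import Cfsg.Agent.H8.T.Fi24tC3
import Cfsg.Agent.H8.T.Fi24tC4
import Cfsg.Agent.H8.T.Fi24tC5
import Cfsg.Agent.H8.T.Fi24tC6
import Cfsg.Agent.H8.T.Fi24tC7
import Cfsg.Agent.H8.T.Fi24tC8
import Cfsg.Agent.H8.T.Fi24tC9
import Cfsg.Agent.H8.T.Fi24tC10
import Cfsg.Agent.H8.T.Fi24tC11

set_option autoImplicit false
set_option linter.all false
set_option maxRecDepth 100000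

namespace Cfsg.Agent.H8.Fi24t

theorem edgeOK : ∀ l < 12, ∀ i < 306936, EdgeOK E 524287 306936 24 19 31 inv D RW sp l i := by
  intro l hl i hi
  interval_cases l

  · exact ckE_sound 306936 524287 19 31 24 0 inv D E RW sp i (by
      have := allR_zero _ _ ck0 i hi
      rw [rf0] at this
      exact this)
  · exact ckE_sound 306936 524287 19 31 24 1 inv D E RW sp i (by
      have := allR_zero _ _ ck1 i hi
      rw [rf1] at this
      exact this)
  · exact ckE_sound 306936 524287 19 31 24 2 inv D E RW sp i (by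
      have := allR_zero _ _ ck2 i hi
      rw [rf2] at this
      exact this)
  · exact ckE_sound 306936 524287 19 31 24 3 inv D E RW sp i (by
      have := allR_zero _ _ ck3 i hi
      rw [rf3] at this
      exact this)
  · exact ckE_sound 306936 524287 19 31 24 4 inv D E RW sp i (by
      have := allR_zero _ _ ck4 i hi
      rw [rf4] at this
      exact this)
  · exact ckE_sound 306936 524287 19 31 24 5 inv D E RW sp i (by
      have := allR_zero _ _ ck5 i hi
      rw [rf5] at this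
      exact this)
  · exact ckE_sound 306936 524287 19 31 24 6 inv D E RW sp i (by
      have := allR_zero _ _ ck6 i hi
      rw [rf6] at this
      exact this)
  · exact ckE_sound 306936 524287 19 31 24 7 inv D E RW sp i (by
      have := allR_zero _ _ ck7 i hi
      rw [rf7] at this
      exact this)
  · exact ckE_sound 306936 524287 19 31 24 8 inv D E RW sp i (by
      have := allR_zero _ _ ck8 i hi
      rw [rf8] at this
      exact this)
  · exact ckE_sound 306936 524287 19 31 24 9 inv D E RW sp i (by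
      have := allR_zero _ _ ck9 i hi
      rw [rf9] at this
      exact this)
  · exact ckE_sound 306936 524287 19 31 24 10 inv D E RW sp i (by
      have := allR_zero _ _ ck10 i hi
      rw [rf10] at this
      exact this)
  · exact ckE_sound 306936 524287 19 31 24 11 inv D E RW sp i (by
      have := allR_zero _ _ ck11 i hi
      rw [rf11] at this
      exact this)
theorem sp0k : ckSub (nat_lit 0x7ffff) (nat_lit 24) E0 [] [] (nat_lit 0) = true := by decide +kernel
theorem sp0 {G : Type*} [Group G] (H : Subgroup G) (s : Nat → G) (hinv : ∀ l, s (inv l) = (s l)⁻¹) (h31 : s 31 = 1)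
    (hrels : ∀ W ∈ rels, (W.map s).prod = 1) (hsub : ∀ w ∈ subw, (w.map s).prod ∈ H)
    (htgt : ∀ l < 12, ∀ i < 306936, Nat.land (E l i) 524287 < 306936)
    (hlow : ∀ l' < 12, ∀ i' < 306936, E l' i' < Nat.shiftLeft (Nat.shiftRight (E 0 0) 24) 24 →
      EdgeP H s (repOf s D) E 524287 l' i') : EdgeP H s (repOf s D) E 524287 0 0 := by
  have h1 := ckSub_sound E 524287 24 0 0 [] [] sp0k
  exact special_sub H s (repOf s D) E 524287 306936 12 _ htgt hlow (repOf_zero s D) [] [] 0 0 (by decide) (by decide)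
    (by decide) (by decide) (hsub _ (by decide)) h1.1 h1.2
theorem sp2k : ckSub (nat_lit 0x7ffff) (nat_lit 24) E2 [] [] (nat_lit 0) = true := by decide +kernel
theorem sp2 {G : Type*} [Group G] (H : Subgroup G) (s : Nat → G) (hinv : ∀ l, s (inv l) = (s l)⁻¹) (h31 : s 31 = 1)
    (hrels : ∀ W ∈ rels, (W.map s).prod = 1) (hsub : ∀ w ∈ subw, (w.map s).prod ∈ H)
    (htgt : ∀ l < 12, ∀ i < 306936, Nat.land (E l i) 524287 < 306936)
    (hlow : ∀ l' < 12, ∀ i' < 306936, E l' i' < Nat.shiftLeft (Nat.shiftRight (E 2 0) 24) 24 →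
      EdgeP H s (repOf s D) E 524287 l' i') : EdgeP H s (repOf s D) E 524287 2 0 := by
  have h1 := ckSub_sound E 524287 24 2 0 [] [] sp2k
  exact special_sub H s (repOf s D) E 524287 306936 12 _ htgt hlow (repOf_zero s D) [] [] 2 0 (by decide) (by decide)
    (by decide) (by decide) (hsub _ (by decide)) h1.1 h1.2
theorem sp3k : ckSub (nat_lit 0x7ffff) (nat_lit 24) E3 [] [] (nat_lit 0) = true := by decide +kernel
theorem sp3 {G : Type*} [Group G] (H : Subgroup G) (s : Nat → G) (hinv : ∀ l, s (inv l) = (s l)⁻¹) (h31 : s 31 = 1)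
    (hrels : ∀ W ∈ rels, (W.map s).prod = 1) (hsub : ∀ w ∈ subw, (w.map s).prod ∈ H)
    (htgt : ∀ l < 12, ∀ i < 306936, Nat.land (E l i) 524287 < 306936)
    (hlow : ∀ l' < 12, ∀ i' < 306936, E l' i' < Nat.shiftLeft (Nat.shiftRight (E 3 0) 24) 24 →
      EdgeP H s (repOf s D) E 524287 l' i') : EdgeP H s (repOf s D) E 524287 3 0 := by
  have h1 := ckSub_sound E 524287 24 3 0 [] [] sp3k
  exact special_sub H s (repOf s D) E 524287 306936 12 _ htgt hlow (repOf_zero s D) [] [] 3 0 (by decide) (by decide)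
    (by decide) (by decide) (hsub _ (by decide)) h1.1 h1.2
theorem sp4k : ckSub (nat_lit 0x7ffff) (nat_lit 24) E4 [] [] (nat_lit 0) = true := by decide +kernel
theorem sp4 {G : Type*} [Group G] (H : Subgroup G) (s : Nat → G) (hinv : ∀ l, s (inv l) = (s l)⁻¹) (h31 : s 31 = 1)
    (hrels : ∀ W ∈ rels, (W.map s).prod = 1) (hsub : ∀ w ∈ subw, (w.map s).prod ∈ H)
    (htgt : ∀ l < 12, ∀ i < 306936, Nat.land (E l i) 524287 < 306936)
    (hlow : ∀ l' < 12, ∀ i' < 306936, E l' i' < Nat.shiftLeft (Nat.shiftRight (E 4 0) 24) 24 →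
      EdgeP H s (repOf s D) E 524287 l' i') : EdgeP H s (repOf s D) E 524287 4 0 := by
  have h1 := ckSub_sound E 524287 24 4 0 [] [] sp4k
  exact special_sub H s (repOf s D) E 524287 306936 12 _ htgt hlow (repOf_zero s D) [] [] 4 0 (by decide) (by decide)
    (by decide) (by decide) (hsub _ (by decide)) h1.1 h1.2
theorem sp5k : ckSub (nat_lit 0x7ffff) (nat_lit 24) E5 [] [] (nat_lit 0) = true := by decide +kernel
theorem sp5 {G : Type*} [Group G] (H : Subgroup G) (s : Nat → G) (hinv : ∀ l, s (inv l) = (s l)⁻¹) (h31 : s 31 = 1)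
    (hrels : ∀ W ∈ rels, (W.map s).prod = 1) (hsub : ∀ w ∈ subw, (w.map s).prod ∈ H)
    (htgt : ∀ l < 12, ∀ i < 306936, Nat.land (E l i) 524287 < 306936)
    (hlow : ∀ l' < 12, ∀ i' < 306936, E l' i' < Nat.shiftLeft (Nat.shiftRight (E 5 0) 24) 24 →
      EdgeP H s (repOf s D) E 524287 l' i') : EdgeP H s (repOf s D) E 524287 5 0 := by
  have h1 := ckSub_sound E 524287 24 5 0 [] [] sp5k
  exact special_sub H s (repOf s D) E 524287 306936 12 _ htgt hlow (repOf_zero s D) [] [] 5 0 (by decide) (by decide)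
    (by decide) (by decide) (hsub _ (by decide)) h1.1 h1.2
theorem sp6k : ckSub (nat_lit 0x7ffff) (nat_lit 24) E6 [] [] (nat_lit 0) = true := by decide +kernel
theorem sp6 {G : Type*} [Group G] (H : Subgroup G) (s : Nat → G) (hinv : ∀ l, s (inv l) = (s l)⁻¹) (h31 : s 31 = 1)
    (hrels : ∀ W ∈ rels, (W.map s).prod = 1) (hsub : ∀ w ∈ subw, (w.map s).prod ∈ H)
    (htgt : ∀ l < 12, ∀ i < 306936, Nat.land (E l i) 524287 < 306936)
    (hlow : ∀ l' < 12, ∀ i' < 306936, E l' i' < Nat.shiftLeft (Nat.shiftRight (E 6 0) 24) 24 →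
      EdgeP H s (repOf s D) E 524287 l' i') : EdgeP H s (repOf s D) E 524287 6 0 := by
  have h1 := ckSub_sound E 524287 24 6 0 [] [] sp6k
  exact special_sub H s (repOf s D) E 524287 306936 12 _ htgt hlow (repOf_zero s D) [] [] 6 0 (by decide) (by decide)
    (by decide) (by decide) (hsub _ (by decide)) h1.1 h1.2
theorem sp7k : ckSub (nat_lit 0x7ffff) (nat_lit 24) E7 [] [] (nat_lit 0) = true := by decide +kernel
theorem sp7 {G : Type*} [Group G] (H : Subgroup G) (s : Nat → G) (hinv : ∀ l, s (inv l) = (s l)⁻¹) (h31 : s 31 = 1)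
    (hrels : ∀ W ∈ rels, (W.map s).prod = 1) (hsub : ∀ w ∈ subw, (w.map s).prod ∈ H)
    (htgt : ∀ l < 12, ∀ i < 306936, Nat.land (E l i) 524287 < 306936)
    (hlow : ∀ l' < 12, ∀ i' < 306936, E l' i' < Nat.shiftLeft (Nat.shiftRight (E 7 0) 24) 24 →
      EdgeP H s (repOf s D) E 524287 l' i') : EdgeP H s (repOf s D) E 524287 7 0 := by
  have h1 := ckSub_sound E 524287 24 7 0 [] [] sp7k
  exact special_sub H s (repOf s D) E 524287 306936 12 _ htgt hlow (repOf_zero s D) [] [] 7 0 (by decide) (by decide)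
    (by decide) (by decide) (hsub _ (by decide)) h1.1 h1.2
theorem sp8k : ckSub (nat_lit 0x7ffff) (nat_lit 24) E8 [] [] (nat_lit 0) = true := by decide +kernel
theorem sp8 {G : Type*} [Group G] (H : Subgroup G) (s : Nat → G) (hinv : ∀ l, s (inv l) = (s l)⁻¹) (h31 : s 31 = 1)
    (hrels : ∀ W ∈ rels, (W.map s).prod = 1) (hsub : ∀ w ∈ subw, (w.map s).prod ∈ H)
    (htgt : ∀ l < 12, ∀ i < 306936, Nat.land (E l i) 524287 < 306936)
    (hlow : ∀ l' < 12, ∀ i' < 306936, E l' i' < Nat.shiftLeft (Nat.shiftRight (E 8 0) 24) 24 →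
      EdgeP H s (repOf s D) E 524287 l' i') : EdgeP H s (repOf s D) E 524287 8 0 := by
  have h1 := ckSub_sound E 524287 24 8 0 [] [] sp8k
  exact special_sub H s (repOf s D) E 524287 306936 12 _ htgt hlow (repOf_zero s D) [] [] 8 0 (by decide) (by decide)
    (by decide) (by decide) (hsub _ (by decide)) h1.1 h1.2
theorem sp9k : ckSub (nat_lit 0x7ffff) (nat_lit 24) E9 [] [] (nat_lit 0) = true := by decide +kernel
theorem sp9 {G : Type*} [Group G] (H : Subgroup G) (s : Nat → G) (hinv : ∀ l, s (inv l) = (s l)⁻¹) (h31 : s 31 = 1)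
    (hrels : ∀ W ∈ rels, (W.map s).prod = 1) (hsub : ∀ w ∈ subw, (w.map s).prod ∈ H)
    (htgt : ∀ l < 12, ∀ i < 306936, Nat.land (E l i) 524287 < 306936)
    (hlow : ∀ l' < 12, ∀ i' < 306936, E l' i' < Nat.shiftLeft (Nat.shiftRight (E 9 0) 24) 24 →
      EdgeP H s (repOf s D) E 524287 l' i') : EdgeP H s (repOf s D) E 524287 9 0 := by
  have h1 := ckSub_sound E 524287 24 9 0 [] [] sp9k
  exact special_sub H s (repOf s D) E 524287 306936 12 _ htgt hlow (repOf_zero s D) [] [] 9 0 (by decide) (by decide)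
    (by decide) (by decide) (hsub _ (by decide)) h1.1 h1.2
theorem sp10k : ckSub (nat_lit 0x7ffff) (nat_lit 24) E10 [] [] (nat_lit 0) = true := by decide +kernel
theorem sp10 {G : Type*} [Group G] (H : Subgroup G) (s : Nat → G) (hinv : ∀ l, s (inv l) = (s l)⁻¹) (h31 : s 31 = 1)
    (hrels : ∀ W ∈ rels, (W.map s).prod = 1) (hsub : ∀ w ∈ subw, (w.map s).prod ∈ H)
    (htgt : ∀ l < 12, ∀ i < 306936, Nat.land (E l i) 524287 < 306936)
    (hlow : ∀ l' < 12, ∀ i' < 306936, E l' i' < Nat.shiftLeft (Nat.shiftRight (E 10 0) 24) 24 →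
      EdgeP H s (repOf s D) E 524287 l' i') : EdgeP H s (repOf s D) E 524287 10 0 := by
  have h1 := ckSub_sound E 524287 24 10 0 [] [] sp10k
  exact special_sub H s (repOf s D) E 524287 306936 12 _ htgt hlow (repOf_zero s D) [] [] 10 0 (by decide) (by decide)
    (by decide) (by decide) (hsub _ (by decide)) h1.1 h1.2
theorem sp11k : ckSub (nat_lit 0x7ffff) (nat_lit 24) E11 [] [] (nat_lit 0) = true := by decide +kernel
theorem sp11 {G : Type*} [Group G] (H : Subgroup G) (s : Nat → G) (hinv : ∀ l, s (inv l) = (s l)⁻¹) (h31 : s 31 = 1)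
    (hrels : ∀ W ∈ rels, (W.map s).prod = 1) (hsub : ∀ w ∈ subw, (w.map s).prod ∈ H)
    (htgt : ∀ l < 12, ∀ i < 306936, Nat.land (E l i) 524287 < 306936)
    (hlow : ∀ l' < 12, ∀ i' < 306936, E l' i' < Nat.shiftLeft (Nat.shiftRight (E 11 0) 24) 24 →
      EdgeP H s (repOf s D) E 524287 l' i') : EdgeP H s (repOf s D) E 524287 11 0 := by
  have h1 := ckSub_sound E 524287 24 11 0 [] [] sp11k
  exact special_sub H s (repOf s D) E 524287 306936 12 _ htgt hlow (repOf_zero s D) [] [] 11 0 (by decide) (by decide)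
    (by decide) (by decide) (hsub _ (by decide)) h1.1 h1.2

theorem htgt : ∀ l < 12, ∀ i < 306936, Nat.land (E l i) 524287 < 306936 := fun l hl i hi => (edgeOK l hl i hi).1

theorem edges {G : Type*} [Group G] (H : Subgroup G) (s : Nat → G) (hinv : ∀ l, s (inv l) = (s l)⁻¹) (h31 : s 31 = 1)
    (hrels : ∀ W ∈ rels, (W.map s).prod = 1) (hsub : ∀ w ∈ subw, (w.map s).prod ∈ H) :
    ∀ l < 12, ∀ i < 306936, EdgeP H s (repOf s D) E 524287 l i := by
  refine edges_correct H s E 524287 306936 12 24 19 31 inv D RW sp (by decide) (by intro l hl; interval_cases l <;> decide) (fun l _ => hinv l)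
    ?_ ?_ ?_ edgeOK
  · intro l hl w hw
    interval_cases l
    · exact (ckRels_sound 12 inv rels 0 RW0 RC0 rc0 w hw).1
    · exact (ckRels_sound 12 inv rels 1 RW1 RC1 rc1 w hw).1
    · exact (ckRels_sound 12 inv rels 2 RW2 RC2 rc2 w hw).1
    · exact (ckRels_sound 12 inv rels 3 RW3 RC3 rc3 w hw).1
    · exact (ckRels_sound 12 inv rels 4 RW4 RC4 rc4 w hw).1
    · exact (ckRels_sound 12 inv rels 5 RW5 RC5 rc5 w hw).1
    · exact (ckRels_sound 12 inv rels 6 RW6 RC6 rc6 w hw).1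
    · exact (ckRels_sound 12 inv rels 7 RW7 RC7 rc7 w hw).1
    · exact (ckRels_sound 12 inv rels 8 RW8 RC8 rc8 w hw).1
    · exact (ckRels_sound 12 inv rels 9 RW9 RC9 rc9 w hw).1
    · exact (ckRels_sound 12 inv rels 10 RW10 RC10 rc10 w hw).1
    · exact (ckRels_sound 12 inv rels 11 RW11 RC11 rc11 w hw).1
  · intro l hl w hw
    interval_cases l
    · obtain ⟨_, c, hc⟩ := ckRels_sound 12 inv rels 0 RW0 RC0 rc0 w hw
      exact ckRel_sound s inv rels hrels 0 w c (fun l' _ => hinv l') hc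
    · obtain ⟨_, c, hc⟩ := ckRels_sound 12 inv rels 1 RW1 RC1 rc1 w hw
      exact ckRel_sound s inv rels hrels 1 w c (fun l' _ => hinv l') hc
    · obtain ⟨_, c, hc⟩ := ckRels_sound 12 inv rels 2 RW2 RC2 rc2 w hw
      exact ckRel_sound s inv rels hrels 2 w c (fun l' _ => hinv l') hc
    · obtain ⟨_, c, hc⟩ := ckRels_sound 12 inv rels 3 RW3 RC3 rc3 w hw
      exact ckRel_sound s inv rels hrels 3 w c (fun l' _ => hinv l') hc
    · obtain ⟨_, c, hc⟩ := ckRels_sound 12 inv rels 4 RW4 RC4 rc4 w hw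
      exact ckRel_sound s inv rels hrels 4 w c (fun l' _ => hinv l') hc
    · obtain ⟨_, c, hc⟩ := ckRels_sound 12 inv rels 5 RW5 RC5 rc5 w hw
      exact ckRel_sound s inv rels hrels 5 w c (fun l' _ => hinv l') hc
    · obtain ⟨_, c, hc⟩ := ckRels_sound 12 inv rels 6 RW6 RC6 rc6 w hw
      exact ckRel_sound s inv rels hrels 6 w c (fun l' _ => hinv l') hc
    · obtain ⟨_, c, hc⟩ := ckRels_sound 12 inv rels 7 RW7 RC7 rc7 w hw
      exact ckRel_sound s inv rels hrels 7 w c (fun l' _ => hinv l') hc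
    · obtain ⟨_, c, hc⟩ := ckRels_sound 12 inv rels 8 RW8 RC8 rc8 w hw
      exact ckRel_sound s inv rels hrels 8 w c (fun l' _ => hinv l') hc
    · obtain ⟨_, c, hc⟩ := ckRels_sound 12 inv rels 9 RW9 RC9 rc9 w hw
      exact ckRel_sound s inv rels hrels 9 w c (fun l' _ => hinv l') hc
    · obtain ⟨_, c, hc⟩ := ckRels_sound 12 inv rels 10 RW10 RC10 rc10 w hw
      exact ckRel_sound s inv rels hrels 10 w c (fun l' _ => hinv l') hc
    · obtain ⟨_, c, hc⟩ := ckRels_sound 12 inv rels 11 RW11 RC11 rc11 w hw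
      exact ckRel_sound s inv rels hrels 11 w c (fun l' _ => hinv l') hc
  · refine hsp_of H s (repOf s D) E 524287 306936 12 24 sp (by decide) ?_
    refine List.forall_mem_cons.2 ⟨fun _ _ h => sp0 H s hinv h31 hrels hsub htgt h, ?_⟩
    refine List.forall_mem_cons.2 ⟨fun _ _ h => sp2 H s hinv h31 hrels hsub htgt h, ?_⟩
    refine List.forall_mem_cons.2 ⟨fun _ _ h => sp3 H s hinv h31 hrels hsub htgt h, ?_⟩
    refine List.forall_mem_cons.2 ⟨fun _ _ h => sp4 H s hinv h31 hrels hsub htgt h, ?_⟩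
    refine List.forall_mem_cons.2 ⟨fun _ _ h => sp5 H s hinv h31 hrels hsub htgt h, ?_⟩
    refine List.forall_mem_cons.2 ⟨fun _ _ h => sp6 H s hinv h31 hrels hsub htgt h, ?_⟩
    refine List.forall_mem_cons.2 ⟨fun _ _ h => sp7 H s hinv h31 hrels hsub htgt h, ?_⟩
    refine List.forall_mem_cons.2 ⟨fun _ _ h => sp8 H s hinv h31 hrels hsub htgt h, ?_⟩
    refine List.forall_mem_cons.2 ⟨fun _ _ h => sp9 H s hinv h31 hrels hsub htgt h, ?_⟩
    refine List.forall_mem_cons.2 ⟨fun _ _ h => sp10 H s hinv h31 hrels hsub htgt h, ?_⟩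
    refine List.forall_mem_cons.2 ⟨fun _ _ h => sp11 H s hinv h31 hrels hsub htgt h, ?_⟩
    intro c hc
    exact absurd hc List.not_mem_nil

theorem covers {G : Type*} [Group G] (s : Nat → G) (hinv : ∀ l, s (inv l) = (s l)⁻¹) (h31 : s 31 = 1)
    (hrels2 : ∀ p ∈ rels2, ((p.1.map s).prod) ^ p.2 = 1) (H : Subgroup G) (hsub : ∀ w ∈ subw, (w.map s).prod ∈ H) :
    ∀ g ∈ letterGroup s 12, ∀ i < 306936, ∃ j < 306936, repOf s D i * g * (repOf s D j)⁻¹ ∈ H :=
  cover H s (repOf s D) E 524287 306936 12 inv (by intro l hl; interval_cases l <;> decide) (fun l _ => hinv l) htgt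
    (edges H s hinv h31 (hrels_of s rels2 hrels2) hsub)

theorem upper {G : Type*} [Group G] (s : Nat → G) (hinv : ∀ l, s (inv l) = (s l)⁻¹) (h31 : s 31 = 1)
    (hrels2 : ∀ p ∈ rels2, ((p.1.map s).prod) ^ p.2 = 1) (H : Subgroup G) (hsub : ∀ w ∈ subw, (w.map s).prod ∈ H)
    (hH : Finite H) : Finite (letterGroup s 12) ∧ Nat.card (letterGroup s 12) ≤ 306936 * Nat.card H :=
  card_le_of_cover H (repOf s D) 306936 (by decide) (repOf_zero s D) _
    (covers s hinv h31 hrels2 H hsub) hH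

theorem upperIndex {G : Type*} [Group G] (s : Nat → G) (hinv : ∀ l, s (inv l) = (s l)⁻¹) (h31 : s 31 = 1)
    (hrels2 : ∀ p ∈ rels2, ((p.1.map s).prod) ^ p.2 = 1) (H : Subgroup G) (hsub : ∀ w ∈ subw, (w.map s).prod ∈ H)
    (htop : letterGroup s 12 = ⊤) : H.FiniteIndex ∧ H.index ≤ 306936 :=
  index_le_of_cover H (repOf s D) 306936 (by decide) (repOf_zero s D)
    (fun g => covers s hinv h31 hrels2 H hsub g (by rw [htop]; exact Subgroup.mem_top g))


end Cfsg.Agent.H8.Fi24t
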