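import Cfsg.Agent.H8.T.Fi24tOT

set_option Elab.async false
set_option autoImplicit false
set_option linter.all false
set_option maxRecDepth 100000

namespace Cfsg.Agent.H8.Fi24t
theorem cl_n0_0 : cntC clC (nat_lit 0) (nat_lit 1) (nat_lit 32768) (nat_lit 0) = true := by decide +kernel
theorem cl_s0_0 : cntC clC 0 1 32768 0 = true := cl_n0_0
theorem cl_n0_1 : cntC (fun i => clC (Nat.add (nat_lit 32768) i)) (nat_lit 0) (nat_lit 0) (nat_lit 32768) (nat_lit 0) = true := by decide +kernel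
theorem cl_s0_1 : cntC clC 0 1 65536 0 = true := cntC_add clC 0 1 0 32768 32768 cl_s0_0 cl_n0_1
theorem cl_n0_2 : cntC (fun i => clC (Nat.add (nat_lit 65536) i)) (nat_lit 0) (nat_lit 0) (nat_lit 32768) (nat_lit 0) = true := by decide +kernel
theorem cl_s0_2 : cntC clC 0 1 98304 0 = true := cntC_add clC 0 1 0 65536 32768 cl_s0_1 cl_n0_2
theorem cl_n0_3 : cntC (fun i => clC (Nat.add (nat_lit 98304) i)) (nat_lit 0) (nat_lit 0) (nat_lit 32768) (nat_lit 0) = true := by decide +kernel
theorem cl_s0_3 : cntC clC 0 1 131072 0 = true := cntC_add clC 0 1 0 98304 32768 cl_s0_2 cl_n0_3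
theorem cl_n0_4 : cntC (fun i => clC (Nat.add (nat_lit 131072) i)) (nat_lit 0) (nat_lit 0) (nat_lit 32768) (nat_lit 0) = true := by decide +kernel
theorem cl_s0_4 : cntC clC 0 1 163840 0 = true := cntC_add clC 0 1 0 131072 32768 cl_s0_3 cl_n0_4
theorem cl_n0_5 : cntC (fun i => clC (Nat.add (nat_lit 163840) i)) (nat_lit 0) (nat_lit 0) (nat_lit 32768) (nat_lit 0) = true := by decide +kernel
theorem cl_s0_5 : cntC clC 0 1 196608 0 = true := cntC_add clC 0 1 0 163840 32768 cl_s0_4 cl_n0_5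
theorem cl_n0_6 : cntC (fun i => clC (Nat.add (nat_lit 196608) i)) (nat_lit 0) (nat_lit 0) (nat_lit 32768) (nat_lit 0) = true := by decide +kernel
theorem cl_s0_6 : cntC clC 0 1 229376 0 = true := cntC_add clC 0 1 0 196608 32768 cl_s0_5 cl_n0_6
theorem cl_n0_7 : cntC (fun i => clC (Nat.add (nat_lit 229376) i)) (nat_lit 0) (nat_lit 0) (nat_lit 32768) (nat_lit 0) = true := by decide +kernel
theorem cl_s0_7 : cntC clC 0 1 262144 0 = true := cntC_add clC 0 1 0 229376 32768 cl_s0_6 cl_n0_7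
theorem cl_n0_8 : cntC (fun i => clC (Nat.add (nat_lit 262144) i)) (nat_lit 0) (nat_lit 0) (nat_lit 32768) (nat_lit 0) = true := by decide +kernel
theorem cl_s0_8 : cntC clC 0 1 294912 0 = true := cntC_add clC 0 1 0 262144 32768 cl_s0_7 cl_n0_8
theorem cl_n0_9 : cntC (fun i => clC (Nat.add (nat_lit 294912) i)) (nat_lit 0) (nat_lit 0) (nat_lit 12024) (nat_lit 0) = true := by decide +kernel
theorem cl_s0_9 : cntC clC 0 1 306936 0 = true := cntC_add clC 0 1 0 294912 12024 cl_s0_8 cl_n0_9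
theorem cl_n0 : cntC clC 0 1 306936 0 = true := cl_s0_9
theorem cl_n1_0 : cntC clC (nat_lit 1) (nat_lit 0x6293) (nat_lit 32768) (nat_lit 0) = true := by decide +kernel
theorem cl_s1_0 : cntC clC 1 25235 32768 0 = true := cl_n1_0
theorem cl_n1_1 : cntC (fun i => clC (Nat.add (nat_lit 32768) i)) (nat_lit 1) (nat_lit 0x7103) (nat_lit 32768) (nat_lit 0) = true := by decide +kernel
theorem cl_s1_1 : cntC clC 1 54166 65536 0 = true := cntC_add clC 1 25235 28931 32768 32768 cl_s1_0 cl_n1_1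
theorem cl_n1_2 : cntC (fun i => clC (Nat.add (nat_lit 65536) i)) (nat_lit 1) (nat_lit 0x6f84) (nat_lit 32768) (nat_lit 0) = true := by decide +kernel
theorem cl_s1_2 : cntC clC 1 82714 98304 0 = true := cntC_add clC 1 54166 28548 65536 32768 cl_s1_1 cl_n1_2
theorem cl_n1_3 : cntC (fun i => clC (Nat.add (nat_lit 98304) i)) (nat_lit 1) (nat_lit 0x7202) (nat_lit 32768) (nat_lit 0) = true := by decide +kernel
theorem cl_s1_3 : cntC clC 1 111900 131072 0 = true := cntC_add clC 1 82714 29186 98304 32768 cl_s1_2 cl_n1_3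
theorem cl_n1_4 : cntC (fun i => clC (Nat.add (nat_lit 131072) i)) (nat_lit 1) (nat_lit 0x777f) (nat_lit 32768) (nat_lit 0) = true := by decide +kernel
theorem cl_s1_4 : cntC clC 1 142491 163840 0 = true := cntC_add clC 1 111900 30591 131072 32768 cl_s1_3 cl_n1_4
theorem cl_n1_5 : cntC (fun i => clC (Nat.add (nat_lit 163840) i)) (nat_lit 1) (nat_lit 0x7af0) (nat_lit 32768) (nat_lit 0) = true := by decide +kernel
theorem cl_s1_5 : cntC clC 1 173963 196608 0 = true := cntC_add clC 1 142491 31472 163840 32768 cl_s1_4 cl_n1_5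
theorem cl_n1_6 : cntC (fun i => clC (Nat.add (nat_lit 196608) i)) (nat_lit 1) (nat_lit 0x78e1) (nat_lit 32768) (nat_lit 0) = true := by decide +kernel
theorem cl_s1_6 : cntC clC 1 204908 229376 0 = true := cntC_add clC 1 173963 30945 196608 32768 cl_s1_5 cl_n1_6
theorem cl_n1_7 : cntC (fun i => clC (Nat.add (nat_lit 229376) i)) (nat_lit 1) (nat_lit 0x7a5f) (nat_lit 32768) (nat_lit 0) = true := by decide +kernel
theorem cl_s1_7 : cntC clC 1 236235 262144 0 = true := cntC_add clC 1 204908 31327 229376 32768 cl_s1_6 cl_n1_7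
theorem cl_n1_8 : cntC (fun i => clC (Nat.add (nat_lit 262144) i)) (nat_lit 1) (nat_lit 0x7734) (nat_lit 32768) (nat_lit 0) = true := by decide +kernel
theorem cl_s1_8 : cntC clC 1 266751 294912 0 = true := cntC_add clC 1 236235 30516 262144 32768 cl_s1_7 cl_n1_8
theorem cl_n1_9 : cntC (fun i => clC (Nat.add (nat_lit 294912) i)) (nat_lit 1) (nat_lit 0x2141) (nat_lit 12024) (nat_lit 0) = true := by decide +kernel
theorem cl_s1_9 : cntC clC 1 275264 306936 0 = true := cntC_add clC 1 266751 8513 294912 12024 cl_s1_8 cl_n1_9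
theorem cl_n1 : cntC clC 1 275264 306936 0 = true := cl_s1_9
theorem cl_n2_0 : cntC clC (nat_lit 2) (nat_lit 0x1d6c) (nat_lit 32768) (nat_lit 0) = true := by decide +kernel
theorem cl_s2_0 : cntC clC 2 7532 32768 0 = true := cl_n2_0
theorem cl_n2_1 : cntC (fun i => clC (Nat.add (nat_lit 32768) i)) (nat_lit 2) (nat_lit 0xefd) (nat_lit 32768) (nat_lit 0) = true := by decide +kernel
theorem cl_s2_1 : cntC clC 2 11369 65536 0 = true := cntC_add clC 2 7532 3837 32768 32768 cl_s2_0 cl_n2_1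
theorem cl_n2_2 : cntC (fun i => clC (Nat.add (nat_lit 65536) i)) (nat_lit 2) (nat_lit 0x107c) (nat_lit 32768) (nat_lit 0) = true := by decide +kernel
theorem cl_s2_2 : cntC clC 2 15589 98304 0 = true := cntC_add clC 2 11369 4220 65536 32768 cl_s2_1 cl_n2_2
theorem cl_n2_3 : cntC (fun i => clC (Nat.add (nat_lit 98304) i)) (nat_lit 2) (nat_lit 0xdfe) (nat_lit 32768) (nat_lit 0) = true := by decide +kernel
theorem cl_s2_3 : cntC clC 2 19171 131072 0 = true := cntC_add clC 2 15589 3582 98304 32768 cl_s2_2 cl_n2_3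
theorem cl_n2_4 : cntC (fun i => clC (Nat.add (nat_lit 131072) i)) (nat_lit 2) (nat_lit 0x881) (nat_lit 32768) (nat_lit 0) = true := by decide +kernel
theorem cl_s2_4 : cntC clC 2 21348 163840 0 = true := cntC_add clC 2 19171 2177 131072 32768 cl_s2_3 cl_n2_4
theorem cl_n2_5 : cntC (fun i => clC (Nat.add (nat_lit 163840) i)) (nat_lit 2) (nat_lit 0x510) (nat_lit 32768) (nat_lit 0) = true := by decide +kernel
theorem cl_s2_5 : cntC clC 2 22644 196608 0 = true := cntC_add clC 2 21348 1296 163840 32768 cl_s2_4 cl_n2_5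
theorem cl_n2_6 : cntC (fun i => clC (Nat.add (nat_lit 196608) i)) (nat_lit 2) (nat_lit 0x71f) (nat_lit 32768) (nat_lit 0) = true := by decide +kernel
theorem cl_s2_6 : cntC clC 2 24467 229376 0 = true := cntC_add clC 2 22644 1823 196608 32768 cl_s2_5 cl_n2_6
theorem cl_n2_7 : cntC (fun i => clC (Nat.add (nat_lit 229376) i)) (nat_lit 2) (nat_lit 0x5a1) (nat_lit 32768) (nat_lit 0) = true := by decide +kernel
theorem cl_s2_7 : cntC clC 2 25908 262144 0 = true := cntC_add clC 2 24467 1441 229376 32768 cl_s2_6 cl_n2_7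
theorem cl_n2_8 : cntC (fun i => clC (Nat.add (nat_lit 262144) i)) (nat_lit 2) (nat_lit 0x8cc) (nat_lit 32768) (nat_lit 0) = true := by decide +kernel
theorem cl_s2_8 : cntC clC 2 28160 294912 0 = true := cntC_add clC 2 25908 2252 262144 32768 cl_s2_7 cl_n2_8
theorem cl_n2_9 : cntC (fun i => clC (Nat.add (nat_lit 294912) i)) (nat_lit 2) (nat_lit 0xdb7) (nat_lit 12024) (nat_lit 0) = true := by decide +kernel
theorem cl_s2_9 : cntC clC 2 31671 306936 0 = true := cntC_add clC 2 28160 3511 294912 12024 cl_s2_8 cl_n2_9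
theorem cl_n2 : cntC clC 2 31671 306936 0 = true := cl_s2_9
theorem cl_ltk_0 : allR (fun i => Nat.ble (Nat.succ (clC i)) (nat_lit 3)) (nat_lit 0) (nat_lit 16384) = true := by decide +kernel
theorem cl_ltk_1 : allR (fun i => Nat.ble (Nat.succ (clC i)) (nat_lit 3)) (nat_lit 16384) (nat_lit 16384) = true := by decide +kernel
theorem cl_ltk_2 : allR (fun i => Nat.ble (Nat.succ (clC i)) (nat_lit 3)) (nat_lit 32768) (nat_lit 16384) = true := by decide +kernel
theorem cl_ltk_3 : allR (fun i => Nat.ble (Nat.succ (clC i)) (nat_lit 3)) (nat_lit 49152) (nat_lit 16384) = true := by decide +kernel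
theorem cl_ltk_4 : allR (fun i => Nat.ble (Nat.succ (clC i)) (nat_lit 3)) (nat_lit 65536) (nat_lit 16384) = true := by decide +kernel
theorem cl_ltk_5 : allR (fun i => Nat.ble (Nat.succ (clC i)) (nat_lit 3)) (nat_lit 81920) (nat_lit 16384) = true := by decide +kernel
theorem cl_ltk_6 : allR (fun i => Nat.ble (Nat.succ (clC i)) (nat_lit 3)) (nat_lit 98304) (nat_lit 16384) = true := by decide +kernel
theorem cl_ltk_7 : allR (fun i => Nat.ble (Nat.succ (clC i)) (nat_lit 3)) (nat_lit 114688) (nat_lit 16384) = true := by decide +kernel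
theorem cl_ltk_8 : allR (fun i => Nat.ble (Nat.succ (clC i)) (nat_lit 3)) (nat_lit 131072) (nat_lit 16384) = true := by decide +kernel
theorem cl_ltk_9 : allR (fun i => Nat.ble (Nat.succ (clC i)) (nat_lit 3)) (nat_lit 147456) (nat_lit 16384) = true := by decide +kernel
theorem cl_ltk_10 : allR (fun i => Nat.ble (Nat.succ (clC i)) (nat_lit 3)) (nat_lit 163840) (nat_lit 16384) = true := by decide +kernel
theorem cl_ltk_11 : allR (fun i => Nat.ble (Nat.succ (clC i)) (nat_lit 3)) (nat_lit 180224) (nat_lit 16384) = true := by decide +kernel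
theorem cl_ltk_12 : allR (fun i => Nat.ble (Nat.succ (clC i)) (nat_lit 3)) (nat_lit 196608) (nat_lit 16384) = true := by decide +kernel
theorem cl_ltk_13 : allR (fun i => Nat.ble (Nat.succ (clC i)) (nat_lit 3)) (nat_lit 212992) (nat_lit 16384) = true := by decide +kernel
theorem cl_ltk_14 : allR (fun i => Nat.ble (Nat.succ (clC i)) (nat_lit 3)) (nat_lit 229376) (nat_lit 16384) = true := by decide +kernel
theorem cl_ltk_15 : allR (fun i => Nat.ble (Nat.succ (clC i)) (nat_lit 3)) (nat_lit 245760) (nat_lit 16384) = true := by decide +kernel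
theorem cl_ltk_16 : allR (fun i => Nat.ble (Nat.succ (clC i)) (nat_lit 3)) (nat_lit 262144) (nat_lit 16384) = true := by decide +kernel
theorem cl_ltk_17 : allR (fun i => Nat.ble (Nat.succ (clC i)) (nat_lit 3)) (nat_lit 278528) (nat_lit 16384) = true := by decide +kernel
theorem cl_ltk_18 : allR (fun i => Nat.ble (Nat.succ (clC i)) (nat_lit 3)) (nat_lit 294912) (nat_lit 12024) = true := by decide +kernel
theorem cl_ltk : allR (fun i => Nat.ble (Nat.succ (clC i)) (nat_lit 3)) (nat_lit 0) (nat_lit 306936) = true := by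
  apply allR_of_forall
  intro i hi
  have hi : i < 306936 := hi
  rcases Nat.lt_or_ge i 16384 with h0 | h0
  · exact allR_spec _ (0 : ℕ) (16384 : ℕ) cl_ltk_0 i (by omega) (by omega)
  rcases Nat.lt_or_ge i 32768 with h1 | h1
  · exact allR_spec _ (16384 : ℕ) (16384 : ℕ) cl_ltk_1 i (by omega) (by omega)
  rcases Nat.lt_or_ge i 49152 with h2 | h2
  · exact allR_spec _ (32768 : ℕ) (16384 : ℕ) cl_ltk_2 i (by omega) (by omega)
  rcases Nat.lt_or_ge i 65536 with h3 | h3
  · exact allR_spec _ (49152 : ℕ) (16384 : ℕ) cl_ltk_3 i (by omega) (by omega)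
  rcases Nat.lt_or_ge i 81920 with h4 | h4
  · exact allR_spec _ (65536 : ℕ) (16384 : ℕ) cl_ltk_4 i (by omega) (by omega)
  rcases Nat.lt_or_ge i 98304 with h5 | h5
  · exact allR_spec _ (81920 : ℕ) (16384 : ℕ) cl_ltk_5 i (by omega) (by omega)
  rcases Nat.lt_or_ge i 114688 with h6 | h6
  · exact allR_spec _ (98304 : ℕ) (16384 : ℕ) cl_ltk_6 i (by omega) (by omega)
  rcases Nat.lt_or_ge i 131072 with h7 | h7
  · exact allR_spec _ (114688 : ℕ) (16384 : ℕ) cl_ltk_7 i (by omega) (by omega)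
  rcases Nat.lt_or_ge i 147456 with h8 | h8
  · exact allR_spec _ (131072 : ℕ) (16384 : ℕ) cl_ltk_8 i (by omega) (by omega)
  rcases Nat.lt_or_ge i 163840 with h9 | h9
  · exact allR_spec _ (147456 : ℕ) (16384 : ℕ) cl_ltk_9 i (by omega) (by omega)
  rcases Nat.lt_or_ge i 180224 with h10 | h10
  · exact allR_spec _ (163840 : ℕ) (16384 : ℕ) cl_ltk_10 i (by omega) (by omega)
  rcases Nat.lt_or_ge i 196608 with h11 | h11
  · exact allR_spec _ (180224 : ℕ) (16384 : ℕ) cl_ltk_11 i (by omega) (by omega)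
  rcases Nat.lt_or_ge i 212992 with h12 | h12
  · exact allR_spec _ (196608 : ℕ) (16384 : ℕ) cl_ltk_12 i (by omega) (by omega)
  rcases Nat.lt_or_ge i 229376 with h13 | h13
  · exact allR_spec _ (212992 : ℕ) (16384 : ℕ) cl_ltk_13 i (by omega) (by omega)
  rcases Nat.lt_or_ge i 245760 with h14 | h14
  · exact allR_spec _ (229376 : ℕ) (16384 : ℕ) cl_ltk_14 i (by omega) (by omega)
  rcases Nat.lt_or_ge i 262144 with h15 | h15
  · exact allR_spec _ (245760 : ℕ) (16384 : ℕ) cl_ltk_15 i (by omega) (by omega)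
  rcases Nat.lt_or_ge i 278528 with h16 | h16
  · exact allR_spec _ (262144 : ℕ) (16384 : ℕ) cl_ltk_16 i (by omega) (by omega)
  rcases Nat.lt_or_ge i 294912 with h17 | h17
  · exact allR_spec _ (278528 : ℕ) (16384 : ℕ) cl_ltk_17 i (by omega) (by omega)
  exact allR_spec _ (294912 : ℕ) (12024 : ℕ) cl_ltk_18 i (by omega) (by omega)

end Cfsg.Agent.H8.Fi24t
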