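import Cfsg.Agent.H8.T.Fi24tP
import Cfsg.Agent.H8.T.Fi24tOA0
import Cfsg.Agent.H8.T.Fi24tOA1
import Cfsg.Agent.H8.T.Fi24tOA2
import Cfsg.Agent.H8.T.Fi24tOA3
import Cfsg.Agent.H8.T.Fi24tOB
import Cfsg.Agent.H8.T.Fi24tOC

set_option Elab.async false
set_option autoImplicit false
set_option linter.all false
set_option maxRecDepth 100000

namespace Cfsg.Agent.H8.Fi24t
theorem clOK : ClsOK 306936 T clC clQ clG clR where
  inv := by
    refine List.forall_mem_cons.2 ⟨cl_i0, ?_⟩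
    refine List.forall_mem_cons.2 ⟨cl_i1, ?_⟩
    refine List.forall_mem_cons.2 ⟨cl_i2, ?_⟩
    refine List.forall_mem_cons.2 ⟨cl_i3, ?_⟩
    refine List.forall_mem_cons.2 ⟨cl_i4, ?_⟩
    refine List.forall_mem_cons.2 ⟨cl_i5, ?_⟩
    refine List.forall_mem_cons.2 ⟨cl_i6, ?_⟩
    refine List.forall_mem_cons.2 ⟨cl_i7, ?_⟩
    refine List.forall_mem_cons.2 ⟨cl_i8, ?_⟩
    refine List.forall_mem_cons.2 ⟨cl_i9, ?_⟩
    refine List.forall_mem_cons.2 ⟨cl_i10, ?_⟩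
    intro c hc
    exact absurd hc List.not_mem_nil
  rt := cl_rt
theorem cl_lt : ∀ i < 306936, clC i < 3 := by
  intro i hi
  exact Nat.le_of_ble_eq_true (allR_zero _ _ cl_ltk i hi)
def clS : Fin 3 → Nat := ![1, 275264, 31671]
theorem cl_size : ∀ c : Fin 3, cntC clC c (clS c) 306936 0 = true := by
  intro c
  fin_cases c
  · exact cl_n0
  · exact cl_n1
  · exact cl_n2

theorem cl_coatom {G : Type*} [Group G] (s : Nat → G) (ρ : G →* Equiv.Perm (Fin 306936))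
    (hρ : ∀ l < 12, ρ (s l) = permL tok l)
    (hH : stabOf ρ ⟨0, by decide⟩ = wordGroup s clG) : IsCoatom (stabOf ρ ⟨0, by decide⟩) := by
  refine isCoatom_of_cls s tok ρ hρ clC clQ clG clR (by decide) clOK (by decide) (rho_tr s ρ hρ) hH 3
    clS (fun i => cl_lt i i.2) cl_size ?_
  have h0 : (⟨clC 0, cl_lt 0 (by decide)⟩ : Fin 3) = 0 := by decide +kernel
  rw [h0]
  have key : ∀ S : Finset (Fin 3), (0 : Fin 3) ∈ S → (∑ c ∈ S, clS c) ∣ 306936 →
      (∑ c ∈ S, clS c) = 1 ∨ (∑ c ∈ S, clS c) = 306936 := by decide +kernel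
  intro S hS1 hS2
  rcases key S hS1 hS2 with h | h
  · exact Or.inl h
  · exact Or.inr (Or.inl h)


end Cfsg.Agent.H8.Fi24t
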