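import Cfsg.Agent.H8.T.J2Cc0
import Cfsg.Agent.H8.CosetGlue
import Cfsg.Agent.H8.T.J2tP

set_option Elab.async false
set_option autoImplicit false
set_option linter.all false
set_option maxRecDepth 100000
set_option maxHeartbeats 400000

namespace Cfsg.Agent.H8.J2C
open Cfsg.Agent.H8.J2t (T0 T1 T2 T3 T4)

theorem pk0 : allR (ckPerm (nat_lit 280) X0 X1) (nat_lit 0) (nat_lit 280) = true := by
  apply allR_of_forall
  intro i hi
  have hi : i < 280 := hi
  rcases Nat.lt_or_ge i 140 with h0 | h0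
  · exact allR_spec _ (0 : ℕ) (140 : ℕ) pk0_0 i (by omega) (by omega)
  exact allR_spec _ (140 : ℕ) (140 : ℕ) pk0_1 i (by omega) (by omega)
theorem pk1 : allR (ckPerm (nat_lit 280) X1 X0) (nat_lit 0) (nat_lit 280) = true := by
  apply allR_of_forall
  intro i hi
  have hi : i < 280 := hi
  rcases Nat.lt_or_ge i 140 with h0 | h0
  · exact allR_spec _ (0 : ℕ) (140 : ℕ) pk1_0 i (by omega) (by omega)
  exact allR_spec _ (140 : ℕ) (140 : ℕ) pk1_1 i (by omega) (by omega)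
theorem pk2 : allR (ckPerm (nat_lit 280) X2 X3) (nat_lit 0) (nat_lit 280) = true := by
  apply allR_of_forall
  intro i hi
  have hi : i < 280 := hi
  rcases Nat.lt_or_ge i 140 with h0 | h0
  · exact allR_spec _ (0 : ℕ) (140 : ℕ) pk2_0 i (by omega) (by omega)
  exact allR_spec _ (140 : ℕ) (140 : ℕ) pk2_1 i (by omega) (by omega)
theorem pk3 : allR (ckPerm (nat_lit 280) X3 X2) (nat_lit 0) (nat_lit 280) = true := by
  apply allR_of_forall
  intro i hi
  have hi : i < 280 := hi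
  rcases Nat.lt_or_ge i 140 with h0 | h0
  · exact allR_spec _ (0 : ℕ) (140 : ℕ) pk3_0 i (by omega) (by omega)
  exact allR_spec _ (140 : ℕ) (140 : ℕ) pk3_1 i (by omega) (by omega)
theorem pk4 : allR (ckPerm (nat_lit 280) X4 X5) (nat_lit 0) (nat_lit 280) = true := by
  apply allR_of_forall
  intro i hi
  have hi : i < 280 := hi
  rcases Nat.lt_or_ge i 140 with h0 | h0
  · exact allR_spec _ (0 : ℕ) (140 : ℕ) pk4_0 i (by omega) (by omega)
  exact allR_spec _ (140 : ℕ) (140 : ℕ) pk4_1 i (by omega) (by omega)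
theorem pk5 : allR (ckPerm (nat_lit 280) X5 X4) (nat_lit 0) (nat_lit 280) = true := by
  apply allR_of_forall
  intro i hi
  have hi : i < 280 := hi
  rcases Nat.lt_or_ge i 140 with h0 | h0
  · exact allR_spec _ (0 : ℕ) (140 : ℕ) pk5_0 i (by omega) (by omega)
  exact allR_spec _ (140 : ℕ) (140 : ℕ) pk5_1 i (by omega) (by omega)
theorem pk6 : allR (ckPerm (nat_lit 280) X6 X7) (nat_lit 0) (nat_lit 280) = true := by
  apply allR_of_forall
  intro i hi
  have hi : i < 280 := hi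
  rcases Nat.lt_or_ge i 140 with h0 | h0
  · exact allR_spec _ (0 : ℕ) (140 : ℕ) pk6_0 i (by omega) (by omega)
  exact allR_spec _ (140 : ℕ) (140 : ℕ) pk6_1 i (by omega) (by omega)
theorem pk7 : allR (ckPerm (nat_lit 280) X7 X6) (nat_lit 0) (nat_lit 280) = true := by
  apply allR_of_forall
  intro i hi
  have hi : i < 280 := hi
  rcases Nat.lt_or_ge i 140 with h0 | h0
  · exact allR_spec _ (0 : ℕ) (140 : ℕ) pk7_0 i (by omega) (by omega)
  exact allR_spec _ (140 : ℕ) (140 : ℕ) pk7_1 i (by omega) (by omega)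
theorem pk8 : allR (ckPerm (nat_lit 280) X8 X9) (nat_lit 0) (nat_lit 280) = true := by
  apply allR_of_forall
  intro i hi
  have hi : i < 280 := hi
  rcases Nat.lt_or_ge i 140 with h0 | h0
  · exact allR_spec _ (0 : ℕ) (140 : ℕ) pk8_0 i (by omega) (by omega)
  exact allR_spec _ (140 : ℕ) (140 : ℕ) pk8_1 i (by omega) (by omega)
theorem pk9 : allR (ckPerm (nat_lit 280) X9 X8) (nat_lit 0) (nat_lit 280) = true := by
  apply allR_of_forall
  intro i hi
  have hi : i < 280 := hi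
  rcases Nat.lt_or_ge i 140 with h0 | h0
  · exact allR_spec _ (0 : ℕ) (140 : ℕ) pk9_0 i (by omega) (by omega)
  exact allR_spec _ (140 : ℕ) (140 : ℕ) pk9_1 i (by omega) (by omega)
theorem pk10 : allR (ckPerm (nat_lit 280) X10 X11) (nat_lit 0) (nat_lit 280) = true := by
  apply allR_of_forall
  intro i hi
  have hi : i < 280 := hi
  rcases Nat.lt_or_ge i 140 with h0 | h0
  · exact allR_spec _ (0 : ℕ) (140 : ℕ) pk10_0 i (by omega) (by omega)
  exact allR_spec _ (140 : ℕ) (140 : ℕ) pk10_1 i (by omega) (by omega)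
theorem pk11 : allR (ckPerm (nat_lit 280) X11 X10) (nat_lit 0) (nat_lit 280) = true := by
  apply allR_of_forall
  intro i hi
  have hi : i < 280 := hi
  rcases Nat.lt_or_ge i 140 with h0 | h0
  · exact allR_spec _ (0 : ℕ) (140 : ℕ) pk11_0 i (by omega) (by omega)
  exact allR_spec _ (140 : ℕ) (140 : ℕ) pk11_1 i (by omega) (by omega)
theorem pk12 : allR (ckPerm (nat_lit 280) X12 X13) (nat_lit 0) (nat_lit 280) = true := by
  apply allR_of_forall
  intro i hi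
  have hi : i < 280 := hi
  rcases Nat.lt_or_ge i 140 with h0 | h0
  · exact allR_spec _ (0 : ℕ) (140 : ℕ) pk12_0 i (by omega) (by omega)
  exact allR_spec _ (140 : ℕ) (140 : ℕ) pk12_1 i (by omega) (by omega)
theorem pk13 : allR (ckPerm (nat_lit 280) X13 X12) (nat_lit 0) (nat_lit 280) = true := by
  apply allR_of_forall
  intro i hi
  have hi : i < 280 := hi
  rcases Nat.lt_or_ge i 140 with h0 | h0
  · exact allR_spec _ (0 : ℕ) (140 : ℕ) pk13_0 i (by omega) (by omega)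
  exact allR_spec _ (140 : ℕ) (140 : ℕ) pk13_1 i (by omega) (by omega)
theorem pk14 : allR (ckPerm (nat_lit 280) X14 X15) (nat_lit 0) (nat_lit 280) = true := by
  apply allR_of_forall
  intro i hi
  have hi : i < 280 := hi
  rcases Nat.lt_or_ge i 140 with h0 | h0
  · exact allR_spec _ (0 : ℕ) (140 : ℕ) pk14_0 i (by omega) (by omega)
  exact allR_spec _ (140 : ℕ) (140 : ℕ) pk14_1 i (by omega) (by omega)
theorem pk15 : allR (ckPerm (nat_lit 280) X15 X14) (nat_lit 0) (nat_lit 280) = true := by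
  apply allR_of_forall
  intro i hi
  have hi : i < 280 := hi
  rcases Nat.lt_or_ge i 140 with h0 | h0
  · exact allR_spec _ (0 : ℕ) (140 : ℕ) pk15_0 i (by omega) (by omega)
  exact allR_spec _ (140 : ℕ) (140 : ℕ) pk15_1 i (by omega) (by omega)
theorem wk0 : allR (OT.ckEqW [T1, T3, T1, T4, T1, T2, T1, T0, T3, T4, T3, T1, T0, T3, T2, T1, T4, T0, T3, T4, T0, T3, T1, T2, T3, T4, T1, T0, T1, T2, T3] [X0]) (nat_lit 0) (nat_lit 280) = true := by
  apply allR_of_forall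
  intro i hi
  have hi : i < 280 := hi
  rcases Nat.lt_or_ge i 8 with h0 | h0
  · exact allR_spec _ (0 : ℕ) (8 : ℕ) wk0_0 i (by omega) (by omega)
  rcases Nat.lt_or_ge i 16 with h1 | h1
  · exact allR_spec _ (8 : ℕ) (8 : ℕ) wk0_1 i (by omega) (by omega)
  rcases Nat.lt_or_ge i 24 with h2 | h2
  · exact allR_spec _ (16 : ℕ) (8 : ℕ) wk0_2 i (by omega) (by omega)
  rcases Nat.lt_or_ge i 32 with h3 | h3
  · exact allR_spec _ (24 : ℕ) (8 : ℕ) wk0_3 i (by omega) (by omega)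
  rcases Nat.lt_or_ge i 40 with h4 | h4
  · exact allR_spec _ (32 : ℕ) (8 : ℕ) wk0_4 i (by omega) (by omega)
  rcases Nat.lt_or_ge i 48 with h5 | h5
  · exact allR_spec _ (40 : ℕ) (8 : ℕ) wk0_5 i (by omega) (by omega)
  rcases Nat.lt_or_ge i 56 with h6 | h6
  · exact allR_spec _ (48 : ℕ) (8 : ℕ) wk0_6 i (by omega) (by omega)
  rcases Nat.lt_or_ge i 64 with h7 | h7
  · exact allR_spec _ (56 : ℕ) (8 : ℕ) wk0_7 i (by omega) (by omega)
  rcases Nat.lt_or_ge i 72 with h8 | h8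
  · exact allR_spec _ (64 : ℕ) (8 : ℕ) wk0_8 i (by omega) (by omega)
  rcases Nat.lt_or_ge i 80 with h9 | h9
  · exact allR_spec _ (72 : ℕ) (8 : ℕ) wk0_9 i (by omega) (by omega)
  rcases Nat.lt_or_ge i 88 with h10 | h10
  · exact allR_spec _ (80 : ℕ) (8 : ℕ) wk0_10 i (by omega) (by omega)
  rcases Nat.lt_or_ge i 96 with h11 | h11
  · exact allR_spec _ (88 : ℕ) (8 : ℕ) wk0_11 i (by omega) (by omega)
  rcases Nat.lt_or_ge i 104 with h12 | h12
  · exact allR_spec _ (96 : ℕ) (8 : ℕ) wk0_12 i (by omega) (by omega)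
  rcases Nat.lt_or_ge i 112 with h13 | h13
  · exact allR_spec _ (104 : ℕ) (8 : ℕ) wk0_13 i (by omega) (by omega)
  rcases Nat.lt_or_ge i 120 with h14 | h14
  · exact allR_spec _ (112 : ℕ) (8 : ℕ) wk0_14 i (by omega) (by omega)
  rcases Nat.lt_or_ge i 128 with h15 | h15
  · exact allR_spec _ (120 : ℕ) (8 : ℕ) wk0_15 i (by omega) (by omega)
  rcases Nat.lt_or_ge i 136 with h16 | h16
  · exact allR_spec _ (128 : ℕ) (8 : ℕ) wk0_16 i (by omega) (by omega)
  rcases Nat.lt_or_ge i 144 with h17 | h17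
  · exact allR_spec _ (136 : ℕ) (8 : ℕ) wk0_17 i (by omega) (by omega)
  rcases Nat.lt_or_ge i 152 with h18 | h18
  · exact allR_spec _ (144 : ℕ) (8 : ℕ) wk0_18 i (by omega) (by omega)
  rcases Nat.lt_or_ge i 160 with h19 | h19
  · exact allR_spec _ (152 : ℕ) (8 : ℕ) wk0_19 i (by omega) (by omega)
  rcases Nat.lt_or_ge i 168 with h20 | h20
  · exact allR_spec _ (160 : ℕ) (8 : ℕ) wk0_20 i (by omega) (by omega)
  rcases Nat.lt_or_ge i 176 with h21 | h21
  · exact allR_spec _ (168 : ℕ) (8 : ℕ) wk0_21 i (by omega) (by omega)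
  rcases Nat.lt_or_ge i 184 with h22 | h22
  · exact allR_spec _ (176 : ℕ) (8 : ℕ) wk0_22 i (by omega) (by omega)
  rcases Nat.lt_or_ge i 192 with h23 | h23
  · exact allR_spec _ (184 : ℕ) (8 : ℕ) wk0_23 i (by omega) (by omega)
  rcases Nat.lt_or_ge i 200 with h24 | h24
  · exact allR_spec _ (192 : ℕ) (8 : ℕ) wk0_24 i (by omega) (by omega)
  rcases Nat.lt_or_ge i 208 with h25 | h25
  · exact allR_spec _ (200 : ℕ) (8 : ℕ) wk0_25 i (by omega) (by omega)
  rcases Nat.lt_or_ge i 216 with h26 | h26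
  · exact allR_spec _ (208 : ℕ) (8 : ℕ) wk0_26 i (by omega) (by omega)
  rcases Nat.lt_or_ge i 224 with h27 | h27
  · exact allR_spec _ (216 : ℕ) (8 : ℕ) wk0_27 i (by omega) (by omega)
  rcases Nat.lt_or_ge i 232 with h28 | h28
  · exact allR_spec _ (224 : ℕ) (8 : ℕ) wk0_28 i (by omega) (by omega)
  rcases Nat.lt_or_ge i 240 with h29 | h29
  · exact allR_spec _ (232 : ℕ) (8 : ℕ) wk0_29 i (by omega) (by omega)
  rcases Nat.lt_or_ge i 248 with h30 | h30
  · exact allR_spec _ (240 : ℕ) (8 : ℕ) wk0_30 i (by omega) (by omega)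
  rcases Nat.lt_or_ge i 256 with h31 | h31
  · exact allR_spec _ (248 : ℕ) (8 : ℕ) wk0_31 i (by omega) (by omega)
  rcases Nat.lt_or_ge i 264 with h32 | h32
  · exact allR_spec _ (256 : ℕ) (8 : ℕ) wk0_32 i (by omega) (by omega)
  rcases Nat.lt_or_ge i 272 with h33 | h33
  · exact allR_spec _ (264 : ℕ) (8 : ℕ) wk0_33 i (by omega) (by omega)
  exact allR_spec _ (272 : ℕ) (8 : ℕ) wk0_34 i (by omega) (by omega)
theorem wk1 : allR (OT.ckEqW [T0, T2, T3, T0, T3] [X2]) (nat_lit 0) (nat_lit 280) = true := by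
  apply allR_of_forall
  intro i hi
  have hi : i < 280 := hi
  rcases Nat.lt_or_ge i 46 with h0 | h0
  · exact allR_spec _ (0 : ℕ) (46 : ℕ) wk1_0 i (by omega) (by omega)
  rcases Nat.lt_or_ge i 92 with h1 | h1
  · exact allR_spec _ (46 : ℕ) (46 : ℕ) wk1_1 i (by omega) (by omega)
  rcases Nat.lt_or_ge i 138 with h2 | h2
  · exact allR_spec _ (92 : ℕ) (46 : ℕ) wk1_2 i (by omega) (by omega)
  rcases Nat.lt_or_ge i 184 with h3 | h3
  · exact allR_spec _ (138 : ℕ) (46 : ℕ) wk1_3 i (by omega) (by omega)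
  rcases Nat.lt_or_ge i 230 with h4 | h4
  · exact allR_spec _ (184 : ℕ) (46 : ℕ) wk1_4 i (by omega) (by omega)
  rcases Nat.lt_or_ge i 276 with h5 | h5
  · exact allR_spec _ (230 : ℕ) (46 : ℕ) wk1_5 i (by omega) (by omega)
  exact allR_spec _ (276 : ℕ) (4 : ℕ) wk1_6 i (by omega) (by omega)
theorem wk2 : allR (OT.ckEqW [X2, X0, X2, X1, X1, X2, X2, X1, X1, X3, X1] [X4]) (nat_lit 0) (nat_lit 280) = true := by
  apply allR_of_forall
  intro i hi
  have hi : i < 280 := hi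
  rcases Nat.lt_or_ge i 23 with h0 | h0
  · exact allR_spec _ (0 : ℕ) (23 : ℕ) wk2_0 i (by omega) (by omega)
  rcases Nat.lt_or_ge i 46 with h1 | h1
  · exact allR_spec _ (23 : ℕ) (23 : ℕ) wk2_1 i (by omega) (by omega)
  rcases Nat.lt_or_ge i 69 with h2 | h2
  · exact allR_spec _ (46 : ℕ) (23 : ℕ) wk2_2 i (by omega) (by omega)
  rcases Nat.lt_or_ge i 92 with h3 | h3
  · exact allR_spec _ (69 : ℕ) (23 : ℕ) wk2_3 i (by omega) (by omega)
  rcases Nat.lt_or_ge i 115 with h4 | h4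
  · exact allR_spec _ (92 : ℕ) (23 : ℕ) wk2_4 i (by omega) (by omega)
  rcases Nat.lt_or_ge i 138 with h5 | h5
  · exact allR_spec _ (115 : ℕ) (23 : ℕ) wk2_5 i (by omega) (by omega)
  rcases Nat.lt_or_ge i 161 with h6 | h6
  · exact allR_spec _ (138 : ℕ) (23 : ℕ) wk2_6 i (by omega) (by omega)
  rcases Nat.lt_or_ge i 184 with h7 | h7
  · exact allR_spec _ (161 : ℕ) (23 : ℕ) wk2_7 i (by omega) (by omega)
  rcases Nat.lt_or_ge i 207 with h8 | h8
  · exact allR_spec _ (184 : ℕ) (23 : ℕ) wk2_8 i (by omega) (by omega)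
  rcases Nat.lt_or_ge i 230 with h9 | h9
  · exact allR_spec _ (207 : ℕ) (23 : ℕ) wk2_9 i (by omega) (by omega)
  rcases Nat.lt_or_ge i 253 with h10 | h10
  · exact allR_spec _ (230 : ℕ) (23 : ℕ) wk2_10 i (by omega) (by omega)
  rcases Nat.lt_or_ge i 276 with h11 | h11
  · exact allR_spec _ (253 : ℕ) (23 : ℕ) wk2_11 i (by omega) (by omega)
  exact allR_spec _ (276 : ℕ) (4 : ℕ) wk2_12 i (by omega) (by omega)
theorem wk3 : allR (OT.ckEqW [X1, X2, X0, X2, X1, X3, X0, X0] [X6]) (nat_lit 0) (nat_lit 280) = true := by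
  apply allR_of_forall
  intro i hi
  have hi : i < 280 := hi
  rcases Nat.lt_or_ge i 31 with h0 | h0
  · exact allR_spec _ (0 : ℕ) (31 : ℕ) wk3_0 i (by omega) (by omega)
  rcases Nat.lt_or_ge i 62 with h1 | h1
  · exact allR_spec _ (31 : ℕ) (31 : ℕ) wk3_1 i (by omega) (by omega)
  rcases Nat.lt_or_ge i 93 with h2 | h2
  · exact allR_spec _ (62 : ℕ) (31 : ℕ) wk3_2 i (by omega) (by omega)
  rcases Nat.lt_or_ge i 124 with h3 | h3
  · exact allR_spec _ (93 : ℕ) (31 : ℕ) wk3_3 i (by omega) (by omega)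
  rcases Nat.lt_or_ge i 155 with h4 | h4
  · exact allR_spec _ (124 : ℕ) (31 : ℕ) wk3_4 i (by omega) (by omega)
  rcases Nat.lt_or_ge i 186 with h5 | h5
  · exact allR_spec _ (155 : ℕ) (31 : ℕ) wk3_5 i (by omega) (by omega)
  rcases Nat.lt_or_ge i 217 with h6 | h6
  · exact allR_spec _ (186 : ℕ) (31 : ℕ) wk3_6 i (by omega) (by omega)
  rcases Nat.lt_or_ge i 248 with h7 | h7
  · exact allR_spec _ (217 : ℕ) (31 : ℕ) wk3_7 i (by omega) (by omega)
  rcases Nat.lt_or_ge i 279 with h8 | h8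
  · exact allR_spec _ (248 : ℕ) (31 : ℕ) wk3_8 i (by omega) (by omega)
  exact allR_spec _ (279 : ℕ) (1 : ℕ) wk3_9 i (by omega) (by omega)
theorem wk4 : allR (OT.ckEqW [X4] [X8]) (nat_lit 0) (nat_lit 280) = true := by
  apply allR_of_forall
  intro i hi
  have hi : i < 280 := hi
  rcases Nat.lt_or_ge i 140 with h0 | h0
  · exact allR_spec _ (0 : ℕ) (140 : ℕ) wk4_0 i (by omega) (by omega)
  exact allR_spec _ (140 : ℕ) (140 : ℕ) wk4_1 i (by omega) (by omega)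
theorem wk5 : allR (OT.ckEqW [T0] [X10]) (nat_lit 0) (nat_lit 280) = true := by
  apply allR_of_forall
  intro i hi
  have hi : i < 280 := hi
  rcases Nat.lt_or_ge i 140 with h0 | h0
  · exact allR_spec _ (0 : ℕ) (140 : ℕ) wk5_0 i (by omega) (by omega)
  exact allR_spec _ (140 : ℕ) (140 : ℕ) wk5_1 i (by omega) (by omega)
theorem wk6 : allR (OT.ckEqW [X8, X6, X4, X6, X4, X6, X4, X0, X2, X0, T3, T2, T4, T3, T2] [X12]) (nat_lit 0) (nat_lit 280) = true := by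
  apply allR_of_forall
  intro i hi
  have hi : i < 280 := hi
  rcases Nat.lt_or_ge i 17 with h0 | h0
  · exact allR_spec _ (0 : ℕ) (17 : ℕ) wk6_0 i (by omega) (by omega)
  rcases Nat.lt_or_ge i 34 with h1 | h1
  · exact allR_spec _ (17 : ℕ) (17 : ℕ) wk6_1 i (by omega) (by omega)
  rcases Nat.lt_or_ge i 51 with h2 | h2
  · exact allR_spec _ (34 : ℕ) (17 : ℕ) wk6_2 i (by omega) (by omega)
  rcases Nat.lt_or_ge i 68 with h3 | h3
  · exact allR_spec _ (51 : ℕ) (17 : ℕ) wk6_3 i (by omega) (by omega)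
  rcases Nat.lt_or_ge i 85 with h4 | h4
  · exact allR_spec _ (68 : ℕ) (17 : ℕ) wk6_4 i (by omega) (by omega)
  rcases Nat.lt_or_ge i 102 with h5 | h5
  · exact allR_spec _ (85 : ℕ) (17 : ℕ) wk6_5 i (by omega) (by omega)
  rcases Nat.lt_or_ge i 119 with h6 | h6
  · exact allR_spec _ (102 : ℕ) (17 : ℕ) wk6_6 i (by omega) (by omega)
  rcases Nat.lt_or_ge i 136 with h7 | h7
  · exact allR_spec _ (119 : ℕ) (17 : ℕ) wk6_7 i (by omega) (by omega)
  rcases Nat.lt_or_ge i 153 with h8 | h8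
  · exact allR_spec _ (136 : ℕ) (17 : ℕ) wk6_8 i (by omega) (by omega)
  rcases Nat.lt_or_ge i 170 with h9 | h9
  · exact allR_spec _ (153 : ℕ) (17 : ℕ) wk6_9 i (by omega) (by omega)
  rcases Nat.lt_or_ge i 187 with h10 | h10
  · exact allR_spec _ (170 : ℕ) (17 : ℕ) wk6_10 i (by omega) (by omega)
  rcases Nat.lt_or_ge i 204 with h11 | h11
  · exact allR_spec _ (187 : ℕ) (17 : ℕ) wk6_11 i (by omega) (by omega)
  rcases Nat.lt_or_ge i 221 with h12 | h12
  · exact allR_spec _ (204 : ℕ) (17 : ℕ) wk6_12 i (by omega) (by omega)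
  rcases Nat.lt_or_ge i 238 with h13 | h13
  · exact allR_spec _ (221 : ℕ) (17 : ℕ) wk6_13 i (by omega) (by omega)
  rcases Nat.lt_or_ge i 255 with h14 | h14
  · exact allR_spec _ (238 : ℕ) (17 : ℕ) wk6_14 i (by omega) (by omega)
  rcases Nat.lt_or_ge i 272 with h15 | h15
  · exact allR_spec _ (255 : ℕ) (17 : ℕ) wk6_15 i (by omega) (by omega)
  exact allR_spec _ (272 : ℕ) (8 : ℕ) wk6_16 i (by omega) (by omega)
theorem wk7 : allR (OT.ckEqW [X6, X4, X6, X4, X6, X4, X6, X4, X0, X0, X2, X1, X1, X1, X2, X1, X1, T3, T2, T4] [X14]) (nat_lit 0) (nat_lit 280) = true := by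
  apply allR_of_forall
  intro i hi
  have hi : i < 280 := hi
  rcases Nat.lt_or_ge i 13 with h0 | h0
  · exact allR_spec _ (0 : ℕ) (13 : ℕ) wk7_0 i (by omega) (by omega)
  rcases Nat.lt_or_ge i 26 with h1 | h1
  · exact allR_spec _ (13 : ℕ) (13 : ℕ) wk7_1 i (by omega) (by omega)
  rcases Nat.lt_or_ge i 39 with h2 | h2
  · exact allR_spec _ (26 : ℕ) (13 : ℕ) wk7_2 i (by omega) (by omega)
  rcases Nat.lt_or_ge i 52 with h3 | h3
  · exact allR_spec _ (39 : ℕ) (13 : ℕ) wk7_3 i (by omega) (by omega)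
  rcases Nat.lt_or_ge i 65 with h4 | h4
  · exact allR_spec _ (52 : ℕ) (13 : ℕ) wk7_4 i (by omega) (by omega)
  rcases Nat.lt_or_ge i 78 with h5 | h5
  · exact allR_spec _ (65 : ℕ) (13 : ℕ) wk7_5 i (by omega) (by omega)
  rcases Nat.lt_or_ge i 91 with h6 | h6
  · exact allR_spec _ (78 : ℕ) (13 : ℕ) wk7_6 i (by omega) (by omega)
  rcases Nat.lt_or_ge i 104 with h7 | h7
  · exact allR_spec _ (91 : ℕ) (13 : ℕ) wk7_7 i (by omega) (by omega)
  rcases Nat.lt_or_ge i 117 with h8 | h8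
  · exact allR_spec _ (104 : ℕ) (13 : ℕ) wk7_8 i (by omega) (by omega)
  rcases Nat.lt_or_ge i 130 with h9 | h9
  · exact allR_spec _ (117 : ℕ) (13 : ℕ) wk7_9 i (by omega) (by omega)
  rcases Nat.lt_or_ge i 143 with h10 | h10
  · exact allR_spec _ (130 : ℕ) (13 : ℕ) wk7_10 i (by omega) (by omega)
  rcases Nat.lt_or_ge i 156 with h11 | h11
  · exact allR_spec _ (143 : ℕ) (13 : ℕ) wk7_11 i (by omega) (by omega)
  rcases Nat.lt_or_ge i 169 with h12 | h12
  · exact allR_spec _ (156 : ℕ) (13 : ℕ) wk7_12 i (by omega) (by omega)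
  rcases Nat.lt_or_ge i 182 with h13 | h13
  · exact allR_spec _ (169 : ℕ) (13 : ℕ) wk7_13 i (by omega) (by omega)
  rcases Nat.lt_or_ge i 195 with h14 | h14
  · exact allR_spec _ (182 : ℕ) (13 : ℕ) wk7_14 i (by omega) (by omega)
  rcases Nat.lt_or_ge i 208 with h15 | h15
  · exact allR_spec _ (195 : ℕ) (13 : ℕ) wk7_15 i (by omega) (by omega)
  rcases Nat.lt_or_ge i 221 with h16 | h16
  · exact allR_spec _ (208 : ℕ) (13 : ℕ) wk7_16 i (by omega) (by omega)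
  rcases Nat.lt_or_ge i 234 with h17 | h17
  · exact allR_spec _ (221 : ℕ) (13 : ℕ) wk7_17 i (by omega) (by omega)
  rcases Nat.lt_or_ge i 247 with h18 | h18
  · exact allR_spec _ (234 : ℕ) (13 : ℕ) wk7_18 i (by omega) (by omega)
  rcases Nat.lt_or_ge i 260 with h19 | h19
  · exact allR_spec _ (247 : ℕ) (13 : ℕ) wk7_19 i (by omega) (by omega)
  rcases Nat.lt_or_ge i 273 with h20 | h20
  · exact allR_spec _ (260 : ℕ) (13 : ℕ) wk7_20 i (by omega) (by omega)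
  exact allR_spec _ (273 : ℕ) (7 : ℕ) wk7_21 i (by omega) (by omega)
def bws : List (List Nat) := [[1, 3, 1, 4, 1, 2, 1, 0, 3, 4, 3, 1, 0, 3, 2, 1, 4, 0, 3, 4, 0, 3, 1, 2, 3, 4, 1, 0, 1, 2, 3], [0, 2, 3, 0, 3], [7, 5, 7, 6, 6, 7, 7, 6, 6, 8, 6], [6, 7, 5, 7, 6, 8, 5, 5], [9], [0], [13, 11, 9, 11, 9, 11, 9, 5, 7, 5, 3, 2, 4, 3, 2], [11, 9, 11, 9, 11, 9, 11, 9, 5, 5, 7, 6, 6, 6, 7, 6, 6, 3, 2, 4]]
noncomputable def T' : Nat → Nat → Nat := fun l => (@Nat.rec (fun _ => Nat → Nat) T0 (fun l _ => (@Nat.rec (fun _ => Nat → Nat) T1 (fun l _ => (@Nat.rec (fun _ => Nat → Nat) T2 (fun l _ => (@Nat.rec (fun _ => Nat → Nat) T3 (fun l _ => (@Nat.rec (fun _ => Nat → Nat) T4 (fun l _ => (@Nat.rec (fun _ => Nat → Nat) X0 (fun l _ => (@Nat.rec (fun _ => Nat → Nat) X1 (fun l _ => (@Nat.rec (fun _ => Nat → Nat) X2 (fun l _ => (@Nat.rec (fun _ => Nat → Nat) X3 (fun l _ => (@Nat.rec (fun _ => Nat → Nat) X4 (fun l _ => (@Nat.rec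 (fun _ => Nat → Nat) X5 (fun l _ => (@Nat.rec (fun _ => Nat → Nat) X6 (fun l _ => (@Nat.rec (fun _ => Nat → Nat) X7 (fun l _ => (@Nat.rec (fun _ => Nat → Nat) X8 (fun l _ => (@Nat.rec (fun _ => Nat → Nat) X9 (fun l _ => (@Nat.rec (fun _ => Nat → Nat) X10 (fun l _ => (@Nat.rec (fun _ => Nat → Nat) X11 (fun l _ => (@Nat.rec (fun _ => Nat → Nat) X12 (fun l _ => (@Nat.rec (fun _ => Nat → Nat) X13 (fun l _ => (@Nat.rec (fun _ => Nat → Nat) X14 (fun l _ => X15) l)) l)) l)) l)) l)) l)) l)) l)) l)) l)) l)) l)) l)) l)) l)) l)) l)) l)) l)) l)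
def inv' : Nat → Nat := fun l => [0, 1, 2, 3, 4, 6, 5, 8, 7, 10, 9, 12, 11, 14, 13, 16, 15, 18, 17, 20, 19].getD l 0

theorem hTT : ∀ l < 5, T' l = Cfsg.Agent.H8.J2t.T l := by
  intro l hl
  interval_cases l <;> rfl

theorem hii : ∀ l < 5, inv' l = Cfsg.Agent.H8.J2t.inv l := by
  intro l hl
  interval_cases l <;> rfl

theorem h1 : ∀ l, 5 ≤ l → l < 21 → inv' l < 21 ∧ inv' (inv' l) = l := by
  intro l h1 h2
  interval_cases l <;> decide

theorem h2 : ∀ l, 5 ≤ l → l < 21 → ∀ i < 280, T' l i < 280 ∧ T' (inv' l) (T' l i) = i := by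
  intro l h1 h2 i hi
  interval_cases l
  · exact ckPerm_sound _ _ _ _ (allR_zero _ _ pk0 i hi)
  · exact ckPerm_sound _ _ _ _ (allR_zero _ _ pk1 i hi)
  · exact ckPerm_sound _ _ _ _ (allR_zero _ _ pk2 i hi)
  · exact ckPerm_sound _ _ _ _ (allR_zero _ _ pk3 i hi)
  · exact ckPerm_sound _ _ _ _ (allR_zero _ _ pk4 i hi)
  · exact ckPerm_sound _ _ _ _ (allR_zero _ _ pk5 i hi)
  · exact ckPerm_sound _ _ _ _ (allR_zero _ _ pk6 i hi)
  · exact ckPerm_sound _ _ _ _ (allR_zero _ _ pk7 i hi)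
  · exact ckPerm_sound _ _ _ _ (allR_zero _ _ pk8 i hi)
  · exact ckPerm_sound _ _ _ _ (allR_zero _ _ pk9 i hi)
  · exact ckPerm_sound _ _ _ _ (allR_zero _ _ pk10 i hi)
  · exact ckPerm_sound _ _ _ _ (allR_zero _ _ pk11 i hi)
  · exact ckPerm_sound _ _ _ _ (allR_zero _ _ pk12 i hi)
  · exact ckPerm_sound _ _ _ _ (allR_zero _ _ pk13 i hi)
  · exact ckPerm_sound _ _ _ _ (allR_zero _ _ pk14 i hi)
  · exact ckPerm_sound _ _ _ _ (allR_zero _ _ pk15 i hi)

theorem tok : TableOK 280 21 T' inv' :=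
  OT.tableOK_ext Cfsg.Agent.H8.J2t.tok (by decide) hTT hii h1 h2

theorem hwb : ∀ i < bws.length, (∀ l ∈ bws.getD i [], l < 5 + 2 * i) ∧ inv' (5 + 2 * i) = 5 + 2 * i + 1 ∧
    ∀ j < 280, trN T' (bws.getD i []) j = T' (5 + 2 * i) j := by
  intro i hi
  have hl : bws.length = 8 := by decide
  rw [hl] at hi
  interval_cases i
  · exact ⟨by decide, by decide, fun j hj => OT.ckEqW_sound (T := T') [1, 3, 1, 4, 1, 2, 1, 0, 3, 4, 3, 1, 0, 3, 2, 1, 4, 0, 3, 4, 0, 3, 1, 2, 3, 4, 1, 0, 1, 2, 3] [5] j (allR_zero _ _ wk0 j hj)⟩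
  · exact ⟨by decide, by decide, fun j hj => OT.ckEqW_sound (T := T') [0, 2, 3, 0, 3] [7] j (allR_zero _ _ wk1 j hj)⟩
  · exact ⟨by decide, by decide, fun j hj => OT.ckEqW_sound (T := T') [7, 5, 7, 6, 6, 7, 7, 6, 6, 8, 6] [9] j (allR_zero _ _ wk2 j hj)⟩
  · exact ⟨by decide, by decide, fun j hj => OT.ckEqW_sound (T := T') [6, 7, 5, 7, 6, 8, 5, 5] [11] j (allR_zero _ _ wk3 j hj)⟩
  · exact ⟨by decide, by decide, fun j hj => OT.ckEqW_sound (T := T') [9] [13] j (allR_zero _ _ wk4 j hj)⟩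
  · exact ⟨by decide, by decide, fun j hj => OT.ckEqW_sound (T := T') [0] [15] j (allR_zero _ _ wk5 j hj)⟩
  · exact ⟨by decide, by decide, fun j hj => OT.ckEqW_sound (T := T') [13, 11, 9, 11, 9, 11, 9, 5, 7, 5, 3, 2, 4, 3, 2] [17] j (allR_zero _ _ wk6 j hj)⟩
  · exact ⟨by decide, by decide, fun j hj => OT.ckEqW_sound (T := T') [11, 9, 11, 9, 11, 9, 11, 9, 5, 5, 7, 6, 6, 6, 7, 6, 6, 3, 2, 4] [19] j (allR_zero _ _ wk7 j hj)⟩

end Cfsg.Agent.H8.J2C
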