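import Cfsg.Agent.H8.CosetPres

set_option autoImplicit false
set_option linter.all false
set_option maxRecDepth 100000

namespace Cfsg.Agent.H8.E7t
noncomputable def E0c0 : Nat := nat_lit 0x6c01dea7ad1349ae727ca4b8c5708a5f04ba076bdac005401ade74b8e8734e009403335a40044018d8d0ada021bc407c00e005d1ab4306d8ac89140024104400808185a26015c30b0055539e9739266a0cc42167428ea49a08328e5518ae29104198626080000041
noncomputable def E0 : Nat → Nat := (fun i => Nat.land (Nat.shiftRight E0c0 (Nat.mul (nat_lit 15) (Nat.land i (nat_lit 255)))) (nat_lit 0x7fff))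
noncomputable def E1c0 : Nat := nat_lit 0xb36e00d403b50f49a6727ca498c53089df03ba0b6a22b4058e8a9eb4b9683bcc709daf298e33048c388a8f801d2842b578030295c6b36006402d31985b2ea6592ca801300a8003c206800c00a49738308805041967328e849a08320e5418ae290c41a8600040210480
noncomputable def E1 : Nat → Nat := (fun i => Nat.land (Nat.shiftRight E1c0 (Nat.mul (nat_lit 15) (Nat.land i (nat_lit 255)))) (nat_lit 0x7fff))
noncomputable def E2c0 : Nat := nat_lit 0xb26f56d801a007599e727ca478c4f08adf05b8016006d7c56e8a821380240bd2e799af280686ac6c589cd0b5a00036236868c001400be207946c8c1d5a2ea45928a805c4aa6a6492c8a190001c013c205800a0c1a0130e649a08318e5318ae291440004010c4808480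
noncomputable def E2 : Nat → Nat := (fun i => Nat.land (Nat.shiftRight E2c0 (Nat.mul (nat_lit 15) (Nat.land i (nat_lit 255)))) (nat_lit 0x7fff))
noncomputable def E3c0 : Nat := nat_lit 0xb46f53da8fa803300e924ca4b8c5701b5a00a4617c1ac7b56e6a80373de87a4ee499a9280212c3e007803234e0284601898eeaddc62b6b5694ac801700b0a85930a8412001e1351268a0d000a684390e69dcc1b12001c605998800945518a828003008833085008480
noncomputable def E3 : Nat → Nat := (fun i => Nat.land (Nat.shiftRight E3c0 (Nat.mul (nat_lit 15) (Nat.land i (nat_lit 255)))) (nat_lit 0x7fff))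
noncomputable def E4c0 : Nat := nat_lit 0xb3ef58da89acdb411e200bc419c4f000e506ba2b6c16c7ad6e5a801400690048108c01100670bcc0195c70b62069bec37988ead1c61b6b36946cad9823ac405d2eaa9944b2638446092210121a002c4079d0c009c6628ea49948000c011c0020045220638084e08480
noncomputable def E4 : Nat → Nat := (fun i => Nat.land (Nat.shiftRight E4c0 (Nat.mul (nat_lit 15) (Nat.land i (nat_lit 255)))) (nat_lit 0x7fff))
noncomputable def E5c0 : Nat := nat_lit 0xb3ef58da8baccf4936716c80180071005c01bc4b48027084c0094416c16800d817ac0353ce471c6d389c90b6206a3ec4798aead5c6236b46948cacd8532e005402b28d449a696480080051431e7638006004d0014012c48380051012641802414c4228638084e08480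
noncomputable def E5 : Nat → Nat := (fun i => Nat.land (Nat.shiftRight E5c0 (Nat.mul (nat_lit 15) (Nat.land i (nat_lit 255)))) (nat_lit 0x7fff))
noncomputable def E6c0 : Nat := nat_lit 0xb46f56da89acd74006401cc217802e0be201c22f6c1ec7bd6e7aa074bd2879cee399a72b9646ac6c5880100061223a007080f805e00301050009805b59aea85930a859a00b2a3492c8a190499e83390869d0c3a9665280040049080a00102638046220636085008480
noncomputable def E6 : Nat → Nat := (fun i => Nat.land (Nat.shiftRight E6c0 (Nat.mul (nat_lit 15) (Nat.land i (nat_lit 255)))) (nat_lit 0x7fff))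
noncomputable def Dc0 : Nat := nat_lit 0xd81a8741663c8d79302dc6b8b48ec14e5a812968248290928222423880f0e033a16c4e19c028260cc85332e3480a95002613c678502981384590c294228a38c830a51882184206308408400000
noncomputable def D : Nat → Nat := (fun i => Nat.land (Nat.shiftRight Dc0 (Nat.mul (nat_lit 11) (Nat.land i (nat_lit 255)))) (nat_lit 0x7ff))
noncomputable def T0 : Nat → Nat := fun i => Nat.land (E0 i) (nat_lit 63)
noncomputable def T1 : Nat → Nat := fun i => Nat.land (E1 i) (nat_lit 63)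
noncomputable def T2 : Nat → Nat := fun i => Nat.land (E2 i) (nat_lit 63)
noncomputable def T3 : Nat → Nat := fun i => Nat.land (E3 i) (nat_lit 63)
noncomputable def T4 : Nat → Nat := fun i => Nat.land (E4 i) (nat_lit 63)
noncomputable def T5 : Nat → Nat := fun i => Nat.land (E5 i) (nat_lit 63)
noncomputable def T6 : Nat → Nat := fun i => Nat.land (E6 i) (nat_lit 63)
noncomputable def E : Nat → Nat → Nat := fun l => (@Nat.rec (fun _ => Nat → Nat) E0 (fun l _ => (@Nat.rec (fun _ => Nat → Nat) E1 (fun l _ => (@Nat.rec (fun _ => Nat → Nat) E2 (fun l _ => (@Nat.rec (fun _ => Nat → Nat) E3 (fun l _ => (@Nat.rec (fun _ => Nat → Nat) E4 (fun l _ => (@Nat.rec (fun _ => Nat → Nat) E5 (fun l _ => E6) l)) l)) l)) l)) l)) l)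
noncomputable def T : Nat → Nat → Nat := fun l => (@Nat.rec (fun _ => Nat → Nat) T0 (fun l _ => (@Nat.rec (fun _ => Nat → Nat) T1 (fun l _ => (@Nat.rec (fun _ => Nat → Nat) T2 (fun l _ => (@Nat.rec (fun _ => Nat → Nat) T3 (fun l _ => (@Nat.rec (fun _ => Nat → Nat) T4 (fun l _ => (@Nat.rec (fun _ => Nat → Nat) T5 (fun l _ => T6) l)) l)) l)) l)) l)) l)
noncomputable def inv : Nat → Nat := fun l => l
def rels2 : List (List Nat × Nat) := [([0, 1], 3), ([0, 2], 2), ([0, 3], 2), ([0, 4], 2), ([0, 5], 2), ([0, 6], 2), ([1, 2], 3), ([1, 3], 2), ([1, 4], 2), ([1, 5], 2), ([1, 6], 2), ([2, 3], 3), ([2, 4], 2), ([2, 5], 2), ([2, 6], 2), ([3, 4], 3), ([3, 5], 2), ([3, 6], 3), ([4, 5], 3), ([4, 6], 2), ([5, 6], 2)]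
def rels : List (List Nat) := rels2.map (fun p => wpow p.1 p.2)
def relsP : List (List Nat × Nat) := [([0, 1], 3), ([0, 2], 2), ([0, 3], 2), ([0, 4], 2), ([0, 5], 2), ([0, 6], 2), ([1, 2], 3), ([1, 3], 2), ([1, 4], 2), ([1, 5], 2), ([1, 6], 2), ([2, 3], 3), ([2, 4], 2), ([2, 5], 2), ([2, 6], 2), ([3, 4], 3), ([3, 5], 2), ([3, 6], 3), ([4, 5], 3), ([4, 6], 2), ([5, 6], 2)]
def subw : List (List Nat) := [[1], [2], [3], [4], [5], [6]]
def RW0 : List (List Nat) := [[2, 0, 2], [3, 0, 3], [6, 0, 6], [1, 0, 1, 0, 1], [4, 0, 4], [5, 0, 5]]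
noncomputable def RF0 : List (List (Nat → Nat)) := [[E2, E0, E2], [E3, E0, E3], [E6, E0, E6], [E1, E0, E1, E0, E1], [E4, E0, E4], [E5, E0, E5]]
def RC0 : List Nat := [512, 1024, 2560, 0, 1536, 2048]
def RW1 : List (List Nat) := [[3, 1, 3], [6, 1, 6], [2, 1, 2, 1, 2], [0, 1, 0, 1, 0], [4, 1, 4], [5, 1, 5]]
noncomputable def RF1 : List (List (Nat → Nat)) := [[E3, E1, E3], [E6, E1, E6], [E2, E1, E2, E1, E2], [E0, E1, E0, E1, E0], [E4, E1, E4], [E5, E1, E5]]
def RC1 : List Nat := [3584, 5120, 3072, 2, 4096, 4608]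
def RW2 : List (List Nat) := [[6, 2, 6], [0, 2, 0], [3, 2, 3, 2, 3], [1, 2, 1, 2, 1], [4, 2, 4], [5, 2, 5]]
noncomputable def RF2 : List (List (Nat → Nat)) := [[E6, E2, E6], [E0, E2, E0], [E3, E2, E3, E2, E3], [E1, E2, E1, E2, E1], [E4, E2, E4], [E5, E2, E5]]
def RC2 : List Nat := [7168, 514, 5632, 3074, 6144, 6656]
def RW3 : List (List Nat) := [[1, 3, 1], [4, 3, 4, 3, 4], [6, 3, 6, 3, 6], [5, 3, 5], [2, 3, 2, 3, 2], [0, 3, 0]]
noncomputable def RF3 : List (List (Nat → Nat)) := [[E1, E3, E1], [E4, E3, E4, E3, E4], [E6, E3, E6, E3, E6], [E5, E3, E5], [E2, E3, E2, E3, E2], [E0, E3, E0]]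
def RC3 : List Nat := [3586, 7680, 8704, 8192, 5634, 1026]
def RW4 : List (List Nat) := [[6, 4, 6], [2, 4, 2], [5, 4, 5, 4, 5], [3, 4, 3, 4, 3], [0, 4, 0], [1, 4, 1]]
noncomputable def RF4 : List (List (Nat → Nat)) := [[E6, E4, E6], [E2, E4, E2], [E5, E4, E5, E4, E5], [E3, E4, E3, E4, E3], [E0, E4, E0], [E1, E4, E1]]
def RC4 : List Nat := [9728, 6146, 9216, 7682, 1538, 4098]
def RW5 : List (List Nat) := [[3, 5, 3], [6, 5, 6], [2, 5, 2], [4, 5, 4, 5, 4], [0, 5, 0], [1, 5, 1]]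
noncomputable def RF5 : List (List (Nat → Nat)) := [[E3, E5, E3], [E6, E5, E6], [E2, E5, E2], [E4, E5, E4, E5, E4], [E0, E5, E0], [E1, E5, E1]]
def RC5 : List Nat := [8194, 10240, 6658, 9218, 2050, 4610]
def RW6 : List (List Nat) := [[4, 6, 4], [2, 6, 2], [3, 6, 3, 6, 3], [1, 6, 1], [5, 6, 5], [0, 6, 0]]
noncomputable def RF6 : List (List (Nat → Nat)) := [[E4, E6, E4], [E2, E6, E2], [E3, E6, E3, E6, E3], [E1, E6, E1], [E5, E6, E5], [E0, E6, E0]]
def RC6 : List Nat := [9730, 7170, 8706, 5122, 10242, 2562]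
def RW : Nat → List (List Nat) := fun l => (@Nat.rec (fun _ => List (List Nat)) RW0 (fun l _ => (@Nat.rec (fun _ => List (List Nat)) RW1 (fun l _ => (@Nat.rec (fun _ => List (List Nat)) RW2 (fun l _ => (@Nat.rec (fun _ => List (List Nat)) RW3 (fun l _ => (@Nat.rec (fun _ => List (List Nat)) RW4 (fun l _ => (@Nat.rec (fun _ => List (List Nat)) RW5 (fun l _ => RW6) l)) l)) l)) l)) l)) l)
def sp : List Nat := [1, 2, 3, 4, 5, 6]
theorem ck0 : allR (ckE (nat_lit 56) (nat_lit 63) (nat_lit 6) (nat_lit 15) (nat_lit 10) (nat_lit 0) D E0 E0 RF0 sp) (nat_lit 0) (nat_lit 56) = true := by decide +kernel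
theorem rf0 : RF0 = (RW0).map (·.map E) := rfl
theorem rc0 : ckRels 7 inv rels 0 RW0 RC0 = true := by decide +kernel
theorem ck1 : allR (ckE (nat_lit 56) (nat_lit 63) (nat_lit 6) (nat_lit 15) (nat_lit 10) (nat_lit 1) D E1 E1 RF1 sp) (nat_lit 0) (nat_lit 56) = true := by decide +kernel
theorem rf1 : RF1 = (RW1).map (·.map E) := rfl
theorem rc1 : ckRels 7 inv rels 1 RW1 RC1 = true := by decide +kernel
theorem ck2 : allR (ckE (nat_lit 56) (nat_lit 63) (nat_lit 6) (nat_lit 15) (nat_lit 10) (nat_lit 2) D E2 E2 RF2 sp) (nat_lit 0) (nat_lit 56) = true := by decide +kernel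
theorem rf2 : RF2 = (RW2).map (·.map E) := rfl
theorem rc2 : ckRels 7 inv rels 2 RW2 RC2 = true := by decide +kernel
theorem ck3 : allR (ckE (nat_lit 56) (nat_lit 63) (nat_lit 6) (nat_lit 15) (nat_lit 10) (nat_lit 3) D E3 E3 RF3 sp) (nat_lit 0) (nat_lit 56) = true := by decide +kernel
theorem rf3 : RF3 = (RW3).map (·.map E) := rfl
theorem rc3 : ckRels 7 inv rels 3 RW3 RC3 = true := by decide +kernel
theorem ck4 : allR (ckE (nat_lit 56) (nat_lit 63) (nat_lit 6) (nat_lit 15) (nat_lit 10) (nat_lit 4) D E4 E4 RF4 sp) (nat_lit 0) (nat_lit 56) = true := by decide +kernel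
theorem rf4 : RF4 = (RW4).map (·.map E) := rfl
theorem rc4 : ckRels 7 inv rels 4 RW4 RC4 = true := by decide +kernel
theorem ck5 : allR (ckE (nat_lit 56) (nat_lit 63) (nat_lit 6) (nat_lit 15) (nat_lit 10) (nat_lit 5) D E5 E5 RF5 sp) (nat_lit 0) (nat_lit 56) = true := by decide +kernel
theorem rf5 : RF5 = (RW5).map (·.map E) := rfl
theorem rc5 : ckRels 7 inv rels 5 RW5 RC5 = true := by decide +kernel
theorem ck6 : allR (ckE (nat_lit 56) (nat_lit 63) (nat_lit 6) (nat_lit 15) (nat_lit 10) (nat_lit 6) D E6 E6 RF6 sp) (nat_lit 0) (nat_lit 56) = true := by decide +kernel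
theorem rf6 : RF6 = (RW6).map (·.map E) := rfl
theorem rc6 : ckRels 7 inv rels 6 RW6 RC6 = true := by decide +kernel

theorem edgeOK : ∀ l < 7, ∀ i < 56, EdgeOK E 63 56 10 6 15 inv D RW sp l i := by
  intro l hl i hi
  interval_cases l

  · exact ckE_sound 56 63 6 15 10 0 inv D E RW sp i (by
      have := allR_zero _ _ ck0 i hi
      rw [rf0] at this
      exact this)
  · exact ckE_sound 56 63 6 15 10 1 inv D E RW sp i (by
      have := allR_zero _ _ ck1 i hi
      rw [rf1] at this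
      exact this)
  · exact ckE_sound 56 63 6 15 10 2 inv D E RW sp i (by
      have := allR_zero _ _ ck2 i hi
      rw [rf2] at this
      exact this)
  · exact ckE_sound 56 63 6 15 10 3 inv D E RW sp i (by
      have := allR_zero _ _ ck3 i hi
      rw [rf3] at this
      exact this)
  · exact ckE_sound 56 63 6 15 10 4 inv D E RW sp i (by
      have := allR_zero _ _ ck4 i hi
      rw [rf4] at this
      exact this)
  · exact ckE_sound 56 63 6 15 10 5 inv D E RW sp i (by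
      have := allR_zero _ _ ck5 i hi
      rw [rf5] at this
      exact this)
  · exact ckE_sound 56 63 6 15 10 6 inv D E RW sp i (by
      have := allR_zero _ _ ck6 i hi
      rw [rf6] at this
      exact this)
theorem sp1k : ckSub (nat_lit 63) (nat_lit 10) E1 [] [] (nat_lit 0) = true := by decide +kernel
theorem sp1 {G : Type*} [Group G] (H : Subgroup G) (s : Nat → G) (hinv : ∀ l, s l = (s l)⁻¹) (h31 : s 31 = 1)
    (hrels : ∀ W ∈ rels, (W.map s).prod = 1) (hsub : ∀ w ∈ subw, (w.map s).prod ∈ H)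
    (htgt : ∀ l < 7, ∀ i < 56, Nat.land (E l i) 63 < 56)
    (hlow : ∀ l' < 7, ∀ i' < 56, E l' i' < Nat.shiftLeft (Nat.shiftRight (E 1 0) 10) 10 →
      EdgeP H s (repOf s D) E 63 l' i') : EdgeP H s (repOf s D) E 63 1 0 := by
  have h1 := ckSub_sound E 63 10 1 0 [] [] sp1k
  exact special_sub H s (repOf s D) E 63 56 7 _ htgt hlow (repOf_zero s D) [] [] 1 0 (by decide) (by decide)
    (by decide) (by decide) (hsub _ (by decide)) h1.1 h1.2
theorem sp2k : ckSub (nat_lit 63) (nat_lit 10) E2 [] [] (nat_lit 0) = true := by decide +kernel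
theorem sp2 {G : Type*} [Group G] (H : Subgroup G) (s : Nat → G) (hinv : ∀ l, s l = (s l)⁻¹) (h31 : s 31 = 1)
    (hrels : ∀ W ∈ rels, (W.map s).prod = 1) (hsub : ∀ w ∈ subw, (w.map s).prod ∈ H)
    (htgt : ∀ l < 7, ∀ i < 56, Nat.land (E l i) 63 < 56)
    (hlow : ∀ l' < 7, ∀ i' < 56, E l' i' < Nat.shiftLeft (Nat.shiftRight (E 2 0) 10) 10 →
      EdgeP H s (repOf s D) E 63 l' i') : EdgeP H s (repOf s D) E 63 2 0 := by
  have h1 := ckSub_sound E 63 10 2 0 [] [] sp2k
  exact special_sub H s (repOf s D) E 63 56 7 _ htgt hlow (repOf_zero s D) [] [] 2 0 (by decide) (by decide)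
    (by decide) (by decide) (hsub _ (by decide)) h1.1 h1.2
theorem sp3k : ckSub (nat_lit 63) (nat_lit 10) E3 [] [] (nat_lit 0) = true := by decide +kernel
theorem sp3 {G : Type*} [Group G] (H : Subgroup G) (s : Nat → G) (hinv : ∀ l, s l = (s l)⁻¹) (h31 : s 31 = 1)
    (hrels : ∀ W ∈ rels, (W.map s).prod = 1) (hsub : ∀ w ∈ subw, (w.map s).prod ∈ H)
    (htgt : ∀ l < 7, ∀ i < 56, Nat.land (E l i) 63 < 56)
    (hlow : ∀ l' < 7, ∀ i' < 56, E l' i' < Nat.shiftLeft (Nat.shiftRight (E 3 0) 10) 10 →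
      EdgeP H s (repOf s D) E 63 l' i') : EdgeP H s (repOf s D) E 63 3 0 := by
  have h1 := ckSub_sound E 63 10 3 0 [] [] sp3k
  exact special_sub H s (repOf s D) E 63 56 7 _ htgt hlow (repOf_zero s D) [] [] 3 0 (by decide) (by decide)
    (by decide) (by decide) (hsub _ (by decide)) h1.1 h1.2
theorem sp4k : ckSub (nat_lit 63) (nat_lit 10) E4 [] [] (nat_lit 0) = true := by decide +kernel
theorem sp4 {G : Type*} [Group G] (H : Subgroup G) (s : Nat → G) (hinv : ∀ l, s l = (s l)⁻¹) (h31 : s 31 = 1)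
    (hrels : ∀ W ∈ rels, (W.map s).prod = 1) (hsub : ∀ w ∈ subw, (w.map s).prod ∈ H)
    (htgt : ∀ l < 7, ∀ i < 56, Nat.land (E l i) 63 < 56)
    (hlow : ∀ l' < 7, ∀ i' < 56, E l' i' < Nat.shiftLeft (Nat.shiftRight (E 4 0) 10) 10 →
      EdgeP H s (repOf s D) E 63 l' i') : EdgeP H s (repOf s D) E 63 4 0 := by
  have h1 := ckSub_sound E 63 10 4 0 [] [] sp4k
  exact special_sub H s (repOf s D) E 63 56 7 _ htgt hlow (repOf_zero s D) [] [] 4 0 (by decide) (by decide)
    (by decide) (by decide) (hsub _ (by decide)) h1.1 h1.2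
theorem sp5k : ckSub (nat_lit 63) (nat_lit 10) E5 [] [] (nat_lit 0) = true := by decide +kernel
theorem sp5 {G : Type*} [Group G] (H : Subgroup G) (s : Nat → G) (hinv : ∀ l, s l = (s l)⁻¹) (h31 : s 31 = 1)
    (hrels : ∀ W ∈ rels, (W.map s).prod = 1) (hsub : ∀ w ∈ subw, (w.map s).prod ∈ H)
    (htgt : ∀ l < 7, ∀ i < 56, Nat.land (E l i) 63 < 56)
    (hlow : ∀ l' < 7, ∀ i' < 56, E l' i' < Nat.shiftLeft (Nat.shiftRight (E 5 0) 10) 10 →
      EdgeP H s (repOf s D) E 63 l' i') : EdgeP H s (repOf s D) E 63 5 0 := by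
  have h1 := ckSub_sound E 63 10 5 0 [] [] sp5k
  exact special_sub H s (repOf s D) E 63 56 7 _ htgt hlow (repOf_zero s D) [] [] 5 0 (by decide) (by decide)
    (by decide) (by decide) (hsub _ (by decide)) h1.1 h1.2
theorem sp6k : ckSub (nat_lit 63) (nat_lit 10) E6 [] [] (nat_lit 0) = true := by decide +kernel
theorem sp6 {G : Type*} [Group G] (H : Subgroup G) (s : Nat → G) (hinv : ∀ l, s l = (s l)⁻¹) (h31 : s 31 = 1)
    (hrels : ∀ W ∈ rels, (W.map s).prod = 1) (hsub : ∀ w ∈ subw, (w.map s).prod ∈ H)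
    (htgt : ∀ l < 7, ∀ i < 56, Nat.land (E l i) 63 < 56)
    (hlow : ∀ l' < 7, ∀ i' < 56, E l' i' < Nat.shiftLeft (Nat.shiftRight (E 6 0) 10) 10 →
      EdgeP H s (repOf s D) E 63 l' i') : EdgeP H s (repOf s D) E 63 6 0 := by
  have h1 := ckSub_sound E 63 10 6 0 [] [] sp6k
  exact special_sub H s (repOf s D) E 63 56 7 _ htgt hlow (repOf_zero s D) [] [] 6 0 (by decide) (by decide)
    (by decide) (by decide) (hsub _ (by decide)) h1.1 h1.2

theorem htgt : ∀ l < 7, ∀ i < 56, Nat.land (E l i) 63 < 56 := fun l hl i hi => (edgeOK l hl i hi).1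

theorem edges {G : Type*} [Group G] (H : Subgroup G) (s : Nat → G) (hinv : ∀ l, s l = (s l)⁻¹) (h31 : s 31 = 1)
    (hrels : ∀ W ∈ rels, (W.map s).prod = 1) (hsub : ∀ w ∈ subw, (w.map s).prod ∈ H) :
    ∀ l < 7, ∀ i < 56, EdgeP H s (repOf s D) E 63 l i := by
  refine edges_correct H s E 63 56 7 10 6 15 inv D RW sp (by decide) (fun l hl => hl) (fun l _ => hinv l)
    ?_ ?_ ?_ edgeOK
  · intro l hl w hw
    interval_cases l
    · exact (ckRels_sound 7 inv rels 0 RW0 RC0 rc0 w hw).1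
    · exact (ckRels_sound 7 inv rels 1 RW1 RC1 rc1 w hw).1
    · exact (ckRels_sound 7 inv rels 2 RW2 RC2 rc2 w hw).1
    · exact (ckRels_sound 7 inv rels 3 RW3 RC3 rc3 w hw).1
    · exact (ckRels_sound 7 inv rels 4 RW4 RC4 rc4 w hw).1
    · exact (ckRels_sound 7 inv rels 5 RW5 RC5 rc5 w hw).1
    · exact (ckRels_sound 7 inv rels 6 RW6 RC6 rc6 w hw).1
  · intro l hl w hw
    interval_cases l
    · obtain ⟨_, c, hc⟩ := ckRels_sound 7 inv rels 0 RW0 RC0 rc0 w hw
      exact ckRel_sound s inv rels hrels 0 w c (fun l' _ => hinv l') hc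
    · obtain ⟨_, c, hc⟩ := ckRels_sound 7 inv rels 1 RW1 RC1 rc1 w hw
      exact ckRel_sound s inv rels hrels 1 w c (fun l' _ => hinv l') hc
    · obtain ⟨_, c, hc⟩ := ckRels_sound 7 inv rels 2 RW2 RC2 rc2 w hw
      exact ckRel_sound s inv rels hrels 2 w c (fun l' _ => hinv l') hc
    · obtain ⟨_, c, hc⟩ := ckRels_sound 7 inv rels 3 RW3 RC3 rc3 w hw
      exact ckRel_sound s inv rels hrels 3 w c (fun l' _ => hinv l') hc
    · obtain ⟨_, c, hc⟩ := ckRels_sound 7 inv rels 4 RW4 RC4 rc4 w hw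
      exact ckRel_sound s inv rels hrels 4 w c (fun l' _ => hinv l') hc
    · obtain ⟨_, c, hc⟩ := ckRels_sound 7 inv rels 5 RW5 RC5 rc5 w hw
      exact ckRel_sound s inv rels hrels 5 w c (fun l' _ => hinv l') hc
    · obtain ⟨_, c, hc⟩ := ckRels_sound 7 inv rels 6 RW6 RC6 rc6 w hw
      exact ckRel_sound s inv rels hrels 6 w c (fun l' _ => hinv l') hc
  · refine hsp_of H s (repOf s D) E 63 56 7 10 sp (by decide) ?_
    refine List.forall_mem_cons.2 ⟨fun _ _ h => sp1 H s hinv h31 hrels hsub htgt h, ?_⟩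
    refine List.forall_mem_cons.2 ⟨fun _ _ h => sp2 H s hinv h31 hrels hsub htgt h, ?_⟩
    refine List.forall_mem_cons.2 ⟨fun _ _ h => sp3 H s hinv h31 hrels hsub htgt h, ?_⟩
    refine List.forall_mem_cons.2 ⟨fun _ _ h => sp4 H s hinv h31 hrels hsub htgt h, ?_⟩
    refine List.forall_mem_cons.2 ⟨fun _ _ h => sp5 H s hinv h31 hrels hsub htgt h, ?_⟩
    refine List.forall_mem_cons.2 ⟨fun _ _ h => sp6 H s hinv h31 hrels hsub htgt h, ?_⟩
    intro c hc
    exact absurd hc List.not_mem_nil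

theorem covers {G : Type*} [Group G] (s : Nat → G) (hinv : ∀ l, s l = (s l)⁻¹) (h31 : s 31 = 1)
    (hrels2 : ∀ p ∈ rels2, ((p.1.map s).prod) ^ p.2 = 1) (H : Subgroup G) (hsub : ∀ w ∈ subw, (w.map s).prod ∈ H) :
    ∀ g ∈ letterGroup s 7, ∀ i < 56, ∃ j < 56, repOf s D i * g * (repOf s D j)⁻¹ ∈ H :=
  cover H s (repOf s D) E 63 56 7 inv (fun l hl => hl) (fun l _ => hinv l) htgt
    (edges H s hinv h31 (hrels_of s rels2 hrels2) hsub)

theorem upper {G : Type*} [Group G] (s : Nat → G) (hinv : ∀ l, s l = (s l)⁻¹) (h31 : s 31 = 1)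
    (hrels2 : ∀ p ∈ rels2, ((p.1.map s).prod) ^ p.2 = 1) (H : Subgroup G) (hsub : ∀ w ∈ subw, (w.map s).prod ∈ H)
    (hH : Finite H) : Finite (letterGroup s 7) ∧ Nat.card (letterGroup s 7) ≤ 56 * Nat.card H :=
  card_le_of_cover H (repOf s D) 56 (by decide) (repOf_zero s D) _
    (covers s hinv h31 hrels2 H hsub) hH

theorem upperIndex {G : Type*} [Group G] (s : Nat → G) (hinv : ∀ l, s l = (s l)⁻¹) (h31 : s 31 = 1)
    (hrels2 : ∀ p ∈ rels2, ((p.1.map s).prod) ^ p.2 = 1) (H : Subgroup G) (hsub : ∀ w ∈ subw, (w.map s).prod ∈ H)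
    (htop : letterGroup s 7 = ⊤) : H.FiniteIndex ∧ H.index ≤ 56 :=
  index_le_of_cover H (repOf s D) 56 (by decide) (repOf_zero s D)
    (fun g => covers s hinv h31 hrels2 H hsub g (by rw [htop]; exact Subgroup.mem_top g))


end Cfsg.Agent.H8.E7t
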