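import Cfsg.Agent.H8.T.E7t

set_option autoImplicit false
set_option linter.all false
set_option maxRecDepth 100000

namespace Cfsg.Agent.H8.E7t
theorem pk0 : allR (ckPerm (nat_lit 56) T0 T0) (nat_lit 0) (nat_lit 56) = true := by decide +kernel
theorem pk1 : allR (ckPerm (nat_lit 56) T1 T1) (nat_lit 0) (nat_lit 56) = true := by decide +kernel
theorem pk2 : allR (ckPerm (nat_lit 56) T2 T2) (nat_lit 0) (nat_lit 56) = true := by decide +kernel
theorem pk3 : allR (ckPerm (nat_lit 56) T3 T3) (nat_lit 0) (nat_lit 56) = true := by decide +kernel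
theorem pk4 : allR (ckPerm (nat_lit 56) T4 T4) (nat_lit 0) (nat_lit 56) = true := by decide +kernel
theorem pk5 : allR (ckPerm (nat_lit 56) T5 T5) (nat_lit 0) (nat_lit 56) = true := by decide +kernel
theorem pk6 : allR (ckPerm (nat_lit 56) T6 T6) (nat_lit 0) (nat_lit 56) = true := by decide +kernel
theorem dk : allR (ckD 7 T D) (nat_lit 0) (nat_lit 56) = true := by decide +kernel

theorem tok : TableOK 56 7 T inv where
  lt := by
    intro l hl i hi
    interval_cases l
    · exact (ckPerm_sound _ _ _ _ (allR_zero _ _ pk0 i hi)).1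
    · exact (ckPerm_sound _ _ _ _ (allR_zero _ _ pk1 i hi)).1
    · exact (ckPerm_sound _ _ _ _ (allR_zero _ _ pk2 i hi)).1
    · exact (ckPerm_sound _ _ _ _ (allR_zero _ _ pk3 i hi)).1
    · exact (ckPerm_sound _ _ _ _ (allR_zero _ _ pk4 i hi)).1
    · exact (ckPerm_sound _ _ _ _ (allR_zero _ _ pk5 i hi)).1
    · exact (ckPerm_sound _ _ _ _ (allR_zero _ _ pk6 i hi)).1
  inv_lt := fun l hl => hl
  inv_inv := fun _ _ => rfl
  inv_apply := by
    intro l hl i hi
    interval_cases l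
    · exact (ckPerm_sound _ _ _ _ (allR_zero _ _ pk0 i hi)).2
    · exact (ckPerm_sound _ _ _ _ (allR_zero _ _ pk1 i hi)).2
    · exact (ckPerm_sound _ _ _ _ (allR_zero _ _ pk2 i hi)).2
    · exact (ckPerm_sound _ _ _ _ (allR_zero _ _ pk3 i hi)).2
    · exact (ckPerm_sound _ _ _ _ (allR_zero _ _ pk4 i hi)).2
    · exact (ckPerm_sound _ _ _ _ (allR_zero _ _ pk5 i hi)).2
    · exact (ckPerm_sound _ _ _ _ (allR_zero _ _ pk6 i hi)).2

theorem dOK : ∀ t, 0 < t → t < 56 → D t / 32 < t ∧ D t % 32 < 7 ∧ T (D t % 32) (D t / 32) = t :=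
  fun t h0 h1 => ckD_sound (L := 7) (T := T) D t h0 (allR_zero _ _ dk t h1)

theorem rk0 : allR (fun i => powT [T0, T1] i (nat_lit 3) i) (nat_lit 0) (nat_lit 56) = true := by decide +kernel
theorem rk1 : allR (fun i => powT [T0, T2] i (nat_lit 2) i) (nat_lit 0) (nat_lit 56) = true := by decide +kernel
theorem rk2 : allR (fun i => powT [T0, T3] i (nat_lit 2) i) (nat_lit 0) (nat_lit 56) = true := by decide +kernel
theorem rk3 : allR (fun i => powT [T0, T4] i (nat_lit 2) i) (nat_lit 0) (nat_lit 56) = true := by decide +kernel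
theorem rk4 : allR (fun i => powT [T0, T5] i (nat_lit 2) i) (nat_lit 0) (nat_lit 56) = true := by decide +kernel
theorem rk5 : allR (fun i => powT [T0, T6] i (nat_lit 2) i) (nat_lit 0) (nat_lit 56) = true := by decide +kernel
theorem rk6 : allR (fun i => powT [T1, T2] i (nat_lit 3) i) (nat_lit 0) (nat_lit 56) = true := by decide +kernel
theorem rk7 : allR (fun i => powT [T1, T3] i (nat_lit 2) i) (nat_lit 0) (nat_lit 56) = true := by decide +kernel
theorem rk8 : allR (fun i => powT [T1, T4] i (nat_lit 2) i) (nat_lit 0) (nat_lit 56) = true := by decide +kernel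
theorem rk9 : allR (fun i => powT [T1, T5] i (nat_lit 2) i) (nat_lit 0) (nat_lit 56) = true := by decide +kernel
theorem rk10 : allR (fun i => powT [T1, T6] i (nat_lit 2) i) (nat_lit 0) (nat_lit 56) = true := by decide +kernel
theorem rk11 : allR (fun i => powT [T2, T3] i (nat_lit 3) i) (nat_lit 0) (nat_lit 56) = true := by decide +kernel
theorem rk12 : allR (fun i => powT [T2, T4] i (nat_lit 2) i) (nat_lit 0) (nat_lit 56) = true := by decide +kernel
theorem rk13 : allR (fun i => powT [T2, T5] i (nat_lit 2) i) (nat_lit 0) (nat_lit 56) = true := by decide +kernel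
theorem rk14 : allR (fun i => powT [T2, T6] i (nat_lit 2) i) (nat_lit 0) (nat_lit 56) = true := by decide +kernel
theorem rk15 : allR (fun i => powT [T3, T4] i (nat_lit 3) i) (nat_lit 0) (nat_lit 56) = true := by decide +kernel
theorem rk16 : allR (fun i => powT [T3, T5] i (nat_lit 2) i) (nat_lit 0) (nat_lit 56) = true := by decide +kernel
theorem rk17 : allR (fun i => powT [T3, T6] i (nat_lit 3) i) (nat_lit 0) (nat_lit 56) = true := by decide +kernel
theorem rk18 : allR (fun i => powT [T4, T5] i (nat_lit 3) i) (nat_lit 0) (nat_lit 56) = true := by decide +kernel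
theorem rk19 : allR (fun i => powT [T4, T6] i (nat_lit 2) i) (nat_lit 0) (nat_lit 56) = true := by decide +kernel
theorem rk20 : allR (fun i => powT [T5, T6] i (nat_lit 2) i) (nat_lit 0) (nat_lit 56) = true := by decide +kernel
theorem relp : ∀ p ∈ relsP, ((p.1.map (permL tok)).prod) ^ p.2 = 1 := by
  refine List.forall_mem_cons.2 ⟨pow_eq_one_of_powT tok [0, 1] (by decide) 3 (fun i hi => allR_zero _ _ rk0 i hi), ?_⟩
  refine List.forall_mem_cons.2 ⟨pow_eq_one_of_powT tok [0, 2] (by decide) 2 (fun i hi => allR_zero _ _ rk1 i hi), ?_⟩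
  refine List.forall_mem_cons.2 ⟨pow_eq_one_of_powT tok [0, 3] (by decide) 2 (fun i hi => allR_zero _ _ rk2 i hi), ?_⟩
  refine List.forall_mem_cons.2 ⟨pow_eq_one_of_powT tok [0, 4] (by decide) 2 (fun i hi => allR_zero _ _ rk3 i hi), ?_⟩
  refine List.forall_mem_cons.2 ⟨pow_eq_one_of_powT tok [0, 5] (by decide) 2 (fun i hi => allR_zero _ _ rk4 i hi), ?_⟩
  refine List.forall_mem_cons.2 ⟨pow_eq_one_of_powT tok [0, 6] (by decide) 2 (fun i hi => allR_zero _ _ rk5 i hi), ?_⟩
  refine List.forall_mem_cons.2 ⟨pow_eq_one_of_powT tok [1, 2] (by decide) 3 (fun i hi => allR_zero _ _ rk6 i hi), ?_⟩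
  refine List.forall_mem_cons.2 ⟨pow_eq_one_of_powT tok [1, 3] (by decide) 2 (fun i hi => allR_zero _ _ rk7 i hi), ?_⟩
  refine List.forall_mem_cons.2 ⟨pow_eq_one_of_powT tok [1, 4] (by decide) 2 (fun i hi => allR_zero _ _ rk8 i hi), ?_⟩
  refine List.forall_mem_cons.2 ⟨pow_eq_one_of_powT tok [1, 5] (by decide) 2 (fun i hi => allR_zero _ _ rk9 i hi), ?_⟩
  refine List.forall_mem_cons.2 ⟨pow_eq_one_of_powT tok [1, 6] (by decide) 2 (fun i hi => allR_zero _ _ rk10 i hi), ?_⟩
  refine List.forall_mem_cons.2 ⟨pow_eq_one_of_powT tok [2, 3] (by decide) 3 (fun i hi => allR_zero _ _ rk11 i hi), ?_⟩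
  refine List.forall_mem_cons.2 ⟨pow_eq_one_of_powT tok [2, 4] (by decide) 2 (fun i hi => allR_zero _ _ rk12 i hi), ?_⟩
  refine List.forall_mem_cons.2 ⟨pow_eq_one_of_powT tok [2, 5] (by decide) 2 (fun i hi => allR_zero _ _ rk13 i hi), ?_⟩
  refine List.forall_mem_cons.2 ⟨pow_eq_one_of_powT tok [2, 6] (by decide) 2 (fun i hi => allR_zero _ _ rk14 i hi), ?_⟩
  refine List.forall_mem_cons.2 ⟨pow_eq_one_of_powT tok [3, 4] (by decide) 3 (fun i hi => allR_zero _ _ rk15 i hi), ?_⟩
  refine List.forall_mem_cons.2 ⟨pow_eq_one_of_powT tok [3, 5] (by decide) 2 (fun i hi => allR_zero _ _ rk16 i hi), ?_⟩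
  refine List.forall_mem_cons.2 ⟨pow_eq_one_of_powT tok [3, 6] (by decide) 3 (fun i hi => allR_zero _ _ rk17 i hi), ?_⟩
  refine List.forall_mem_cons.2 ⟨pow_eq_one_of_powT tok [4, 5] (by decide) 3 (fun i hi => allR_zero _ _ rk18 i hi), ?_⟩
  refine List.forall_mem_cons.2 ⟨pow_eq_one_of_powT tok [4, 6] (by decide) 2 (fun i hi => allR_zero _ _ rk19 i hi), ?_⟩
  refine List.forall_mem_cons.2 ⟨pow_eq_one_of_powT tok [5, 6] (by decide) 2 (fun i hi => allR_zero _ _ rk20 i hi), ?_⟩
  intro c hc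
  exact absurd hc List.not_mem_nil

/-- transitivity. -/
theorem rho_tr {G : Type*} [Group G] (s : Nat → G) (ρ : G →* Equiv.Perm (Fin 56))
    (hρ : ∀ l < 7, ρ (s l) = permL tok l) : ∀ i, ∃ g, ρ g ⟨0, by decide⟩ = i := by
  intro i
  have h := rho_rep s tok ρ hρ (by decide) D dOK i i.2
  exact ⟨(repOf s D i)⁻¹, by rw [map_inv]; exact h⟩


end Cfsg.Agent.H8.E7t
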