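import Cfsg.Agent.H8.T.Fi24atTab

set_option autoImplicit false
set_option linter.all false
set_option maxRecDepth 100000

namespace Cfsg.Agent.H8.Fi24at
theorem ck8 : allR (ckE (nat_lit 0x6f0f) (nat_lit 0x7fff) (nat_lit 15) (nat_lit 31) (nat_lit 20) (nat_lit 8) D E8 E8 RF8 sp) (nat_lit 0) (nat_lit 0x6f0f) = true := by decide +kernel
theorem rf8 : RF8 = (RW8).map (·.map E) := rfl
theorem rc8 : ckRels 10 inv rels 8 RW8 RC8 = true := by decide +kernel

end Cfsg.Agent.H8.Fi24at
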