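import Cfsg.Agent.H8.T.Fi24atC0
import Cfsg.Agent.H8.T.Fi24atC1
import Cfsg.Agent.H8.T.Fi24atC2
import Cfsg.Agent.H8.T.Fi24atC3
import Cfsg.Agent.H8.T.Fi24atC4
import Cfsg.Agent.H8.T.Fi24atC5
import Cfsg.Agent.H8.T.Fi24atC6
import Cfsg.Agent.H8.T.Fi24atC7
import Cfsg.Agent.H8.T.Fi24atC8
import Cfsg.Agent.H8.T.Fi24atC9

set_option autoImplicit false
set_option linter.all false
set_option maxRecDepth 100000

namespace Cfsg.Agent.H8.Fi24at

theorem edgeOK : ∀ l < 10, ∀ i < 28431, EdgeOK E 32767 28431 20 15 31 inv D RW sp l i := by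
  intro l hl i hi
  interval_cases l

  · exact ckE_sound 28431 32767 15 31 20 0 inv D E RW sp i (by
      have := allR_zero _ _ ck0 i hi
      rw [rf0] at this
      exact this)
  · exact ckE_sound 28431 32767 15 31 20 1 inv D E RW sp i (by
      have := allR_zero _ _ ck1 i hi
      rw [rf1] at this
      exact this)
  · exact ckE_sound 28431 32767 15 31 20 2 inv D E RW sp i (by
      have := allR_zero _ _ ck2 i hi
      rw [rf2] at this
      exact this)
  · exact ckE_sound 28431 32767 15 31 20 3 inv D E RW sp i (by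
      have := allR_zero _ _ ck3 i hi
      rw [rf3] at this
      exact this)
  · exact ckE_sound 28431 32767 15 31 20 4 inv D E RW sp i (by
      have := allR_zero _ _ ck4 i hi
      rw [rf4] at this
      exact this)
  · exact ckE_sound 28431 32767 15 31 20 5 inv D E RW sp i (by
      have := allR_zero _ _ ck5 i hi
      rw [rf5] at this
      exact this)
  · exact ckE_sound 28431 32767 15 31 20 6 inv D E RW sp i (by
      have := allR_zero _ _ ck6 i hi
      rw [rf6] at this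
      exact this)
  · exact ckE_sound 28431 32767 15 31 20 7 inv D E RW sp i (by
      have := allR_zero _ _ ck7 i hi
      rw [rf7] at this
      exact this)
  · exact ckE_sound 28431 32767 15 31 20 8 inv D E RW sp i (by
      have := allR_zero _ _ ck8 i hi
      rw [rf8] at this
      exact this)
  · exact ckE_sound 28431 32767 15 31 20 9 inv D E RW sp i (by
      have := allR_zero _ _ ck9 i hi
      rw [rf9] at this
      exact this)
def RB : List (List Nat) := [[2, 4, 2, 4], [3, 4, 3, 4, 3, 4], [2, 6, 2, 6], [4, 6, 4, 6], [5, 2, 5, 2], [3, 2, 3, 2, 3, 2], [5, 1, 5, 1], [4, 5, 4, 5, 4, 5], [6, 4, 6, 4], [5, 4, 5, 4, 5, 4], [5, 3, 5, 3], [3, 5, 3, 5], [3, 9, 3, 9], [3, 8, 3, 8], [1, 3, 1, 3], [2, 1, 2, 1, 2, 1], [3, 1, 3, 1], [2, 3, 2, 3, 2, 3], [4, 0, 4, 0], [6, 0, 6, 0], [7, 4, 7, 4], [6, 7, 6, 7, 6, 7], [4, 9, 4, 9], [6, 9, 6, 9], [4, 1, 4, 1], [6, 1, 6, 1], [6, 3, 6, 3], [4, 3, 4, 3, 4, 3], [6, 5, 6, 5, 6, 5]]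
def RBC : List Nat := [2048, 18432, 6144, 36864, 4104, 8, 57344, 34816, 36872, 34824, 20488, 20480, 28672, 26624, 30728, 14336, 30720, 0, 47104, 69632, 38920, 61440, 43008, 65536, 45056, 67584, 22536, 18440, 49160]
theorem rbc : ckRB 10 inv rels RB RBC = true := by decide +kernel
theorem sp0k : ckSub (nat_lit 0x7fff) (nat_lit 20) E0 [] [] (nat_lit 0) = true := by decide +kernel
theorem sp0 {G : Type*} [Group G] (H : Subgroup G) (s : Nat → G) (hinv : ∀ l, s l = (s l)⁻¹) (h31 : s 31 = 1)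
    (hrels : ∀ W ∈ rels, (W.map s).prod = 1) (hsub : ∀ w ∈ subw, (w.map s).prod ∈ H)
    (htgt : ∀ l < 10, ∀ i < 28431, Nat.land (E l i) 32767 < 28431)
    (hlow : ∀ l' < 10, ∀ i' < 28431, E l' i' < Nat.shiftLeft (Nat.shiftRight (E 0 0) 20) 20 →
      EdgeP H s (repOf s D) E 32767 l' i') : EdgeP H s (repOf s D) E 32767 0 0 := by
  have h1 := ckSub_sound E 32767 20 0 0 [] [] sp0k
  exact special_sub H s (repOf s D) E 32767 28431 10 _ htgt hlow (repOf_zero s D) [] [] 0 0 (by decide) (by decide)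
    (by decide) (by decide) (hsub _ (by decide)) h1.1 h1.2
theorem sp1k : ckSub (nat_lit 0x7fff) (nat_lit 20) E1 [] [] (nat_lit 0) = true := by decide +kernel
theorem sp1 {G : Type*} [Group G] (H : Subgroup G) (s : Nat → G) (hinv : ∀ l, s l = (s l)⁻¹) (h31 : s 31 = 1)
    (hrels : ∀ W ∈ rels, (W.map s).prod = 1) (hsub : ∀ w ∈ subw, (w.map s).prod ∈ H)
    (htgt : ∀ l < 10, ∀ i < 28431, Nat.land (E l i) 32767 < 28431)
    (hlow : ∀ l' < 10, ∀ i' < 28431, E l' i' < Nat.shiftLeft (Nat.shiftRight (E 1 0) 20) 20 →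
      EdgeP H s (repOf s D) E 32767 l' i') : EdgeP H s (repOf s D) E 32767 1 0 := by
  have h1 := ckSub_sound E 32767 20 1 0 [] [] sp1k
  exact special_sub H s (repOf s D) E 32767 28431 10 _ htgt hlow (repOf_zero s D) [] [] 1 0 (by decide) (by decide)
    (by decide) (by decide) (hsub _ (by decide)) h1.1 h1.2
theorem sp2k : ckSub (nat_lit 0x7fff) (nat_lit 20) E2 [] [] (nat_lit 0) = true := by decide +kernel
theorem sp2 {G : Type*} [Group G] (H : Subgroup G) (s : Nat → G) (hinv : ∀ l, s l = (s l)⁻¹) (h31 : s 31 = 1)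
    (hrels : ∀ W ∈ rels, (W.map s).prod = 1) (hsub : ∀ w ∈ subw, (w.map s).prod ∈ H)
    (htgt : ∀ l < 10, ∀ i < 28431, Nat.land (E l i) 32767 < 28431)
    (hlow : ∀ l' < 10, ∀ i' < 28431, E l' i' < Nat.shiftLeft (Nat.shiftRight (E 2 0) 20) 20 →
      EdgeP H s (repOf s D) E 32767 l' i') : EdgeP H s (repOf s D) E 32767 2 0 := by
  have h1 := ckSub_sound E 32767 20 2 0 [] [] sp2k
  exact special_sub H s (repOf s D) E 32767 28431 10 _ htgt hlow (repOf_zero s D) [] [] 2 0 (by decide) (by decide)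
    (by decide) (by decide) (hsub _ (by decide)) h1.1 h1.2
theorem sp3k : ckSub (nat_lit 0x7fff) (nat_lit 20) E3 [] [] (nat_lit 0) = true := by decide +kernel
theorem sp3 {G : Type*} [Group G] (H : Subgroup G) (s : Nat → G) (hinv : ∀ l, s l = (s l)⁻¹) (h31 : s 31 = 1)
    (hrels : ∀ W ∈ rels, (W.map s).prod = 1) (hsub : ∀ w ∈ subw, (w.map s).prod ∈ H)
    (htgt : ∀ l < 10, ∀ i < 28431, Nat.land (E l i) 32767 < 28431)
    (hlow : ∀ l' < 10, ∀ i' < 28431, E l' i' < Nat.shiftLeft (Nat.shiftRight (E 3 0) 20) 20 →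
      EdgeP H s (repOf s D) E 32767 l' i') : EdgeP H s (repOf s D) E 32767 3 0 := by
  have h1 := ckSub_sound E 32767 20 3 0 [] [] sp3k
  exact special_sub H s (repOf s D) E 32767 28431 10 _ htgt hlow (repOf_zero s D) [] [] 3 0 (by decide) (by decide)
    (by decide) (by decide) (hsub _ (by decide)) h1.1 h1.2
theorem sp4k : ckSub (nat_lit 0x7fff) (nat_lit 20) E4 [] [] (nat_lit 0) = true := by decide +kernel
theorem sp4 {G : Type*} [Group G] (H : Subgroup G) (s : Nat → G) (hinv : ∀ l, s l = (s l)⁻¹) (h31 : s 31 = 1)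
    (hrels : ∀ W ∈ rels, (W.map s).prod = 1) (hsub : ∀ w ∈ subw, (w.map s).prod ∈ H)
    (htgt : ∀ l < 10, ∀ i < 28431, Nat.land (E l i) 32767 < 28431)
    (hlow : ∀ l' < 10, ∀ i' < 28431, E l' i' < Nat.shiftLeft (Nat.shiftRight (E 4 0) 20) 20 →
      EdgeP H s (repOf s D) E 32767 l' i') : EdgeP H s (repOf s D) E 32767 4 0 := by
  have h1 := ckSub_sound E 32767 20 4 0 [] [] sp4k
  exact special_sub H s (repOf s D) E 32767 28431 10 _ htgt hlow (repOf_zero s D) [] [] 4 0 (by decide) (by decide)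
    (by decide) (by decide) (hsub _ (by decide)) h1.1 h1.2
theorem sp5k : ckSub (nat_lit 0x7fff) (nat_lit 20) E5 [] [] (nat_lit 0) = true := by decide +kernel
theorem sp5 {G : Type*} [Group G] (H : Subgroup G) (s : Nat → G) (hinv : ∀ l, s l = (s l)⁻¹) (h31 : s 31 = 1)
    (hrels : ∀ W ∈ rels, (W.map s).prod = 1) (hsub : ∀ w ∈ subw, (w.map s).prod ∈ H)
    (htgt : ∀ l < 10, ∀ i < 28431, Nat.land (E l i) 32767 < 28431)
    (hlow : ∀ l' < 10, ∀ i' < 28431, E l' i' < Nat.shiftLeft (Nat.shiftRight (E 5 0) 20) 20 →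
      EdgeP H s (repOf s D) E 32767 l' i') : EdgeP H s (repOf s D) E 32767 5 0 := by
  have h1 := ckSub_sound E 32767 20 5 0 [] [] sp5k
  exact special_sub H s (repOf s D) E 32767 28431 10 _ htgt hlow (repOf_zero s D) [] [] 5 0 (by decide) (by decide)
    (by decide) (by decide) (hsub _ (by decide)) h1.1 h1.2
theorem sp6k : ckSub (nat_lit 0x7fff) (nat_lit 20) E6 [] [] (nat_lit 0) = true := by decide +kernel
theorem sp6 {G : Type*} [Group G] (H : Subgroup G) (s : Nat → G) (hinv : ∀ l, s l = (s l)⁻¹) (h31 : s 31 = 1)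
    (hrels : ∀ W ∈ rels, (W.map s).prod = 1) (hsub : ∀ w ∈ subw, (w.map s).prod ∈ H)
    (htgt : ∀ l < 10, ∀ i < 28431, Nat.land (E l i) 32767 < 28431)
    (hlow : ∀ l' < 10, ∀ i' < 28431, E l' i' < Nat.shiftLeft (Nat.shiftRight (E 6 0) 20) 20 →
      EdgeP H s (repOf s D) E 32767 l' i') : EdgeP H s (repOf s D) E 32767 6 0 := by
  have h1 := ckSub_sound E 32767 20 6 0 [] [] sp6k
  exact special_sub H s (repOf s D) E 32767 28431 10 _ htgt hlow (repOf_zero s D) [] [] 6 0 (by decide) (by decide)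
    (by decide) (by decide) (hsub _ (by decide)) h1.1 h1.2
theorem sp7k : ckSub (nat_lit 0x7fff) (nat_lit 20) E7 [] [] (nat_lit 0) = true := by decide +kernel
theorem sp7 {G : Type*} [Group G] (H : Subgroup G) (s : Nat → G) (hinv : ∀ l, s l = (s l)⁻¹) (h31 : s 31 = 1)
    (hrels : ∀ W ∈ rels, (W.map s).prod = 1) (hsub : ∀ w ∈ subw, (w.map s).prod ∈ H)
    (htgt : ∀ l < 10, ∀ i < 28431, Nat.land (E l i) 32767 < 28431)
    (hlow : ∀ l' < 10, ∀ i' < 28431, E l' i' < Nat.shiftLeft (Nat.shiftRight (E 7 0) 20) 20 →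
      EdgeP H s (repOf s D) E 32767 l' i') : EdgeP H s (repOf s D) E 32767 7 0 := by
  have h1 := ckSub_sound E 32767 20 7 0 [] [] sp7k
  exact special_sub H s (repOf s D) E 32767 28431 10 _ htgt hlow (repOf_zero s D) [] [] 7 0 (by decide) (by decide)
    (by decide) (by decide) (hsub _ (by decide)) h1.1 h1.2
theorem sp8k : ckSub (nat_lit 0x7fff) (nat_lit 20) E8 [] [] (nat_lit 0) = true := by decide +kernel
theorem sp8 {G : Type*} [Group G] (H : Subgroup G) (s : Nat → G) (hinv : ∀ l, s l = (s l)⁻¹) (h31 : s 31 = 1)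
    (hrels : ∀ W ∈ rels, (W.map s).prod = 1) (hsub : ∀ w ∈ subw, (w.map s).prod ∈ H)
    (htgt : ∀ l < 10, ∀ i < 28431, Nat.land (E l i) 32767 < 28431)
    (hlow : ∀ l' < 10, ∀ i' < 28431, E l' i' < Nat.shiftLeft (Nat.shiftRight (E 8 0) 20) 20 →
      EdgeP H s (repOf s D) E 32767 l' i') : EdgeP H s (repOf s D) E 32767 8 0 := by
  have h1 := ckSub_sound E 32767 20 8 0 [] [] sp8k
  exact special_sub H s (repOf s D) E 32767 28431 10 _ htgt hlow (repOf_zero s D) [] [] 8 0 (by decide) (by decide)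
    (by decide) (by decide) (hsub _ (by decide)) h1.1 h1.2
noncomputable def sp776549F : Nat → Nat := fun g => Nat.land (Nat.shiftRight (nat_lit 0x2831f002f659416e901bc4860bd960de24406f1206f1118378803788941062c1bc4440de220a71e40543406f101029d083788181bc401bc3c40a73e0de1e406f0f05445) (Nat.mul (nat_lit 45) g)) (nat_lit 0x1fffffffffff)
noncomputable def sp776549T : Nat → Nat := fun g => Nat.land (Nat.shiftRight (nat_lit 0x6f112029c7881bc3cc0a88a4) (Nat.mul (nat_lit 25) g)) (nat_lit 0x1ffffff)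
noncomputable def sp776549L : List Nat := [nat_lit 0x0, nat_lit 0x203001, nat_lit 0x0, nat_lit 0x3000603003, nat_lit 0x2000603004, nat_lit 0x0, nat_lit 0xc03005, nat_lit 0x8000000000000000c05006, nat_lit 0x0, nat_lit 0x9000f001205002, nat_lit 0xd00120500a, nat_lit 0x1500140300b]
theorem sp776549k : ckBlock (nat_lit 0x6f0f) (nat_lit 0x7fff) (nat_lit 0x6200000) E inv sp776549T sp776549F RB sp776549L (nat_lit 0) = true := by decide +kernel
theorem sp776549r : Nat.shiftLeft (Nat.shiftRight (E 5 24267) 20) 20 = 102760448 := by decide +kernel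
theorem sp776549t : Nat.land (E 5 24267) 32767 = 25568 := by decide +kernel
theorem sp776549l : 11 < sp776549L.length ∧ sp776549F 11 = 24267 + 2 ^ 20 * 25568 + 2 ^ 40 * 5 := by decide +kernel
theorem sp776549 {G : Type*} [Group G] (H : Subgroup G) (s : Nat → G) (hinv : ∀ l, s l = (s l)⁻¹) (h31 : s 31 = 1)
    (hrels : ∀ W ∈ rels, (W.map s).prod = 1) (hsub : ∀ w ∈ subw, (w.map s).prod ∈ H)
    (htgt : ∀ l < 10, ∀ i < 28431, Nat.land (E l i) 32767 < 28431)
    (hlow : ∀ l' < 10, ∀ i' < 28431, E l' i' < Nat.shiftLeft (Nat.shiftRight (E 5 24267) 20) 20 →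
      EdgeP H s (repOf s D) E 32767 l' i') : EdgeP H s (repOf s D) E 32767 5 24267 := by
  rw [sp776549r] at hlow
  exact special_block H s 28431 10 32767 102760448 E inv D sp776549T sp776549F RB hinv h31 htgt hlow
    (ckRB_sound s 10 inv rels hrels hinv h31 RB RBC rbc) sp776549L sp776549k 5 24267 25568 (by decide) (by decide) sp776549t
    ⟨_, sp776549l⟩ (by decide)
noncomputable def sp780645F : Nat → Nat := fun g => Nat.land (Nat.shiftRight (nat_lit 0xa0cc020be96206f1a06601282f9d8378d0c1bc581bc6820de340c7c2206f1406f1608378c8378a0c17b2c1bc6440b7840de32406f1906f1818378b8378c081bc6014e3c80a8680de2e2053a106f1730378b8378a841bc58171cc40a73e0de2a406f1505445182f180378a201bc501bc4c60ba4a0de26906f1306f12182e9e83789101bc481bc4080aab00de22306f1006f112837888212e14109241bc4020de200de1e506f0f04266) (Nat.mul (nat_lit 45) g)) (nat_lit 0x1fffffffffff)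
noncomputable def sp780645T : Nat → Nat := fun g => Nat.land (Nat.shiftRight (nat_lit 0x63e108378c1014e3c40de2a605c73082a22901bc4d00de24906f1020212e141bc3c2084cc5) (Nat.mul (nat_lit 25) g)) (nat_lit 0x1ffffff)
noncomputable def sp780645L : List Nat := [nat_lit 0x0, nat_lit 0x0, nat_lit 0x2000403007, nat_lit 0x0, nat_lit 0x6000000080300c, nat_lit 0x805008, nat_lit 0x0, nat_lit 0xb000a000e05002, nat_lit 0x0, nat_lit 0xf00120300d, nat_lit 0x0, nat_lit 0x1300160300e, nat_lit 0x0, nat_lit 0x1a03001, nat_lit 0x0, nat_lit 0x0, nat_lit 0x1b002003003, nat_lit 0x1a002003004, nat_lit 0x0, nat_lit 0x22000000000000002605006, nat_lit 0x0, nat_lit 0x26002a03001, nat_lit 0x230027002a05002, nat_lit 0x2e000000170300f, nat_lit 0x30002c00000000001e05010, nat_lit 0x0, nat_lit 0x1d0000003403011, nat_lit 0x3403007, nat_lit 0x36003200180000000005012, nat_lit 0x3a0038000003005]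
theorem sp780645k : ckBlock (nat_lit 0x6f0f) (nat_lit 0x7fff) (nat_lit 0x6b00000) E inv sp780645T sp780645F RB sp780645L (nat_lit 0) = true := by decide +kernel
theorem sp780645r : Nat.shiftLeft (Nat.shiftRight (E 5 24395) 20) 20 = 112197632 := by decide +kernel
theorem sp780645t : Nat.land (E 5 24395) 32767 = 26113 := by decide +kernel
theorem sp780645l : 29 < sp780645L.length ∧ sp780645F 29 = 24395 + 2 ^ 20 * 26113 + 2 ^ 40 * 5 := by decide +kernel
theorem sp780645 {G : Type*} [Group G] (H : Subgroup G) (s : Nat → G) (hinv : ∀ l, s l = (s l)⁻¹) (h31 : s 31 = 1)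
    (hrels : ∀ W ∈ rels, (W.map s).prod = 1) (hsub : ∀ w ∈ subw, (w.map s).prod ∈ H)
    (htgt : ∀ l < 10, ∀ i < 28431, Nat.land (E l i) 32767 < 28431)
    (hlow : ∀ l' < 10, ∀ i' < 28431, E l' i' < Nat.shiftLeft (Nat.shiftRight (E 5 24395) 20) 20 →
      EdgeP H s (repOf s D) E 32767 l' i') : EdgeP H s (repOf s D) E 32767 5 24395 := by
  rw [sp780645r] at hlow
  exact special_block H s 28431 10 32767 112197632 E inv D sp780645T sp780645F RB hinv h31 htgt hlow
    (ckRB_sound s 10 inv rels hrels hinv h31 RB RBC rbc) sp780645L sp780645k 5 24395 26113 (by decide) (by decide) sp780645t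
    ⟨_, sp780645l⟩ (by decide)
noncomputable def sp884838F : Nat → Nat := fun g => Nat.land (Nat.shiftRight (nat_lit 0x606d7806c032036bc0378a981b0141bc54a0de2a0de28406bdf06f143035870378a0c1bc501bc4cc0d5a60de26406bea06f1308378983789181af181bc4880d7d60de24906f1206f113037888332b9c1bc401bc4480de220ccc660666506f1020332f83788001bc401bc3cc0ccb00de1e406f0f06661) (Nat.mul (nat_lit 45) g)) (nat_lit 0x1fffffffffff)
noncomputable def sp884838T : Nat → Nat := fun g => Nat.land (Nat.shiftRight (nat_lit 0x378a141bc4c60de24106f11483331901bc3c00ccc24) (Nat.mul (nat_lit 25) g)) (nat_lit 0x1ffffff)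
noncomputable def sp884838L : List Nat := [nat_lit 0x0, nat_lit 0x203009, nat_lit 0x0, nat_lit 0x2000603013, nat_lit 0x3000603014, nat_lit 0x0, nat_lit 0x80000000c03015, nat_lit 0xe000a00000000000005016, nat_lit 0x0, nat_lit 0xc001203017, nat_lit 0x10001203018, nat_lit 0x0, nat_lit 0x13001803019, nat_lit 0x1500180301a, nat_lit 0x0, nat_lit 0x1b001e0301b, nat_lit 0x19001e0501c, nat_lit 0x0, nat_lit 0x1f00240501d, nat_lit 0x21002405008, nat_lit 0x270026000003009]
theorem sp884838k : ckBlock (nat_lit 0x6f0f) (nat_lit 0x7fff) (nat_lit 0x7300000) E inv sp884838T sp884838F RB sp884838L (nat_lit 0) = true := by decide +kernel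
theorem sp884838r : Nat.shiftLeft (Nat.shiftRight (E 6 27651) 20) 20 = 120586240 := by decide +kernel
theorem sp884838t : Nat.land (E 6 27651) 32767 = 28024 := by decide +kernel
theorem sp884838l : 20 < sp884838L.length ∧ sp884838F 20 = 27651 + 2 ^ 20 * 28024 + 2 ^ 40 * 6 := by decide +kernel
theorem sp884838 {G : Type*} [Group G] (H : Subgroup G) (s : Nat → G) (hinv : ∀ l, s l = (s l)⁻¹) (h31 : s 31 = 1)
    (hrels : ∀ W ∈ rels, (W.map s).prod = 1) (hsub : ∀ w ∈ subw, (w.map s).prod ∈ H)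
    (htgt : ∀ l < 10, ∀ i < 28431, Nat.land (E l i) 32767 < 28431)
    (hlow : ∀ l' < 10, ∀ i' < 28431, E l' i' < Nat.shiftLeft (Nat.shiftRight (E 6 27651) 20) 20 →
      EdgeP H s (repOf s D) E 32767 l' i') : EdgeP H s (repOf s D) E 32767 6 27651 := by
  rw [sp884838r] at hlow
  exact special_block H s 28431 10 32767 120586240 E inv D sp884838T sp884838F RB hinv h31 htgt hlow
    (ckRB_sound s 10 inv rels hrels hinv h31 RB RBC rbc) sp884838L sp884838k 6 27651 28024 (by decide) (by decide) sp884838t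
    ⟨_, sp884838l⟩ (by decide)

theorem htgt : ∀ l < 10, ∀ i < 28431, Nat.land (E l i) 32767 < 28431 := fun l hl i hi => (edgeOK l hl i hi).1

theorem edges {G : Type*} [Group G] (H : Subgroup G) (s : Nat → G) (hinv : ∀ l, s l = (s l)⁻¹) (h31 : s 31 = 1)
    (hrels : ∀ W ∈ rels, (W.map s).prod = 1) (hsub : ∀ w ∈ subw, (w.map s).prod ∈ H) :
    ∀ l < 10, ∀ i < 28431, EdgeP H s (repOf s D) E 32767 l i := by
  refine edges_correct H s E 32767 28431 10 20 15 31 inv D RW sp (by decide) (fun l hl => hl) (fun l _ => hinv l)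
    ?_ ?_ ?_ edgeOK
  · intro l hl w hw
    interval_cases l
    · exact (ckRels_sound 10 inv rels 0 RW0 RC0 rc0 w hw).1
    · exact (ckRels_sound 10 inv rels 1 RW1 RC1 rc1 w hw).1
    · exact (ckRels_sound 10 inv rels 2 RW2 RC2 rc2 w hw).1
    · exact (ckRels_sound 10 inv rels 3 RW3 RC3 rc3 w hw).1
    · exact (ckRels_sound 10 inv rels 4 RW4 RC4 rc4 w hw).1
    · exact (ckRels_sound 10 inv rels 5 RW5 RC5 rc5 w hw).1
    · exact (ckRels_sound 10 inv rels 6 RW6 RC6 rc6 w hw).1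
    · exact (ckRels_sound 10 inv rels 7 RW7 RC7 rc7 w hw).1
    · exact (ckRels_sound 10 inv rels 8 RW8 RC8 rc8 w hw).1
    · exact (ckRels_sound 10 inv rels 9 RW9 RC9 rc9 w hw).1
  · intro l hl w hw
    interval_cases l
    · obtain ⟨_, c, hc⟩ := ckRels_sound 10 inv rels 0 RW0 RC0 rc0 w hw
      exact ckRel_sound s inv rels hrels 0 w c (fun l' _ => hinv l') hc
    · obtain ⟨_, c, hc⟩ := ckRels_sound 10 inv rels 1 RW1 RC1 rc1 w hw
      exact ckRel_sound s inv rels hrels 1 w c (fun l' _ => hinv l') hc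
    · obtain ⟨_, c, hc⟩ := ckRels_sound 10 inv rels 2 RW2 RC2 rc2 w hw
      exact ckRel_sound s inv rels hrels 2 w c (fun l' _ => hinv l') hc
    · obtain ⟨_, c, hc⟩ := ckRels_sound 10 inv rels 3 RW3 RC3 rc3 w hw
      exact ckRel_sound s inv rels hrels 3 w c (fun l' _ => hinv l') hc
    · obtain ⟨_, c, hc⟩ := ckRels_sound 10 inv rels 4 RW4 RC4 rc4 w hw
      exact ckRel_sound s inv rels hrels 4 w c (fun l' _ => hinv l') hc
    · obtain ⟨_, c, hc⟩ := ckRels_sound 10 inv rels 5 RW5 RC5 rc5 w hw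
      exact ckRel_sound s inv rels hrels 5 w c (fun l' _ => hinv l') hc
    · obtain ⟨_, c, hc⟩ := ckRels_sound 10 inv rels 6 RW6 RC6 rc6 w hw
      exact ckRel_sound s inv rels hrels 6 w c (fun l' _ => hinv l') hc
    · obtain ⟨_, c, hc⟩ := ckRels_sound 10 inv rels 7 RW7 RC7 rc7 w hw
      exact ckRel_sound s inv rels hrels 7 w c (fun l' _ => hinv l') hc
    · obtain ⟨_, c, hc⟩ := ckRels_sound 10 inv rels 8 RW8 RC8 rc8 w hw
      exact ckRel_sound s inv rels hrels 8 w c (fun l' _ => hinv l') hc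
    · obtain ⟨_, c, hc⟩ := ckRels_sound 10 inv rels 9 RW9 RC9 rc9 w hw
      exact ckRel_sound s inv rels hrels 9 w c (fun l' _ => hinv l') hc
  · refine hsp_of H s (repOf s D) E 32767 28431 10 20 sp (by decide) ?_
    refine List.forall_mem_cons.2 ⟨fun _ _ h => sp0 H s hinv h31 hrels hsub htgt h, ?_⟩
    refine List.forall_mem_cons.2 ⟨fun _ _ h => sp1 H s hinv h31 hrels hsub htgt h, ?_⟩
    refine List.forall_mem_cons.2 ⟨fun _ _ h => sp2 H s hinv h31 hrels hsub htgt h, ?_⟩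
    refine List.forall_mem_cons.2 ⟨fun _ _ h => sp3 H s hinv h31 hrels hsub htgt h, ?_⟩
    refine List.forall_mem_cons.2 ⟨fun _ _ h => sp4 H s hinv h31 hrels hsub htgt h, ?_⟩
    refine List.forall_mem_cons.2 ⟨fun _ _ h => sp5 H s hinv h31 hrels hsub htgt h, ?_⟩
    refine List.forall_mem_cons.2 ⟨fun _ _ h => sp6 H s hinv h31 hrels hsub htgt h, ?_⟩
    refine List.forall_mem_cons.2 ⟨fun _ _ h => sp7 H s hinv h31 hrels hsub htgt h, ?_⟩
    refine List.forall_mem_cons.2 ⟨fun _ _ h => sp8 H s hinv h31 hrels hsub htgt h, ?_⟩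
    refine List.forall_mem_cons.2 ⟨fun _ _ h => sp776549 H s hinv h31 hrels hsub htgt h, ?_⟩
    refine List.forall_mem_cons.2 ⟨fun _ _ h => sp780645 H s hinv h31 hrels hsub htgt h, ?_⟩
    refine List.forall_mem_cons.2 ⟨fun _ _ h => sp884838 H s hinv h31 hrels hsub htgt h, ?_⟩
    intro c hc
    exact absurd hc List.not_mem_nil

theorem covers {G : Type*} [Group G] (s : Nat → G) (hinv : ∀ l, s l = (s l)⁻¹) (h31 : s 31 = 1)
    (hrels2 : ∀ p ∈ rels2, ((p.1.map s).prod) ^ p.2 = 1) (H : Subgroup G) (hsub : ∀ w ∈ subw, (w.map s).prod ∈ H) :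
    ∀ g ∈ letterGroup s 10, ∀ i < 28431, ∃ j < 28431, repOf s D i * g * (repOf s D j)⁻¹ ∈ H :=
  cover H s (repOf s D) E 32767 28431 10 inv (fun l hl => hl) (fun l _ => hinv l) htgt
    (edges H s hinv h31 (hrels_of s rels2 hrels2) hsub)

theorem upper {G : Type*} [Group G] (s : Nat → G) (hinv : ∀ l, s l = (s l)⁻¹) (h31 : s 31 = 1)
    (hrels2 : ∀ p ∈ rels2, ((p.1.map s).prod) ^ p.2 = 1) (H : Subgroup G) (hsub : ∀ w ∈ subw, (w.map s).prod ∈ H)
    (hH : Finite H) : Finite (letterGroup s 10) ∧ Nat.card (letterGroup s 10) ≤ 28431 * Nat.card H :=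
  card_le_of_cover H (repOf s D) 28431 (by decide) (repOf_zero s D) _
    (covers s hinv h31 hrels2 H hsub) hH

theorem upperIndex {G : Type*} [Group G] (s : Nat → G) (hinv : ∀ l, s l = (s l)⁻¹) (h31 : s 31 = 1)
    (hrels2 : ∀ p ∈ rels2, ((p.1.map s).prod) ^ p.2 = 1) (H : Subgroup G) (hsub : ∀ w ∈ subw, (w.map s).prod ∈ H)
    (htop : letterGroup s 10 = ⊤) : H.FiniteIndex ∧ H.index ≤ 28431 :=
  index_le_of_cover H (repOf s D) 28431 (by decide) (repOf_zero s D)
    (fun g => covers s hinv h31 hrels2 H hsub g (by rw [htop]; exact Subgroup.mem_top g))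


end Cfsg.Agent.H8.Fi24at
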