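import Cfsg.Agent.H8.T.Fi24atTab

set_option autoImplicit false
set_option linter.all false
set_option maxRecDepth 100000

namespace Cfsg.Agent.H8.Fi24at
theorem rk23 : allR (fun i => powT [T4, T0] i (nat_lit 2) i) (nat_lit 0) (nat_lit 0x6f0f) = true := by decide +kernel
theorem rk28 : allR (fun i => powT [T5, T1] i (nat_lit 2) i) (nat_lit 0) (nat_lit 0x6f0f) = true := by decide +kernel
theorem rk32 : allR (fun i => powT [T6, T9] i (nat_lit 2) i) (nat_lit 0) (nat_lit 0x6f0f) = true := by decide +kernel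
theorem rk35 : allR (fun i => powT [T7, T8] i (nat_lit 2) i) (nat_lit 0) (nat_lit 0x6f0f) = true := by decide +kernel
theorem rk38 : allR (fun i => powT [T7, T0] i (nat_lit 2) i) (nat_lit 0) (nat_lit 0x6f0f) = true := by decide +kernel
theorem rk42 : allR (fun i => powT [T9, T1] i (nat_lit 2) i) (nat_lit 0) (nat_lit 0x6f0f) = true := by decide +kernel
theorem rk45 : allR (fun i => powT [T0, T2, T3, T4, T5, T6, T7, T8, T2, T3, T4, T5, T6, T7, T8, T2, T3, T4, T5, T6, T7, T8, T2, T3, T4, T5, T6, T7, T8, T2, T3, T4, T5, T6, T7, T8, T2, T3, T4, T5, T6, T7, T8, T2, T3, T4, T5, T6, T7, T8, T2, T3, T4, T5, T6, T7, T8, T2, T3, T4, T5, T6, T7, T8] i (nat_lit 1) i) (nat_lit 0) (nat_lit 0x6f0f) = true := by decide +kernel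

end Cfsg.Agent.H8.Fi24at
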