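import Cfsg.Agent.H8.T.Fi24atTab

set_option autoImplicit false
set_option linter.all false
set_option maxRecDepth 100000

namespace Cfsg.Agent.H8.Fi24at
theorem rk0 : allR (fun i => powT [T2, T3] i (nat_lit 3) i) (nat_lit 0) (nat_lit 0x6f0f) = true := by decide +kernel
theorem rk3 : allR (fun i => powT [T2, T6] i (nat_lit 2) i) (nat_lit 0) (nat_lit 0x6f0f) = true := by decide +kernel
theorem rk5 : allR (fun i => powT [T2, T8] i (nat_lit 2) i) (nat_lit 0) (nat_lit 0x6f0f) = true := by decide +kernel
theorem rk8 : allR (fun i => powT [T2, T0] i (nat_lit 2) i) (nat_lit 0) (nat_lit 0x6f0f) = true := by decide +kernel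
theorem rk9 : allR (fun i => powT [T3, T4] i (nat_lit 3) i) (nat_lit 0) (nat_lit 0x6f0f) = true := by decide +kernel
theorem rk11 : allR (fun i => powT [T3, T6] i (nat_lit 2) i) (nat_lit 0) (nat_lit 0x6f0f) = true := by decide +kernel
theorem rk13 : allR (fun i => powT [T3, T8] i (nat_lit 2) i) (nat_lit 0) (nat_lit 0x6f0f) = true := by decide +kernel
theorem rk15 : allR (fun i => powT [T3, T1] i (nat_lit 2) i) (nat_lit 0) (nat_lit 0x6f0f) = true := by decide +kernel
theorem rk18 : allR (fun i => powT [T4, T6] i (nat_lit 2) i) (nat_lit 0) (nat_lit 0x6f0f) = true := by decide +kernel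
theorem rk20 : allR (fun i => powT [T4, T8] i (nat_lit 2) i) (nat_lit 0) (nat_lit 0x6f0f) = true := by decide +kernel
theorem rk22 : allR (fun i => powT [T4, T1] i (nat_lit 2) i) (nat_lit 0) (nat_lit 0x6f0f) = true := by decide +kernel
theorem rk24 : allR (fun i => powT [T5, T6] i (nat_lit 3) i) (nat_lit 0) (nat_lit 0x6f0f) = true := by decide +kernel
theorem rk27 : allR (fun i => powT [T5, T9] i (nat_lit 2) i) (nat_lit 0) (nat_lit 0x6f0f) = true := by decide +kernel
theorem rk30 : allR (fun i => powT [T6, T7] i (nat_lit 3) i) (nat_lit 0) (nat_lit 0x6f0f) = true := by decide +kernel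
theorem rk31 : allR (fun i => powT [T6, T8] i (nat_lit 2) i) (nat_lit 0) (nat_lit 0x6f0f) = true := by decide +kernel
theorem rk34 : allR (fun i => powT [T6, T0] i (nat_lit 2) i) (nat_lit 0) (nat_lit 0x6f0f) = true := by decide +kernel
theorem rk37 : allR (fun i => powT [T7, T1] i (nat_lit 2) i) (nat_lit 0) (nat_lit 0x6f0f) = true := by decide +kernel
theorem rk41 : allR (fun i => powT [T8, T0] i (nat_lit 2) i) (nat_lit 0) (nat_lit 0x6f0f) = true := by decide +kernel
theorem rk44 : allR (fun i => powT [T1, T0] i (nat_lit 3) i) (nat_lit 0) (nat_lit 0x6f0f) = true := by decide +kernel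

end Cfsg.Agent.H8.Fi24at
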