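import Cfsg.Agent.H8.T.Fi24atTab

set_option autoImplicit false
set_option linter.all false
set_option maxRecDepth 100000

namespace Cfsg.Agent.H8.Fi24at
theorem rk1 : allR (fun i => powT [T2, T4] i (nat_lit 2) i) (nat_lit 0) (nat_lit 0x6f0f) = true := by decide +kernel
theorem rk2 : allR (fun i => powT [T2, T5] i (nat_lit 2) i) (nat_lit 0) (nat_lit 0x6f0f) = true := by decide +kernel
theorem rk4 : allR (fun i => powT [T2, T7] i (nat_lit 2) i) (nat_lit 0) (nat_lit 0x6f0f) = true := by decide +kernel
theorem rk6 : allR (fun i => powT [T2, T9] i (nat_lit 2) i) (nat_lit 0) (nat_lit 0x6f0f) = true := by decide +kernel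
theorem rk7 : allR (fun i => powT [T2, T1] i (nat_lit 3) i) (nat_lit 0) (nat_lit 0x6f0f) = true := by decide +kernel
theorem rk10 : allR (fun i => powT [T3, T5] i (nat_lit 2) i) (nat_lit 0) (nat_lit 0x6f0f) = true := by decide +kernel
theorem rk12 : allR (fun i => powT [T3, T7] i (nat_lit 2) i) (nat_lit 0) (nat_lit 0x6f0f) = true := by decide +kernel
theorem rk14 : allR (fun i => powT [T3, T9] i (nat_lit 2) i) (nat_lit 0) (nat_lit 0x6f0f) = true := by decide +kernel
theorem rk16 : allR (fun i => powT [T3, T0] i (nat_lit 2) i) (nat_lit 0) (nat_lit 0x6f0f) = true := by decide +kernel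
theorem rk17 : allR (fun i => powT [T4, T5] i (nat_lit 3) i) (nat_lit 0) (nat_lit 0x6f0f) = true := by decide +kernel
theorem rk19 : allR (fun i => powT [T4, T7] i (nat_lit 2) i) (nat_lit 0) (nat_lit 0x6f0f) = true := by decide +kernel
theorem rk21 : allR (fun i => powT [T4, T9] i (nat_lit 2) i) (nat_lit 0) (nat_lit 0x6f0f) = true := by decide +kernel
theorem rk25 : allR (fun i => powT [T5, T7] i (nat_lit 2) i) (nat_lit 0) (nat_lit 0x6f0f) = true := by decide +kernel
theorem rk26 : allR (fun i => powT [T5, T8] i (nat_lit 3) i) (nat_lit 0) (nat_lit 0x6f0f) = true := by decide +kernel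
theorem rk29 : allR (fun i => powT [T5, T0] i (nat_lit 2) i) (nat_lit 0) (nat_lit 0x6f0f) = true := by decide +kernel
theorem rk33 : allR (fun i => powT [T6, T1] i (nat_lit 2) i) (nat_lit 0) (nat_lit 0x6f0f) = true := by decide +kernel
theorem rk36 : allR (fun i => powT [T7, T9] i (nat_lit 2) i) (nat_lit 0) (nat_lit 0x6f0f) = true := by decide +kernel
theorem rk39 : allR (fun i => powT [T8, T9] i (nat_lit 3) i) (nat_lit 0) (nat_lit 0x6f0f) = true := by decide +kernel
theorem rk40 : allR (fun i => powT [T8, T1] i (nat_lit 2) i) (nat_lit 0) (nat_lit 0x6f0f) = true := by decide +kernel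
theorem rk43 : allR (fun i => powT [T9, T0] i (nat_lit 2) i) (nat_lit 0) (nat_lit 0x6f0f) = true := by decide +kernel

end Cfsg.Agent.H8.Fi24at
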