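import Cfsg.Agent.H8.T.Fi24atP0
import Cfsg.Agent.H8.T.Fi24atR0
import Cfsg.Agent.H8.T.Fi24atR1
import Cfsg.Agent.H8.T.Fi24atR2

set_option autoImplicit false
set_option linter.all false
set_option maxRecDepth 100000

namespace Cfsg.Agent.H8.Fi24at
theorem relp : ∀ p ∈ relsP, ((p.1.map (permL tok)).prod) ^ p.2 = 1 := by
  refine List.forall_mem_cons.2 ⟨pow_eq_one_of_powT tok [2, 3] (by decide) 3 (fun i hi => allR_zero _ _ rk0 i hi), ?_⟩
  refine List.forall_mem_cons.2 ⟨pow_eq_one_of_powT tok [2, 4] (by decide) 2 (fun i hi => allR_zero _ _ rk1 i hi), ?_⟩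
  refine List.forall_mem_cons.2 ⟨pow_eq_one_of_powT tok [2, 5] (by decide) 2 (fun i hi => allR_zero _ _ rk2 i hi), ?_⟩
  refine List.forall_mem_cons.2 ⟨pow_eq_one_of_powT tok [2, 6] (by decide) 2 (fun i hi => allR_zero _ _ rk3 i hi), ?_⟩
  refine List.forall_mem_cons.2 ⟨pow_eq_one_of_powT tok [2, 7] (by decide) 2 (fun i hi => allR_zero _ _ rk4 i hi), ?_⟩
  refine List.forall_mem_cons.2 ⟨pow_eq_one_of_powT tok [2, 8] (by decide) 2 (fun i hi => allR_zero _ _ rk5 i hi), ?_⟩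
  refine List.forall_mem_cons.2 ⟨pow_eq_one_of_powT tok [2, 9] (by decide) 2 (fun i hi => allR_zero _ _ rk6 i hi), ?_⟩
  refine List.forall_mem_cons.2 ⟨pow_eq_one_of_powT tok [2, 1] (by decide) 3 (fun i hi => allR_zero _ _ rk7 i hi), ?_⟩
  refine List.forall_mem_cons.2 ⟨pow_eq_one_of_powT tok [2, 0] (by decide) 2 (fun i hi => allR_zero _ _ rk8 i hi), ?_⟩
  refine List.forall_mem_cons.2 ⟨pow_eq_one_of_powT tok [3, 4] (by decide) 3 (fun i hi => allR_zero _ _ rk9 i hi), ?_⟩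
  refine List.forall_mem_cons.2 ⟨pow_eq_one_of_powT tok [3, 5] (by decide) 2 (fun i hi => allR_zero _ _ rk10 i hi), ?_⟩
  refine List.forall_mem_cons.2 ⟨pow_eq_one_of_powT tok [3, 6] (by decide) 2 (fun i hi => allR_zero _ _ rk11 i hi), ?_⟩
  refine List.forall_mem_cons.2 ⟨pow_eq_one_of_powT tok [3, 7] (by decide) 2 (fun i hi => allR_zero _ _ rk12 i hi), ?_⟩
  refine List.forall_mem_cons.2 ⟨pow_eq_one_of_powT tok [3, 8] (by decide) 2 (fun i hi => allR_zero _ _ rk13 i hi), ?_⟩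
  refine List.forall_mem_cons.2 ⟨pow_eq_one_of_powT tok [3, 9] (by decide) 2 (fun i hi => allR_zero _ _ rk14 i hi), ?_⟩
  refine List.forall_mem_cons.2 ⟨pow_eq_one_of_powT tok [3, 1] (by decide) 2 (fun i hi => allR_zero _ _ rk15 i hi), ?_⟩
  refine List.forall_mem_cons.2 ⟨pow_eq_one_of_powT tok [3, 0] (by decide) 2 (fun i hi => allR_zero _ _ rk16 i hi), ?_⟩
  refine List.forall_mem_cons.2 ⟨pow_eq_one_of_powT tok [4, 5] (by decide) 3 (fun i hi => allR_zero _ _ rk17 i hi), ?_⟩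
  refine List.forall_mem_cons.2 ⟨pow_eq_one_of_powT tok [4, 6] (by decide) 2 (fun i hi => allR_zero _ _ rk18 i hi), ?_⟩
  refine List.forall_mem_cons.2 ⟨pow_eq_one_of_powT tok [4, 7] (by decide) 2 (fun i hi => allR_zero _ _ rk19 i hi), ?_⟩
  refine List.forall_mem_cons.2 ⟨pow_eq_one_of_powT tok [4, 8] (by decide) 2 (fun i hi => allR_zero _ _ rk20 i hi), ?_⟩
  refine List.forall_mem_cons.2 ⟨pow_eq_one_of_powT tok [4, 9] (by decide) 2 (fun i hi => allR_zero _ _ rk21 i hi), ?_⟩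
  refine List.forall_mem_cons.2 ⟨pow_eq_one_of_powT tok [4, 1] (by decide) 2 (fun i hi => allR_zero _ _ rk22 i hi), ?_⟩
  refine List.forall_mem_cons.2 ⟨pow_eq_one_of_powT tok [4, 0] (by decide) 2 (fun i hi => allR_zero _ _ rk23 i hi), ?_⟩
  refine List.forall_mem_cons.2 ⟨pow_eq_one_of_powT tok [5, 6] (by decide) 3 (fun i hi => allR_zero _ _ rk24 i hi), ?_⟩
  refine List.forall_mem_cons.2 ⟨pow_eq_one_of_powT tok [5, 7] (by decide) 2 (fun i hi => allR_zero _ _ rk25 i hi), ?_⟩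
  refine List.forall_mem_cons.2 ⟨pow_eq_one_of_powT tok [5, 8] (by decide) 3 (fun i hi => allR_zero _ _ rk26 i hi), ?_⟩
  refine List.forall_mem_cons.2 ⟨pow_eq_one_of_powT tok [5, 9] (by decide) 2 (fun i hi => allR_zero _ _ rk27 i hi), ?_⟩
  refine List.forall_mem_cons.2 ⟨pow_eq_one_of_powT tok [5, 1] (by decide) 2 (fun i hi => allR_zero _ _ rk28 i hi), ?_⟩
  refine List.forall_mem_cons.2 ⟨pow_eq_one_of_powT tok [5, 0] (by decide) 2 (fun i hi => allR_zero _ _ rk29 i hi), ?_⟩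
  refine List.forall_mem_cons.2 ⟨pow_eq_one_of_powT tok [6, 7] (by decide) 3 (fun i hi => allR_zero _ _ rk30 i hi), ?_⟩
  refine List.forall_mem_cons.2 ⟨pow_eq_one_of_powT tok [6, 8] (by decide) 2 (fun i hi => allR_zero _ _ rk31 i hi), ?_⟩
  refine List.forall_mem_cons.2 ⟨pow_eq_one_of_powT tok [6, 9] (by decide) 2 (fun i hi => allR_zero _ _ rk32 i hi), ?_⟩
  refine List.forall_mem_cons.2 ⟨pow_eq_one_of_powT tok [6, 1] (by decide) 2 (fun i hi => allR_zero _ _ rk33 i hi), ?_⟩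
  refine List.forall_mem_cons.2 ⟨pow_eq_one_of_powT tok [6, 0] (by decide) 2 (fun i hi => allR_zero _ _ rk34 i hi), ?_⟩
  refine List.forall_mem_cons.2 ⟨pow_eq_one_of_powT tok [7, 8] (by decide) 2 (fun i hi => allR_zero _ _ rk35 i hi), ?_⟩
  refine List.forall_mem_cons.2 ⟨pow_eq_one_of_powT tok [7, 9] (by decide) 2 (fun i hi => allR_zero _ _ rk36 i hi), ?_⟩
  refine List.forall_mem_cons.2 ⟨pow_eq_one_of_powT tok [7, 1] (by decide) 2 (fun i hi => allR_zero _ _ rk37 i hi), ?_⟩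
  refine List.forall_mem_cons.2 ⟨pow_eq_one_of_powT tok [7, 0] (by decide) 2 (fun i hi => allR_zero _ _ rk38 i hi), ?_⟩
  refine List.forall_mem_cons.2 ⟨pow_eq_one_of_powT tok [8, 9] (by decide) 3 (fun i hi => allR_zero _ _ rk39 i hi), ?_⟩
  refine List.forall_mem_cons.2 ⟨pow_eq_one_of_powT tok [8, 1] (by decide) 2 (fun i hi => allR_zero _ _ rk40 i hi), ?_⟩
  refine List.forall_mem_cons.2 ⟨pow_eq_one_of_powT tok [8, 0] (by decide) 2 (fun i hi => allR_zero _ _ rk41 i hi), ?_⟩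
  refine List.forall_mem_cons.2 ⟨pow_eq_one_of_powT tok [9, 1] (by decide) 2 (fun i hi => allR_zero _ _ rk42 i hi), ?_⟩
  refine List.forall_mem_cons.2 ⟨pow_eq_one_of_powT tok [9, 0] (by decide) 2 (fun i hi => allR_zero _ _ rk43 i hi), ?_⟩
  refine List.forall_mem_cons.2 ⟨pow_eq_one_of_powT tok [1, 0] (by decide) 3 (fun i hi => allR_zero _ _ rk44 i hi), ?_⟩
  refine List.forall_mem_cons.2 ⟨pow_eq_one_of_powT tok [0, 2, 3, 4, 5, 6, 7, 8, 2, 3, 4, 5, 6, 7, 8, 2, 3, 4, 5, 6, 7, 8, 2, 3, 4, 5, 6, 7, 8, 2, 3, 4, 5, 6, 7, 8, 2, 3, 4, 5, 6, 7, 8, 2, 3, 4, 5, 6, 7, 8, 2, 3, 4, 5, 6, 7, 8, 2, 3, 4, 5, 6, 7, 8] (by decide) 1 (fun i hi => allR_zero _ _ rk45 i hi), ?_⟩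
  intro c hc
  exact absurd hc List.not_mem_nil

/-- transitivity. -/
theorem rho_tr {G : Type*} [Group G] (s : Nat → G) (ρ : G →* Equiv.Perm (Fin 28431))
    (hρ : ∀ l < 10, ρ (s l) = permL tok l) : ∀ i, ∃ g, ρ g ⟨0, by decide⟩ = i := by
  intro i
  have h := rho_rep s tok ρ hρ (by decide) D dOK i i.2
  exact ⟨(repOf s D i)⁻¹, by rw [map_inv]; exact h⟩


end Cfsg.Agent.H8.Fi24at
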