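import Cfsg.Agent.H8.T.Fi24atTab

set_option autoImplicit false
set_option linter.all false
set_option maxRecDepth 100000

namespace Cfsg.Agent.H8.Fi24at
theorem pk0 : allR (ckPerm (nat_lit 0x6f0f) T0 T0) (nat_lit 0) (nat_lit 0x6f0f) = true := by decide +kernel
theorem pk1 : allR (ckPerm (nat_lit 0x6f0f) T1 T1) (nat_lit 0) (nat_lit 0x6f0f) = true := by decide +kernel
theorem pk2 : allR (ckPerm (nat_lit 0x6f0f) T2 T2) (nat_lit 0) (nat_lit 0x6f0f) = true := by decide +kernel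
theorem pk3 : allR (ckPerm (nat_lit 0x6f0f) T3 T3) (nat_lit 0) (nat_lit 0x6f0f) = true := by decide +kernel
theorem pk4 : allR (ckPerm (nat_lit 0x6f0f) T4 T4) (nat_lit 0) (nat_lit 0x6f0f) = true := by decide +kernel
theorem pk5 : allR (ckPerm (nat_lit 0x6f0f) T5 T5) (nat_lit 0) (nat_lit 0x6f0f) = true := by decide +kernel
theorem pk6 : allR (ckPerm (nat_lit 0x6f0f) T6 T6) (nat_lit 0) (nat_lit 0x6f0f) = true := by decide +kernel
theorem pk7 : allR (ckPerm (nat_lit 0x6f0f) T7 T7) (nat_lit 0) (nat_lit 0x6f0f) = true := by decide +kernel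
theorem pk8 : allR (ckPerm (nat_lit 0x6f0f) T8 T8) (nat_lit 0) (nat_lit 0x6f0f) = true := by decide +kernel
theorem pk9 : allR (ckPerm (nat_lit 0x6f0f) T9 T9) (nat_lit 0) (nat_lit 0x6f0f) = true := by decide +kernel
theorem dk : allR (ckD 10 T D) (nat_lit 0) (nat_lit 0x6f0f) = true := by decide +kernel

theorem tok : TableOK 28431 10 T inv where
  lt := by
    intro l hl i hi
    interval_cases l
    · exact (ckPerm_sound _ _ _ _ (allR_zero _ _ pk0 i hi)).1
    · exact (ckPerm_sound _ _ _ _ (allR_zero _ _ pk1 i hi)).1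
    · exact (ckPerm_sound _ _ _ _ (allR_zero _ _ pk2 i hi)).1
    · exact (ckPerm_sound _ _ _ _ (allR_zero _ _ pk3 i hi)).1
    · exact (ckPerm_sound _ _ _ _ (allR_zero _ _ pk4 i hi)).1
    · exact (ckPerm_sound _ _ _ _ (allR_zero _ _ pk5 i hi)).1
    · exact (ckPerm_sound _ _ _ _ (allR_zero _ _ pk6 i hi)).1
    · exact (ckPerm_sound _ _ _ _ (allR_zero _ _ pk7 i hi)).1
    · exact (ckPerm_sound _ _ _ _ (allR_zero _ _ pk8 i hi)).1
    · exact (ckPerm_sound _ _ _ _ (allR_zero _ _ pk9 i hi)).1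
  inv_lt := fun l hl => hl
  inv_inv := fun _ _ => rfl
  inv_apply := by
    intro l hl i hi
    interval_cases l
    · exact (ckPerm_sound _ _ _ _ (allR_zero _ _ pk0 i hi)).2
    · exact (ckPerm_sound _ _ _ _ (allR_zero _ _ pk1 i hi)).2
    · exact (ckPerm_sound _ _ _ _ (allR_zero _ _ pk2 i hi)).2
    · exact (ckPerm_sound _ _ _ _ (allR_zero _ _ pk3 i hi)).2
    · exact (ckPerm_sound _ _ _ _ (allR_zero _ _ pk4 i hi)).2
    · exact (ckPerm_sound _ _ _ _ (allR_zero _ _ pk5 i hi)).2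
    · exact (ckPerm_sound _ _ _ _ (allR_zero _ _ pk6 i hi)).2
    · exact (ckPerm_sound _ _ _ _ (allR_zero _ _ pk7 i hi)).2
    · exact (ckPerm_sound _ _ _ _ (allR_zero _ _ pk8 i hi)).2
    · exact (ckPerm_sound _ _ _ _ (allR_zero _ _ pk9 i hi)).2

theorem dOK : ∀ t, 0 < t → t < 28431 → D t / 32 < t ∧ D t % 32 < 10 ∧ T (D t % 32) (D t / 32) = t :=
  fun t h0 h1 => ckD_sound (L := 10) (T := T) D t h0 (allR_zero _ _ dk t h1)


end Cfsg.Agent.H8.Fi24at
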