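import Cfsg.Agent.H8.T.Fi24tP0
import Cfsg.Agent.H8.T.Fi24tW0
import Cfsg.Agent.H8.T.Fi24tW1
import Cfsg.Agent.H8.T.Fi24tR0
import Cfsg.Agent.H8.T.Fi24tR1
import Cfsg.Agent.H8.T.Fi24tR2
import Cfsg.Agent.H8.T.Fi24tR3
import Cfsg.Agent.H8.T.Fi24tR4
import Cfsg.Agent.H8.T.Fi24tR5
import Cfsg.Agent.H8.T.Fi24tR6
import Cfsg.Agent.H8.T.Fi24tR7
import Cfsg.Agent.H8.T.Fi24tR8
import Cfsg.Agent.H8.T.Fi24tR9
import Cfsg.Agent.H8.T.Fi24tR10
import Cfsg.Agent.H8.T.Fi24tR11
import Cfsg.Agent.H8.T.Fi24tR12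
import Cfsg.Agent.H8.T.Fi24tR13
import Cfsg.Agent.H8.T.Fi24tR14
import Cfsg.Agent.H8.T.Fi24tR15

set_option Elab.async false
set_option autoImplicit false
set_option linter.all false
set_option maxRecDepth 100000

namespace Cfsg.Agent.H8.Fi24t
theorem rk0 : allR (fun i => powT [T2, T3] i (nat_lit 3) i) (nat_lit 0) (nat_lit 306936) = true := by
  apply allR_of_forall
  intro i hi
  have hi : i < 306936 := hi
  rcases Nat.lt_or_ge i 16384 with h0 | h0
  · exact allR_spec _ (0 : ℕ) (16384 : ℕ) rk0_0 i (by omega) (by omega)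
  rcases Nat.lt_or_ge i 32768 with h1 | h1
  · exact allR_spec _ (16384 : ℕ) (16384 : ℕ) rk0_1 i (by omega) (by omega)
  rcases Nat.lt_or_ge i 49152 with h2 | h2
  · exact allR_spec _ (32768 : ℕ) (16384 : ℕ) rk0_2 i (by omega) (by omega)
  rcases Nat.lt_or_ge i 65536 with h3 | h3
  · exact allR_spec _ (49152 : ℕ) (16384 : ℕ) rk0_3 i (by omega) (by omega)
  rcases Nat.lt_or_ge i 81920 with h4 | h4
  · exact allR_spec _ (65536 : ℕ) (16384 : ℕ) rk0_4 i (by omega) (by omega)
  rcases Nat.lt_or_ge i 98304 with h5 | h5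
  · exact allR_spec _ (81920 : ℕ) (16384 : ℕ) rk0_5 i (by omega) (by omega)
  rcases Nat.lt_or_ge i 114688 with h6 | h6
  · exact allR_spec _ (98304 : ℕ) (16384 : ℕ) rk0_6 i (by omega) (by omega)
  rcases Nat.lt_or_ge i 131072 with h7 | h7
  · exact allR_spec _ (114688 : ℕ) (16384 : ℕ) rk0_7 i (by omega) (by omega)
  rcases Nat.lt_or_ge i 147456 with h8 | h8
  · exact allR_spec _ (131072 : ℕ) (16384 : ℕ) rk0_8 i (by omega) (by omega)
  rcases Nat.lt_or_ge i 163840 with h9 | h9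
  · exact allR_spec _ (147456 : ℕ) (16384 : ℕ) rk0_9 i (by omega) (by omega)
  rcases Nat.lt_or_ge i 180224 with h10 | h10
  · exact allR_spec _ (163840 : ℕ) (16384 : ℕ) rk0_10 i (by omega) (by omega)
  rcases Nat.lt_or_ge i 196608 with h11 | h11
  · exact allR_spec _ (180224 : ℕ) (16384 : ℕ) rk0_11 i (by omega) (by omega)
  rcases Nat.lt_or_ge i 212992 with h12 | h12
  · exact allR_spec _ (196608 : ℕ) (16384 : ℕ) rk0_12 i (by omega) (by omega)
  rcases Nat.lt_or_ge i 229376 with h13 | h13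
  · exact allR_spec _ (212992 : ℕ) (16384 : ℕ) rk0_13 i (by omega) (by omega)
  rcases Nat.lt_or_ge i 245760 with h14 | h14
  · exact allR_spec _ (229376 : ℕ) (16384 : ℕ) rk0_14 i (by omega) (by omega)
  rcases Nat.lt_or_ge i 262144 with h15 | h15
  · exact allR_spec _ (245760 : ℕ) (16384 : ℕ) rk0_15 i (by omega) (by omega)
  rcases Nat.lt_or_ge i 278528 with h16 | h16
  · exact allR_spec _ (262144 : ℕ) (16384 : ℕ) rk0_16 i (by omega) (by omega)
  rcases Nat.lt_or_ge i 294912 with h17 | h17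
  · exact allR_spec _ (278528 : ℕ) (16384 : ℕ) rk0_17 i (by omega) (by omega)
  exact allR_spec _ (294912 : ℕ) (12024 : ℕ) rk0_18 i (by omega) (by omega)
theorem rk1 : allR (ckComm T2 T4) (nat_lit 0) (nat_lit 306936) = true := by
  apply allR_of_forall
  intro i hi
  have hi : i < 306936 := hi
  rcases Nat.lt_or_ge i 16384 with h0 | h0
  · exact allR_spec _ (0 : ℕ) (16384 : ℕ) rk1_0 i (by omega) (by omega)
  rcases Nat.lt_or_ge i 32768 with h1 | h1
  · exact allR_spec _ (16384 : ℕ) (16384 : ℕ) rk1_1 i (by omega) (by omega)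
  rcases Nat.lt_or_ge i 49152 with h2 | h2
  · exact allR_spec _ (32768 : ℕ) (16384 : ℕ) rk1_2 i (by omega) (by omega)
  rcases Nat.lt_or_ge i 65536 with h3 | h3
  · exact allR_spec _ (49152 : ℕ) (16384 : ℕ) rk1_3 i (by omega) (by omega)
  rcases Nat.lt_or_ge i 81920 with h4 | h4
  · exact allR_spec _ (65536 : ℕ) (16384 : ℕ) rk1_4 i (by omega) (by omega)
  rcases Nat.lt_or_ge i 98304 with h5 | h5
  · exact allR_spec _ (81920 : ℕ) (16384 : ℕ) rk1_5 i (by omega) (by omega)
  rcases Nat.lt_or_ge i 114688 with h6 | h6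
  · exact allR_spec _ (98304 : ℕ) (16384 : ℕ) rk1_6 i (by omega) (by omega)
  rcases Nat.lt_or_ge i 131072 with h7 | h7
  · exact allR_spec _ (114688 : ℕ) (16384 : ℕ) rk1_7 i (by omega) (by omega)
  rcases Nat.lt_or_ge i 147456 with h8 | h8
  · exact allR_spec _ (131072 : ℕ) (16384 : ℕ) rk1_8 i (by omega) (by omega)
  rcases Nat.lt_or_ge i 163840 with h9 | h9
  · exact allR_spec _ (147456 : ℕ) (16384 : ℕ) rk1_9 i (by omega) (by omega)
  rcases Nat.lt_or_ge i 180224 with h10 | h10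
  · exact allR_spec _ (163840 : ℕ) (16384 : ℕ) rk1_10 i (by omega) (by omega)
  rcases Nat.lt_or_ge i 196608 with h11 | h11
  · exact allR_spec _ (180224 : ℕ) (16384 : ℕ) rk1_11 i (by omega) (by omega)
  rcases Nat.lt_or_ge i 212992 with h12 | h12
  · exact allR_spec _ (196608 : ℕ) (16384 : ℕ) rk1_12 i (by omega) (by omega)
  rcases Nat.lt_or_ge i 229376 with h13 | h13
  · exact allR_spec _ (212992 : ℕ) (16384 : ℕ) rk1_13 i (by omega) (by omega)
  rcases Nat.lt_or_ge i 245760 with h14 | h14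
  · exact allR_spec _ (229376 : ℕ) (16384 : ℕ) rk1_14 i (by omega) (by omega)
  rcases Nat.lt_or_ge i 262144 with h15 | h15
  · exact allR_spec _ (245760 : ℕ) (16384 : ℕ) rk1_15 i (by omega) (by omega)
  rcases Nat.lt_or_ge i 278528 with h16 | h16
  · exact allR_spec _ (262144 : ℕ) (16384 : ℕ) rk1_16 i (by omega) (by omega)
  rcases Nat.lt_or_ge i 294912 with h17 | h17
  · exact allR_spec _ (278528 : ℕ) (16384 : ℕ) rk1_17 i (by omega) (by omega)
  exact allR_spec _ (294912 : ℕ) (12024 : ℕ) rk1_18 i (by omega) (by omega)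
theorem rk2 : allR (ckComm T2 T5) (nat_lit 0) (nat_lit 306936) = true := by
  apply allR_of_forall
  intro i hi
  have hi : i < 306936 := hi
  rcases Nat.lt_or_ge i 16384 with h0 | h0
  · exact allR_spec _ (0 : ℕ) (16384 : ℕ) rk2_0 i (by omega) (by omega)
  rcases Nat.lt_or_ge i 32768 with h1 | h1
  · exact allR_spec _ (16384 : ℕ) (16384 : ℕ) rk2_1 i (by omega) (by omega)
  rcases Nat.lt_or_ge i 49152 with h2 | h2
  · exact allR_spec _ (32768 : ℕ) (16384 : ℕ) rk2_2 i (by omega) (by omega)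
  rcases Nat.lt_or_ge i 65536 with h3 | h3
  · exact allR_spec _ (49152 : ℕ) (16384 : ℕ) rk2_3 i (by omega) (by omega)
  rcases Nat.lt_or_ge i 81920 with h4 | h4
  · exact allR_spec _ (65536 : ℕ) (16384 : ℕ) rk2_4 i (by omega) (by omega)
  rcases Nat.lt_or_ge i 98304 with h5 | h5
  · exact allR_spec _ (81920 : ℕ) (16384 : ℕ) rk2_5 i (by omega) (by omega)
  rcases Nat.lt_or_ge i 114688 with h6 | h6
  · exact allR_spec _ (98304 : ℕ) (16384 : ℕ) rk2_6 i (by omega) (by omega)
  rcases Nat.lt_or_ge i 131072 with h7 | h7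
  · exact allR_spec _ (114688 : ℕ) (16384 : ℕ) rk2_7 i (by omega) (by omega)
  rcases Nat.lt_or_ge i 147456 with h8 | h8
  · exact allR_spec _ (131072 : ℕ) (16384 : ℕ) rk2_8 i (by omega) (by omega)
  rcases Nat.lt_or_ge i 163840 with h9 | h9
  · exact allR_spec _ (147456 : ℕ) (16384 : ℕ) rk2_9 i (by omega) (by omega)
  rcases Nat.lt_or_ge i 180224 with h10 | h10
  · exact allR_spec _ (163840 : ℕ) (16384 : ℕ) rk2_10 i (by omega) (by omega)
  rcases Nat.lt_or_ge i 196608 with h11 | h11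
  · exact allR_spec _ (180224 : ℕ) (16384 : ℕ) rk2_11 i (by omega) (by omega)
  rcases Nat.lt_or_ge i 212992 with h12 | h12
  · exact allR_spec _ (196608 : ℕ) (16384 : ℕ) rk2_12 i (by omega) (by omega)
  rcases Nat.lt_or_ge i 229376 with h13 | h13
  · exact allR_spec _ (212992 : ℕ) (16384 : ℕ) rk2_13 i (by omega) (by omega)
  rcases Nat.lt_or_ge i 245760 with h14 | h14
  · exact allR_spec _ (229376 : ℕ) (16384 : ℕ) rk2_14 i (by omega) (by omega)
  rcases Nat.lt_or_ge i 262144 with h15 | h15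
  · exact allR_spec _ (245760 : ℕ) (16384 : ℕ) rk2_15 i (by omega) (by omega)
  rcases Nat.lt_or_ge i 278528 with h16 | h16
  · exact allR_spec _ (262144 : ℕ) (16384 : ℕ) rk2_16 i (by omega) (by omega)
  rcases Nat.lt_or_ge i 294912 with h17 | h17
  · exact allR_spec _ (278528 : ℕ) (16384 : ℕ) rk2_17 i (by omega) (by omega)
  exact allR_spec _ (294912 : ℕ) (12024 : ℕ) rk2_18 i (by omega) (by omega)
theorem rk3 : allR (ckComm T2 T6) (nat_lit 0) (nat_lit 306936) = true := by
  apply allR_of_forall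
  intro i hi
  have hi : i < 306936 := hi
  rcases Nat.lt_or_ge i 16384 with h0 | h0
  · exact allR_spec _ (0 : ℕ) (16384 : ℕ) rk3_0 i (by omega) (by omega)
  rcases Nat.lt_or_ge i 32768 with h1 | h1
  · exact allR_spec _ (16384 : ℕ) (16384 : ℕ) rk3_1 i (by omega) (by omega)
  rcases Nat.lt_or_ge i 49152 with h2 | h2
  · exact allR_spec _ (32768 : ℕ) (16384 : ℕ) rk3_2 i (by omega) (by omega)
  rcases Nat.lt_or_ge i 65536 with h3 | h3
  · exact allR_spec _ (49152 : ℕ) (16384 : ℕ) rk3_3 i (by omega) (by omega)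
  rcases Nat.lt_or_ge i 81920 with h4 | h4
  · exact allR_spec _ (65536 : ℕ) (16384 : ℕ) rk3_4 i (by omega) (by omega)
  rcases Nat.lt_or_ge i 98304 with h5 | h5
  · exact allR_spec _ (81920 : ℕ) (16384 : ℕ) rk3_5 i (by omega) (by omega)
  rcases Nat.lt_or_ge i 114688 with h6 | h6
  · exact allR_spec _ (98304 : ℕ) (16384 : ℕ) rk3_6 i (by omega) (by omega)
  rcases Nat.lt_or_ge i 131072 with h7 | h7
  · exact allR_spec _ (114688 : ℕ) (16384 : ℕ) rk3_7 i (by omega) (by omega)
  rcases Nat.lt_or_ge i 147456 with h8 | h8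
  · exact allR_spec _ (131072 : ℕ) (16384 : ℕ) rk3_8 i (by omega) (by omega)
  rcases Nat.lt_or_ge i 163840 with h9 | h9
  · exact allR_spec _ (147456 : ℕ) (16384 : ℕ) rk3_9 i (by omega) (by omega)
  rcases Nat.lt_or_ge i 180224 with h10 | h10
  · exact allR_spec _ (163840 : ℕ) (16384 : ℕ) rk3_10 i (by omega) (by omega)
  rcases Nat.lt_or_ge i 196608 with h11 | h11
  · exact allR_spec _ (180224 : ℕ) (16384 : ℕ) rk3_11 i (by omega) (by omega)
  rcases Nat.lt_or_ge i 212992 with h12 | h12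
  · exact allR_spec _ (196608 : ℕ) (16384 : ℕ) rk3_12 i (by omega) (by omega)
  rcases Nat.lt_or_ge i 229376 with h13 | h13
  · exact allR_spec _ (212992 : ℕ) (16384 : ℕ) rk3_13 i (by omega) (by omega)
  rcases Nat.lt_or_ge i 245760 with h14 | h14
  · exact allR_spec _ (229376 : ℕ) (16384 : ℕ) rk3_14 i (by omega) (by omega)
  rcases Nat.lt_or_ge i 262144 with h15 | h15
  · exact allR_spec _ (245760 : ℕ) (16384 : ℕ) rk3_15 i (by omega) (by omega)
  rcases Nat.lt_or_ge i 278528 with h16 | h16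
  · exact allR_spec _ (262144 : ℕ) (16384 : ℕ) rk3_16 i (by omega) (by omega)
  rcases Nat.lt_or_ge i 294912 with h17 | h17
  · exact allR_spec _ (278528 : ℕ) (16384 : ℕ) rk3_17 i (by omega) (by omega)
  exact allR_spec _ (294912 : ℕ) (12024 : ℕ) rk3_18 i (by omega) (by omega)
theorem rk4 : allR (ckComm T2 T7) (nat_lit 0) (nat_lit 306936) = true := by
  apply allR_of_forall
  intro i hi
  have hi : i < 306936 := hi
  rcases Nat.lt_or_ge i 16384 with h0 | h0
  · exact allR_spec _ (0 : ℕ) (16384 : ℕ) rk4_0 i (by omega) (by omega)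
  rcases Nat.lt_or_ge i 32768 with h1 | h1
  · exact allR_spec _ (16384 : ℕ) (16384 : ℕ) rk4_1 i (by omega) (by omega)
  rcases Nat.lt_or_ge i 49152 with h2 | h2
  · exact allR_spec _ (32768 : ℕ) (16384 : ℕ) rk4_2 i (by omega) (by omega)
  rcases Nat.lt_or_ge i 65536 with h3 | h3
  · exact allR_spec _ (49152 : ℕ) (16384 : ℕ) rk4_3 i (by omega) (by omega)
  rcases Nat.lt_or_ge i 81920 with h4 | h4
  · exact allR_spec _ (65536 : ℕ) (16384 : ℕ) rk4_4 i (by omega) (by omega)
  rcases Nat.lt_or_ge i 98304 with h5 | h5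
  · exact allR_spec _ (81920 : ℕ) (16384 : ℕ) rk4_5 i (by omega) (by omega)
  rcases Nat.lt_or_ge i 114688 with h6 | h6
  · exact allR_spec _ (98304 : ℕ) (16384 : ℕ) rk4_6 i (by omega) (by omega)
  rcases Nat.lt_or_ge i 131072 with h7 | h7
  · exact allR_spec _ (114688 : ℕ) (16384 : ℕ) rk4_7 i (by omega) (by omega)
  rcases Nat.lt_or_ge i 147456 with h8 | h8
  · exact allR_spec _ (131072 : ℕ) (16384 : ℕ) rk4_8 i (by omega) (by omega)
  rcases Nat.lt_or_ge i 163840 with h9 | h9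
  · exact allR_spec _ (147456 : ℕ) (16384 : ℕ) rk4_9 i (by omega) (by omega)
  rcases Nat.lt_or_ge i 180224 with h10 | h10
  · exact allR_spec _ (163840 : ℕ) (16384 : ℕ) rk4_10 i (by omega) (by omega)
  rcases Nat.lt_or_ge i 196608 with h11 | h11
  · exact allR_spec _ (180224 : ℕ) (16384 : ℕ) rk4_11 i (by omega) (by omega)
  rcases Nat.lt_or_ge i 212992 with h12 | h12
  · exact allR_spec _ (196608 : ℕ) (16384 : ℕ) rk4_12 i (by omega) (by omega)
  rcases Nat.lt_or_ge i 229376 with h13 | h13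
  · exact allR_spec _ (212992 : ℕ) (16384 : ℕ) rk4_13 i (by omega) (by omega)
  rcases Nat.lt_or_ge i 245760 with h14 | h14
  · exact allR_spec _ (229376 : ℕ) (16384 : ℕ) rk4_14 i (by omega) (by omega)
  rcases Nat.lt_or_ge i 262144 with h15 | h15
  · exact allR_spec _ (245760 : ℕ) (16384 : ℕ) rk4_15 i (by omega) (by omega)
  rcases Nat.lt_or_ge i 278528 with h16 | h16
  · exact allR_spec _ (262144 : ℕ) (16384 : ℕ) rk4_16 i (by omega) (by omega)
  rcases Nat.lt_or_ge i 294912 with h17 | h17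
  · exact allR_spec _ (278528 : ℕ) (16384 : ℕ) rk4_17 i (by omega) (by omega)
  exact allR_spec _ (294912 : ℕ) (12024 : ℕ) rk4_18 i (by omega) (by omega)
theorem rk5 : allR (ckComm T2 T8) (nat_lit 0) (nat_lit 306936) = true := by
  apply allR_of_forall
  intro i hi
  have hi : i < 306936 := hi
  rcases Nat.lt_or_ge i 16384 with h0 | h0
  · exact allR_spec _ (0 : ℕ) (16384 : ℕ) rk5_0 i (by omega) (by omega)
  rcases Nat.lt_or_ge i 32768 with h1 | h1
  · exact allR_spec _ (16384 : ℕ) (16384 : ℕ) rk5_1 i (by omega) (by omega)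
  rcases Nat.lt_or_ge i 49152 with h2 | h2
  · exact allR_spec _ (32768 : ℕ) (16384 : ℕ) rk5_2 i (by omega) (by omega)
  rcases Nat.lt_or_ge i 65536 with h3 | h3
  · exact allR_spec _ (49152 : ℕ) (16384 : ℕ) rk5_3 i (by omega) (by omega)
  rcases Nat.lt_or_ge i 81920 with h4 | h4
  · exact allR_spec _ (65536 : ℕ) (16384 : ℕ) rk5_4 i (by omega) (by omega)
  rcases Nat.lt_or_ge i 98304 with h5 | h5
  · exact allR_spec _ (81920 : ℕ) (16384 : ℕ) rk5_5 i (by omega) (by omega)
  rcases Nat.lt_or_ge i 114688 with h6 | h6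
  · exact allR_spec _ (98304 : ℕ) (16384 : ℕ) rk5_6 i (by omega) (by omega)
  rcases Nat.lt_or_ge i 131072 with h7 | h7
  · exact allR_spec _ (114688 : ℕ) (16384 : ℕ) rk5_7 i (by omega) (by omega)
  rcases Nat.lt_or_ge i 147456 with h8 | h8
  · exact allR_spec _ (131072 : ℕ) (16384 : ℕ) rk5_8 i (by omega) (by omega)
  rcases Nat.lt_or_ge i 163840 with h9 | h9
  · exact allR_spec _ (147456 : ℕ) (16384 : ℕ) rk5_9 i (by omega) (by omega)
  rcases Nat.lt_or_ge i 180224 with h10 | h10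
  · exact allR_spec _ (163840 : ℕ) (16384 : ℕ) rk5_10 i (by omega) (by omega)
  rcases Nat.lt_or_ge i 196608 with h11 | h11
  · exact allR_spec _ (180224 : ℕ) (16384 : ℕ) rk5_11 i (by omega) (by omega)
  rcases Nat.lt_or_ge i 212992 with h12 | h12
  · exact allR_spec _ (196608 : ℕ) (16384 : ℕ) rk5_12 i (by omega) (by omega)
  rcases Nat.lt_or_ge i 229376 with h13 | h13
  · exact allR_spec _ (212992 : ℕ) (16384 : ℕ) rk5_13 i (by omega) (by omega)
  rcases Nat.lt_or_ge i 245760 with h14 | h14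
  · exact allR_spec _ (229376 : ℕ) (16384 : ℕ) rk5_14 i (by omega) (by omega)
  rcases Nat.lt_or_ge i 262144 with h15 | h15
  · exact allR_spec _ (245760 : ℕ) (16384 : ℕ) rk5_15 i (by omega) (by omega)
  rcases Nat.lt_or_ge i 278528 with h16 | h16
  · exact allR_spec _ (262144 : ℕ) (16384 : ℕ) rk5_16 i (by omega) (by omega)
  rcases Nat.lt_or_ge i 294912 with h17 | h17
  · exact allR_spec _ (278528 : ℕ) (16384 : ℕ) rk5_17 i (by omega) (by omega)
  exact allR_spec _ (294912 : ℕ) (12024 : ℕ) rk5_18 i (by omega) (by omega)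
theorem rk6 : allR (ckComm T2 T10) (nat_lit 0) (nat_lit 306936) = true := by
  apply allR_of_forall
  intro i hi
  have hi : i < 306936 := hi
  rcases Nat.lt_or_ge i 16384 with h0 | h0
  · exact allR_spec _ (0 : ℕ) (16384 : ℕ) rk6_0 i (by omega) (by omega)
  rcases Nat.lt_or_ge i 32768 with h1 | h1
  · exact allR_spec _ (16384 : ℕ) (16384 : ℕ) rk6_1 i (by omega) (by omega)
  rcases Nat.lt_or_ge i 49152 with h2 | h2
  · exact allR_spec _ (32768 : ℕ) (16384 : ℕ) rk6_2 i (by omega) (by omega)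
  rcases Nat.lt_or_ge i 65536 with h3 | h3
  · exact allR_spec _ (49152 : ℕ) (16384 : ℕ) rk6_3 i (by omega) (by omega)
  rcases Nat.lt_or_ge i 81920 with h4 | h4
  · exact allR_spec _ (65536 : ℕ) (16384 : ℕ) rk6_4 i (by omega) (by omega)
  rcases Nat.lt_or_ge i 98304 with h5 | h5
  · exact allR_spec _ (81920 : ℕ) (16384 : ℕ) rk6_5 i (by omega) (by omega)
  rcases Nat.lt_or_ge i 114688 with h6 | h6
  · exact allR_spec _ (98304 : ℕ) (16384 : ℕ) rk6_6 i (by omega) (by omega)
  rcases Nat.lt_or_ge i 131072 with h7 | h7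
  · exact allR_spec _ (114688 : ℕ) (16384 : ℕ) rk6_7 i (by omega) (by omega)
  rcases Nat.lt_or_ge i 147456 with h8 | h8
  · exact allR_spec _ (131072 : ℕ) (16384 : ℕ) rk6_8 i (by omega) (by omega)
  rcases Nat.lt_or_ge i 163840 with h9 | h9
  · exact allR_spec _ (147456 : ℕ) (16384 : ℕ) rk6_9 i (by omega) (by omega)
  rcases Nat.lt_or_ge i 180224 with h10 | h10
  · exact allR_spec _ (163840 : ℕ) (16384 : ℕ) rk6_10 i (by omega) (by omega)
  rcases Nat.lt_or_ge i 196608 with h11 | h11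
  · exact allR_spec _ (180224 : ℕ) (16384 : ℕ) rk6_11 i (by omega) (by omega)
  rcases Nat.lt_or_ge i 212992 with h12 | h12
  · exact allR_spec _ (196608 : ℕ) (16384 : ℕ) rk6_12 i (by omega) (by omega)
  rcases Nat.lt_or_ge i 229376 with h13 | h13
  · exact allR_spec _ (212992 : ℕ) (16384 : ℕ) rk6_13 i (by omega) (by omega)
  rcases Nat.lt_or_ge i 245760 with h14 | h14
  · exact allR_spec _ (229376 : ℕ) (16384 : ℕ) rk6_14 i (by omega) (by omega)
  rcases Nat.lt_or_ge i 262144 with h15 | h15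
  · exact allR_spec _ (245760 : ℕ) (16384 : ℕ) rk6_15 i (by omega) (by omega)
  rcases Nat.lt_or_ge i 278528 with h16 | h16
  · exact allR_spec _ (262144 : ℕ) (16384 : ℕ) rk6_16 i (by omega) (by omega)
  rcases Nat.lt_or_ge i 294912 with h17 | h17
  · exact allR_spec _ (278528 : ℕ) (16384 : ℕ) rk6_17 i (by omega) (by omega)
  exact allR_spec _ (294912 : ℕ) (12024 : ℕ) rk6_18 i (by omega) (by omega)
theorem rk7 : allR (ckComm T2 T11) (nat_lit 0) (nat_lit 306936) = true := by
  apply allR_of_forall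
  intro i hi
  have hi : i < 306936 := hi
  rcases Nat.lt_or_ge i 16384 with h0 | h0
  · exact allR_spec _ (0 : ℕ) (16384 : ℕ) rk7_0 i (by omega) (by omega)
  rcases Nat.lt_or_ge i 32768 with h1 | h1
  · exact allR_spec _ (16384 : ℕ) (16384 : ℕ) rk7_1 i (by omega) (by omega)
  rcases Nat.lt_or_ge i 49152 with h2 | h2
  · exact allR_spec _ (32768 : ℕ) (16384 : ℕ) rk7_2 i (by omega) (by omega)
  rcases Nat.lt_or_ge i 65536 with h3 | h3
  · exact allR_spec _ (49152 : ℕ) (16384 : ℕ) rk7_3 i (by omega) (by omega)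
  rcases Nat.lt_or_ge i 81920 with h4 | h4
  · exact allR_spec _ (65536 : ℕ) (16384 : ℕ) rk7_4 i (by omega) (by omega)
  rcases Nat.lt_or_ge i 98304 with h5 | h5
  · exact allR_spec _ (81920 : ℕ) (16384 : ℕ) rk7_5 i (by omega) (by omega)
  rcases Nat.lt_or_ge i 114688 with h6 | h6
  · exact allR_spec _ (98304 : ℕ) (16384 : ℕ) rk7_6 i (by omega) (by omega)
  rcases Nat.lt_or_ge i 131072 with h7 | h7
  · exact allR_spec _ (114688 : ℕ) (16384 : ℕ) rk7_7 i (by omega) (by omega)
  rcases Nat.lt_or_ge i 147456 with h8 | h8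
  · exact allR_spec _ (131072 : ℕ) (16384 : ℕ) rk7_8 i (by omega) (by omega)
  rcases Nat.lt_or_ge i 163840 with h9 | h9
  · exact allR_spec _ (147456 : ℕ) (16384 : ℕ) rk7_9 i (by omega) (by omega)
  rcases Nat.lt_or_ge i 180224 with h10 | h10
  · exact allR_spec _ (163840 : ℕ) (16384 : ℕ) rk7_10 i (by omega) (by omega)
  rcases Nat.lt_or_ge i 196608 with h11 | h11
  · exact allR_spec _ (180224 : ℕ) (16384 : ℕ) rk7_11 i (by omega) (by omega)
  rcases Nat.lt_or_ge i 212992 with h12 | h12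
  · exact allR_spec _ (196608 : ℕ) (16384 : ℕ) rk7_12 i (by omega) (by omega)
  rcases Nat.lt_or_ge i 229376 with h13 | h13
  · exact allR_spec _ (212992 : ℕ) (16384 : ℕ) rk7_13 i (by omega) (by omega)
  rcases Nat.lt_or_ge i 245760 with h14 | h14
  · exact allR_spec _ (229376 : ℕ) (16384 : ℕ) rk7_14 i (by omega) (by omega)
  rcases Nat.lt_or_ge i 262144 with h15 | h15
  · exact allR_spec _ (245760 : ℕ) (16384 : ℕ) rk7_15 i (by omega) (by omega)
  rcases Nat.lt_or_ge i 278528 with h16 | h16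
  · exact allR_spec _ (262144 : ℕ) (16384 : ℕ) rk7_16 i (by omega) (by omega)
  rcases Nat.lt_or_ge i 294912 with h17 | h17
  · exact allR_spec _ (278528 : ℕ) (16384 : ℕ) rk7_17 i (by omega) (by omega)
  exact allR_spec _ (294912 : ℕ) (12024 : ℕ) rk7_18 i (by omega) (by omega)
theorem rk8 : allR (ckComm T2 T9) (nat_lit 0) (nat_lit 306936) = true := by
  apply allR_of_forall
  intro i hi
  have hi : i < 306936 := hi
  rcases Nat.lt_or_ge i 16384 with h0 | h0
  · exact allR_spec _ (0 : ℕ) (16384 : ℕ) rk8_0 i (by omega) (by omega)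
  rcases Nat.lt_or_ge i 32768 with h1 | h1
  · exact allR_spec _ (16384 : ℕ) (16384 : ℕ) rk8_1 i (by omega) (by omega)
  rcases Nat.lt_or_ge i 49152 with h2 | h2
  · exact allR_spec _ (32768 : ℕ) (16384 : ℕ) rk8_2 i (by omega) (by omega)
  rcases Nat.lt_or_ge i 65536 with h3 | h3
  · exact allR_spec _ (49152 : ℕ) (16384 : ℕ) rk8_3 i (by omega) (by omega)
  rcases Nat.lt_or_ge i 81920 with h4 | h4
  · exact allR_spec _ (65536 : ℕ) (16384 : ℕ) rk8_4 i (by omega) (by omega)
  rcases Nat.lt_or_ge i 98304 with h5 | h5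
  · exact allR_spec _ (81920 : ℕ) (16384 : ℕ) rk8_5 i (by omega) (by omega)
  rcases Nat.lt_or_ge i 114688 with h6 | h6
  · exact allR_spec _ (98304 : ℕ) (16384 : ℕ) rk8_6 i (by omega) (by omega)
  rcases Nat.lt_or_ge i 131072 with h7 | h7
  · exact allR_spec _ (114688 : ℕ) (16384 : ℕ) rk8_7 i (by omega) (by omega)
  rcases Nat.lt_or_ge i 147456 with h8 | h8
  · exact allR_spec _ (131072 : ℕ) (16384 : ℕ) rk8_8 i (by omega) (by omega)
  rcases Nat.lt_or_ge i 163840 with h9 | h9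
  · exact allR_spec _ (147456 : ℕ) (16384 : ℕ) rk8_9 i (by omega) (by omega)
  rcases Nat.lt_or_ge i 180224 with h10 | h10
  · exact allR_spec _ (163840 : ℕ) (16384 : ℕ) rk8_10 i (by omega) (by omega)
  rcases Nat.lt_or_ge i 196608 with h11 | h11
  · exact allR_spec _ (180224 : ℕ) (16384 : ℕ) rk8_11 i (by omega) (by omega)
  rcases Nat.lt_or_ge i 212992 with h12 | h12
  · exact allR_spec _ (196608 : ℕ) (16384 : ℕ) rk8_12 i (by omega) (by omega)
  rcases Nat.lt_or_ge i 229376 with h13 | h13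
  · exact allR_spec _ (212992 : ℕ) (16384 : ℕ) rk8_13 i (by omega) (by omega)
  rcases Nat.lt_or_ge i 245760 with h14 | h14
  · exact allR_spec _ (229376 : ℕ) (16384 : ℕ) rk8_14 i (by omega) (by omega)
  rcases Nat.lt_or_ge i 262144 with h15 | h15
  · exact allR_spec _ (245760 : ℕ) (16384 : ℕ) rk8_15 i (by omega) (by omega)
  rcases Nat.lt_or_ge i 278528 with h16 | h16
  · exact allR_spec _ (262144 : ℕ) (16384 : ℕ) rk8_16 i (by omega) (by omega)
  rcases Nat.lt_or_ge i 294912 with h17 | h17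
  · exact allR_spec _ (278528 : ℕ) (16384 : ℕ) rk8_17 i (by omega) (by omega)
  exact allR_spec _ (294912 : ℕ) (12024 : ℕ) rk8_18 i (by omega) (by omega)
theorem rk9 : allR (fun i => powT [T2, T1] i (nat_lit 3) i) (nat_lit 0) (nat_lit 306936) = true := by
  apply allR_of_forall
  intro i hi
  have hi : i < 306936 := hi
  rcases Nat.lt_or_ge i 16384 with h0 | h0
  · exact allR_spec _ (0 : ℕ) (16384 : ℕ) rk9_0 i (by omega) (by omega)
  rcases Nat.lt_or_ge i 32768 with h1 | h1
  · exact allR_spec _ (16384 : ℕ) (16384 : ℕ) rk9_1 i (by omega) (by omega)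
  rcases Nat.lt_or_ge i 49152 with h2 | h2
  · exact allR_spec _ (32768 : ℕ) (16384 : ℕ) rk9_2 i (by omega) (by omega)
  rcases Nat.lt_or_ge i 65536 with h3 | h3
  · exact allR_spec _ (49152 : ℕ) (16384 : ℕ) rk9_3 i (by omega) (by omega)
  rcases Nat.lt_or_ge i 81920 with h4 | h4
  · exact allR_spec _ (65536 : ℕ) (16384 : ℕ) rk9_4 i (by omega) (by omega)
  rcases Nat.lt_or_ge i 98304 with h5 | h5
  · exact allR_spec _ (81920 : ℕ) (16384 : ℕ) rk9_5 i (by omega) (by omega)
  rcases Nat.lt_or_ge i 114688 with h6 | h6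
  · exact allR_spec _ (98304 : ℕ) (16384 : ℕ) rk9_6 i (by omega) (by omega)
  rcases Nat.lt_or_ge i 131072 with h7 | h7
  · exact allR_spec _ (114688 : ℕ) (16384 : ℕ) rk9_7 i (by omega) (by omega)
  rcases Nat.lt_or_ge i 147456 with h8 | h8
  · exact allR_spec _ (131072 : ℕ) (16384 : ℕ) rk9_8 i (by omega) (by omega)
  rcases Nat.lt_or_ge i 163840 with h9 | h9
  · exact allR_spec _ (147456 : ℕ) (16384 : ℕ) rk9_9 i (by omega) (by omega)
  rcases Nat.lt_or_ge i 180224 with h10 | h10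
  · exact allR_spec _ (163840 : ℕ) (16384 : ℕ) rk9_10 i (by omega) (by omega)
  rcases Nat.lt_or_ge i 196608 with h11 | h11
  · exact allR_spec _ (180224 : ℕ) (16384 : ℕ) rk9_11 i (by omega) (by omega)
  rcases Nat.lt_or_ge i 212992 with h12 | h12
  · exact allR_spec _ (196608 : ℕ) (16384 : ℕ) rk9_12 i (by omega) (by omega)
  rcases Nat.lt_or_ge i 229376 with h13 | h13
  · exact allR_spec _ (212992 : ℕ) (16384 : ℕ) rk9_13 i (by omega) (by omega)
  rcases Nat.lt_or_ge i 245760 with h14 | h14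
  · exact allR_spec _ (229376 : ℕ) (16384 : ℕ) rk9_14 i (by omega) (by omega)
  rcases Nat.lt_or_ge i 262144 with h15 | h15
  · exact allR_spec _ (245760 : ℕ) (16384 : ℕ) rk9_15 i (by omega) (by omega)
  rcases Nat.lt_or_ge i 278528 with h16 | h16
  · exact allR_spec _ (262144 : ℕ) (16384 : ℕ) rk9_16 i (by omega) (by omega)
  rcases Nat.lt_or_ge i 294912 with h17 | h17
  · exact allR_spec _ (278528 : ℕ) (16384 : ℕ) rk9_17 i (by omega) (by omega)
  exact allR_spec _ (294912 : ℕ) (12024 : ℕ) rk9_18 i (by omega) (by omega)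
theorem rk10 : allR (ckComm T2 T0) (nat_lit 0) (nat_lit 306936) = true := by
  apply allR_of_forall
  intro i hi
  have hi : i < 306936 := hi
  rcases Nat.lt_or_ge i 16384 with h0 | h0
  · exact allR_spec _ (0 : ℕ) (16384 : ℕ) rk10_0 i (by omega) (by omega)
  rcases Nat.lt_or_ge i 32768 with h1 | h1
  · exact allR_spec _ (16384 : ℕ) (16384 : ℕ) rk10_1 i (by omega) (by omega)
  rcases Nat.lt_or_ge i 49152 with h2 | h2
  · exact allR_spec _ (32768 : ℕ) (16384 : ℕ) rk10_2 i (by omega) (by omega)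
  rcases Nat.lt_or_ge i 65536 with h3 | h3
  · exact allR_spec _ (49152 : ℕ) (16384 : ℕ) rk10_3 i (by omega) (by omega)
  rcases Nat.lt_or_ge i 81920 with h4 | h4
  · exact allR_spec _ (65536 : ℕ) (16384 : ℕ) rk10_4 i (by omega) (by omega)
  rcases Nat.lt_or_ge i 98304 with h5 | h5
  · exact allR_spec _ (81920 : ℕ) (16384 : ℕ) rk10_5 i (by omega) (by omega)
  rcases Nat.lt_or_ge i 114688 with h6 | h6
  · exact allR_spec _ (98304 : ℕ) (16384 : ℕ) rk10_6 i (by omega) (by omega)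
  rcases Nat.lt_or_ge i 131072 with h7 | h7
  · exact allR_spec _ (114688 : ℕ) (16384 : ℕ) rk10_7 i (by omega) (by omega)
  rcases Nat.lt_or_ge i 147456 with h8 | h8
  · exact allR_spec _ (131072 : ℕ) (16384 : ℕ) rk10_8 i (by omega) (by omega)
  rcases Nat.lt_or_ge i 163840 with h9 | h9
  · exact allR_spec _ (147456 : ℕ) (16384 : ℕ) rk10_9 i (by omega) (by omega)
  rcases Nat.lt_or_ge i 180224 with h10 | h10
  · exact allR_spec _ (163840 : ℕ) (16384 : ℕ) rk10_10 i (by omega) (by omega)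
  rcases Nat.lt_or_ge i 196608 with h11 | h11
  · exact allR_spec _ (180224 : ℕ) (16384 : ℕ) rk10_11 i (by omega) (by omega)
  rcases Nat.lt_or_ge i 212992 with h12 | h12
  · exact allR_spec _ (196608 : ℕ) (16384 : ℕ) rk10_12 i (by omega) (by omega)
  rcases Nat.lt_or_ge i 229376 with h13 | h13
  · exact allR_spec _ (212992 : ℕ) (16384 : ℕ) rk10_13 i (by omega) (by omega)
  rcases Nat.lt_or_ge i 245760 with h14 | h14
  · exact allR_spec _ (229376 : ℕ) (16384 : ℕ) rk10_14 i (by omega) (by omega)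
  rcases Nat.lt_or_ge i 262144 with h15 | h15
  · exact allR_spec _ (245760 : ℕ) (16384 : ℕ) rk10_15 i (by omega) (by omega)
  rcases Nat.lt_or_ge i 278528 with h16 | h16
  · exact allR_spec _ (262144 : ℕ) (16384 : ℕ) rk10_16 i (by omega) (by omega)
  rcases Nat.lt_or_ge i 294912 with h17 | h17
  · exact allR_spec _ (278528 : ℕ) (16384 : ℕ) rk10_17 i (by omega) (by omega)
  exact allR_spec _ (294912 : ℕ) (12024 : ℕ) rk10_18 i (by omega) (by omega)
theorem rk11 : allR (fun i => powT [T3, T4] i (nat_lit 3) i) (nat_lit 0) (nat_lit 306936) = true := by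
  apply allR_of_forall
  intro i hi
  have hi : i < 306936 := hi
  rcases Nat.lt_or_ge i 16384 with h0 | h0
  · exact allR_spec _ (0 : ℕ) (16384 : ℕ) rk11_0 i (by omega) (by omega)
  rcases Nat.lt_or_ge i 32768 with h1 | h1
  · exact allR_spec _ (16384 : ℕ) (16384 : ℕ) rk11_1 i (by omega) (by omega)
  rcases Nat.lt_or_ge i 49152 with h2 | h2
  · exact allR_spec _ (32768 : ℕ) (16384 : ℕ) rk11_2 i (by omega) (by omega)
  rcases Nat.lt_or_ge i 65536 with h3 | h3
  · exact allR_spec _ (49152 : ℕ) (16384 : ℕ) rk11_3 i (by omega) (by omega)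
  rcases Nat.lt_or_ge i 81920 with h4 | h4
  · exact allR_spec _ (65536 : ℕ) (16384 : ℕ) rk11_4 i (by omega) (by omega)
  rcases Nat.lt_or_ge i 98304 with h5 | h5
  · exact allR_spec _ (81920 : ℕ) (16384 : ℕ) rk11_5 i (by omega) (by omega)
  rcases Nat.lt_or_ge i 114688 with h6 | h6
  · exact allR_spec _ (98304 : ℕ) (16384 : ℕ) rk11_6 i (by omega) (by omega)
  rcases Nat.lt_or_ge i 131072 with h7 | h7
  · exact allR_spec _ (114688 : ℕ) (16384 : ℕ) rk11_7 i (by omega) (by omega)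
  rcases Nat.lt_or_ge i 147456 with h8 | h8
  · exact allR_spec _ (131072 : ℕ) (16384 : ℕ) rk11_8 i (by omega) (by omega)
  rcases Nat.lt_or_ge i 163840 with h9 | h9
  · exact allR_spec _ (147456 : ℕ) (16384 : ℕ) rk11_9 i (by omega) (by omega)
  rcases Nat.lt_or_ge i 180224 with h10 | h10
  · exact allR_spec _ (163840 : ℕ) (16384 : ℕ) rk11_10 i (by omega) (by omega)
  rcases Nat.lt_or_ge i 196608 with h11 | h11
  · exact allR_spec _ (180224 : ℕ) (16384 : ℕ) rk11_11 i (by omega) (by omega)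
  rcases Nat.lt_or_ge i 212992 with h12 | h12
  · exact allR_spec _ (196608 : ℕ) (16384 : ℕ) rk11_12 i (by omega) (by omega)
  rcases Nat.lt_or_ge i 229376 with h13 | h13
  · exact allR_spec _ (212992 : ℕ) (16384 : ℕ) rk11_13 i (by omega) (by omega)
  rcases Nat.lt_or_ge i 245760 with h14 | h14
  · exact allR_spec _ (229376 : ℕ) (16384 : ℕ) rk11_14 i (by omega) (by omega)
  rcases Nat.lt_or_ge i 262144 with h15 | h15
  · exact allR_spec _ (245760 : ℕ) (16384 : ℕ) rk11_15 i (by omega) (by omega)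
  rcases Nat.lt_or_ge i 278528 with h16 | h16
  · exact allR_spec _ (262144 : ℕ) (16384 : ℕ) rk11_16 i (by omega) (by omega)
  rcases Nat.lt_or_ge i 294912 with h17 | h17
  · exact allR_spec _ (278528 : ℕ) (16384 : ℕ) rk11_17 i (by omega) (by omega)
  exact allR_spec _ (294912 : ℕ) (12024 : ℕ) rk11_18 i (by omega) (by omega)
theorem rk12 : allR (ckComm T3 T5) (nat_lit 0) (nat_lit 306936) = true := by
  apply allR_of_forall
  intro i hi
  have hi : i < 306936 := hi
  rcases Nat.lt_or_ge i 16384 with h0 | h0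
  · exact allR_spec _ (0 : ℕ) (16384 : ℕ) rk12_0 i (by omega) (by omega)
  rcases Nat.lt_or_ge i 32768 with h1 | h1
  · exact allR_spec _ (16384 : ℕ) (16384 : ℕ) rk12_1 i (by omega) (by omega)
  rcases Nat.lt_or_ge i 49152 with h2 | h2
  · exact allR_spec _ (32768 : ℕ) (16384 : ℕ) rk12_2 i (by omega) (by omega)
  rcases Nat.lt_or_ge i 65536 with h3 | h3
  · exact allR_spec _ (49152 : ℕ) (16384 : ℕ) rk12_3 i (by omega) (by omega)
  rcases Nat.lt_or_ge i 81920 with h4 | h4
  · exact allR_spec _ (65536 : ℕ) (16384 : ℕ) rk12_4 i (by omega) (by omega)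
  rcases Nat.lt_or_ge i 98304 with h5 | h5
  · exact allR_spec _ (81920 : ℕ) (16384 : ℕ) rk12_5 i (by omega) (by omega)
  rcases Nat.lt_or_ge i 114688 with h6 | h6
  · exact allR_spec _ (98304 : ℕ) (16384 : ℕ) rk12_6 i (by omega) (by omega)
  rcases Nat.lt_or_ge i 131072 with h7 | h7
  · exact allR_spec _ (114688 : ℕ) (16384 : ℕ) rk12_7 i (by omega) (by omega)
  rcases Nat.lt_or_ge i 147456 with h8 | h8
  · exact allR_spec _ (131072 : ℕ) (16384 : ℕ) rk12_8 i (by omega) (by omega)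
  rcases Nat.lt_or_ge i 163840 with h9 | h9
  · exact allR_spec _ (147456 : ℕ) (16384 : ℕ) rk12_9 i (by omega) (by omega)
  rcases Nat.lt_or_ge i 180224 with h10 | h10
  · exact allR_spec _ (163840 : ℕ) (16384 : ℕ) rk12_10 i (by omega) (by omega)
  rcases Nat.lt_or_ge i 196608 with h11 | h11
  · exact allR_spec _ (180224 : ℕ) (16384 : ℕ) rk12_11 i (by omega) (by omega)
  rcases Nat.lt_or_ge i 212992 with h12 | h12
  · exact allR_spec _ (196608 : ℕ) (16384 : ℕ) rk12_12 i (by omega) (by omega)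
  rcases Nat.lt_or_ge i 229376 with h13 | h13
  · exact allR_spec _ (212992 : ℕ) (16384 : ℕ) rk12_13 i (by omega) (by omega)
  rcases Nat.lt_or_ge i 245760 with h14 | h14
  · exact allR_spec _ (229376 : ℕ) (16384 : ℕ) rk12_14 i (by omega) (by omega)
  rcases Nat.lt_or_ge i 262144 with h15 | h15
  · exact allR_spec _ (245760 : ℕ) (16384 : ℕ) rk12_15 i (by omega) (by omega)
  rcases Nat.lt_or_ge i 278528 with h16 | h16
  · exact allR_spec _ (262144 : ℕ) (16384 : ℕ) rk12_16 i (by omega) (by omega)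
  rcases Nat.lt_or_ge i 294912 with h17 | h17
  · exact allR_spec _ (278528 : ℕ) (16384 : ℕ) rk12_17 i (by omega) (by omega)
  exact allR_spec _ (294912 : ℕ) (12024 : ℕ) rk12_18 i (by omega) (by omega)
theorem rk13 : allR (ckComm T3 T6) (nat_lit 0) (nat_lit 306936) = true := by
  apply allR_of_forall
  intro i hi
  have hi : i < 306936 := hi
  rcases Nat.lt_or_ge i 16384 with h0 | h0
  · exact allR_spec _ (0 : ℕ) (16384 : ℕ) rk13_0 i (by omega) (by omega)
  rcases Nat.lt_or_ge i 32768 with h1 | h1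
  · exact allR_spec _ (16384 : ℕ) (16384 : ℕ) rk13_1 i (by omega) (by omega)
  rcases Nat.lt_or_ge i 49152 with h2 | h2
  · exact allR_spec _ (32768 : ℕ) (16384 : ℕ) rk13_2 i (by omega) (by omega)
  rcases Nat.lt_or_ge i 65536 with h3 | h3
  · exact allR_spec _ (49152 : ℕ) (16384 : ℕ) rk13_3 i (by omega) (by omega)
  rcases Nat.lt_or_ge i 81920 with h4 | h4
  · exact allR_spec _ (65536 : ℕ) (16384 : ℕ) rk13_4 i (by omega) (by omega)
  rcases Nat.lt_or_ge i 98304 with h5 | h5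
  · exact allR_spec _ (81920 : ℕ) (16384 : ℕ) rk13_5 i (by omega) (by omega)
  rcases Nat.lt_or_ge i 114688 with h6 | h6
  · exact allR_spec _ (98304 : ℕ) (16384 : ℕ) rk13_6 i (by omega) (by omega)
  rcases Nat.lt_or_ge i 131072 with h7 | h7
  · exact allR_spec _ (114688 : ℕ) (16384 : ℕ) rk13_7 i (by omega) (by omega)
  rcases Nat.lt_or_ge i 147456 with h8 | h8
  · exact allR_spec _ (131072 : ℕ) (16384 : ℕ) rk13_8 i (by omega) (by omega)
  rcases Nat.lt_or_ge i 163840 with h9 | h9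
  · exact allR_spec _ (147456 : ℕ) (16384 : ℕ) rk13_9 i (by omega) (by omega)
  rcases Nat.lt_or_ge i 180224 with h10 | h10
  · exact allR_spec _ (163840 : ℕ) (16384 : ℕ) rk13_10 i (by omega) (by omega)
  rcases Nat.lt_or_ge i 196608 with h11 | h11
  · exact allR_spec _ (180224 : ℕ) (16384 : ℕ) rk13_11 i (by omega) (by omega)
  rcases Nat.lt_or_ge i 212992 with h12 | h12
  · exact allR_spec _ (196608 : ℕ) (16384 : ℕ) rk13_12 i (by omega) (by omega)
  rcases Nat.lt_or_ge i 229376 with h13 | h13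
  · exact allR_spec _ (212992 : ℕ) (16384 : ℕ) rk13_13 i (by omega) (by omega)
  rcases Nat.lt_or_ge i 245760 with h14 | h14
  · exact allR_spec _ (229376 : ℕ) (16384 : ℕ) rk13_14 i (by omega) (by omega)
  rcases Nat.lt_or_ge i 262144 with h15 | h15
  · exact allR_spec _ (245760 : ℕ) (16384 : ℕ) rk13_15 i (by omega) (by omega)
  rcases Nat.lt_or_ge i 278528 with h16 | h16
  · exact allR_spec _ (262144 : ℕ) (16384 : ℕ) rk13_16 i (by omega) (by omega)
  rcases Nat.lt_or_ge i 294912 with h17 | h17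
  · exact allR_spec _ (278528 : ℕ) (16384 : ℕ) rk13_17 i (by omega) (by omega)
  exact allR_spec _ (294912 : ℕ) (12024 : ℕ) rk13_18 i (by omega) (by omega)
theorem rk14 : allR (ckComm T3 T7) (nat_lit 0) (nat_lit 306936) = true := by
  apply allR_of_forall
  intro i hi
  have hi : i < 306936 := hi
  rcases Nat.lt_or_ge i 16384 with h0 | h0
  · exact allR_spec _ (0 : ℕ) (16384 : ℕ) rk14_0 i (by omega) (by omega)
  rcases Nat.lt_or_ge i 32768 with h1 | h1
  · exact allR_spec _ (16384 : ℕ) (16384 : ℕ) rk14_1 i (by omega) (by omega)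
  rcases Nat.lt_or_ge i 49152 with h2 | h2
  · exact allR_spec _ (32768 : ℕ) (16384 : ℕ) rk14_2 i (by omega) (by omega)
  rcases Nat.lt_or_ge i 65536 with h3 | h3
  · exact allR_spec _ (49152 : ℕ) (16384 : ℕ) rk14_3 i (by omega) (by omega)
  rcases Nat.lt_or_ge i 81920 with h4 | h4
  · exact allR_spec _ (65536 : ℕ) (16384 : ℕ) rk14_4 i (by omega) (by omega)
  rcases Nat.lt_or_ge i 98304 with h5 | h5
  · exact allR_spec _ (81920 : ℕ) (16384 : ℕ) rk14_5 i (by omega) (by omega)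
  rcases Nat.lt_or_ge i 114688 with h6 | h6
  · exact allR_spec _ (98304 : ℕ) (16384 : ℕ) rk14_6 i (by omega) (by omega)
  rcases Nat.lt_or_ge i 131072 with h7 | h7
  · exact allR_spec _ (114688 : ℕ) (16384 : ℕ) rk14_7 i (by omega) (by omega)
  rcases Nat.lt_or_ge i 147456 with h8 | h8
  · exact allR_spec _ (131072 : ℕ) (16384 : ℕ) rk14_8 i (by omega) (by omega)
  rcases Nat.lt_or_ge i 163840 with h9 | h9
  · exact allR_spec _ (147456 : ℕ) (16384 : ℕ) rk14_9 i (by omega) (by omega)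
  rcases Nat.lt_or_ge i 180224 with h10 | h10
  · exact allR_spec _ (163840 : ℕ) (16384 : ℕ) rk14_10 i (by omega) (by omega)
  rcases Nat.lt_or_ge i 196608 with h11 | h11
  · exact allR_spec _ (180224 : ℕ) (16384 : ℕ) rk14_11 i (by omega) (by omega)
  rcases Nat.lt_or_ge i 212992 with h12 | h12
  · exact allR_spec _ (196608 : ℕ) (16384 : ℕ) rk14_12 i (by omega) (by omega)
  rcases Nat.lt_or_ge i 229376 with h13 | h13
  · exact allR_spec _ (212992 : ℕ) (16384 : ℕ) rk14_13 i (by omega) (by omega)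
  rcases Nat.lt_or_ge i 245760 with h14 | h14
  · exact allR_spec _ (229376 : ℕ) (16384 : ℕ) rk14_14 i (by omega) (by omega)
  rcases Nat.lt_or_ge i 262144 with h15 | h15
  · exact allR_spec _ (245760 : ℕ) (16384 : ℕ) rk14_15 i (by omega) (by omega)
  rcases Nat.lt_or_ge i 278528 with h16 | h16
  · exact allR_spec _ (262144 : ℕ) (16384 : ℕ) rk14_16 i (by omega) (by omega)
  rcases Nat.lt_or_ge i 294912 with h17 | h17
  · exact allR_spec _ (278528 : ℕ) (16384 : ℕ) rk14_17 i (by omega) (by omega)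
  exact allR_spec _ (294912 : ℕ) (12024 : ℕ) rk14_18 i (by omega) (by omega)
theorem rk15 : allR (ckComm T3 T8) (nat_lit 0) (nat_lit 306936) = true := by
  apply allR_of_forall
  intro i hi
  have hi : i < 306936 := hi
  rcases Nat.lt_or_ge i 16384 with h0 | h0
  · exact allR_spec _ (0 : ℕ) (16384 : ℕ) rk15_0 i (by omega) (by omega)
  rcases Nat.lt_or_ge i 32768 with h1 | h1
  · exact allR_spec _ (16384 : ℕ) (16384 : ℕ) rk15_1 i (by omega) (by omega)
  rcases Nat.lt_or_ge i 49152 with h2 | h2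
  · exact allR_spec _ (32768 : ℕ) (16384 : ℕ) rk15_2 i (by omega) (by omega)
  rcases Nat.lt_or_ge i 65536 with h3 | h3
  · exact allR_spec _ (49152 : ℕ) (16384 : ℕ) rk15_3 i (by omega) (by omega)
  rcases Nat.lt_or_ge i 81920 with h4 | h4
  · exact allR_spec _ (65536 : ℕ) (16384 : ℕ) rk15_4 i (by omega) (by omega)
  rcases Nat.lt_or_ge i 98304 with h5 | h5
  · exact allR_spec _ (81920 : ℕ) (16384 : ℕ) rk15_5 i (by omega) (by omega)
  rcases Nat.lt_or_ge i 114688 with h6 | h6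
  · exact allR_spec _ (98304 : ℕ) (16384 : ℕ) rk15_6 i (by omega) (by omega)
  rcases Nat.lt_or_ge i 131072 with h7 | h7
  · exact allR_spec _ (114688 : ℕ) (16384 : ℕ) rk15_7 i (by omega) (by omega)
  rcases Nat.lt_or_ge i 147456 with h8 | h8
  · exact allR_spec _ (131072 : ℕ) (16384 : ℕ) rk15_8 i (by omega) (by omega)
  rcases Nat.lt_or_ge i 163840 with h9 | h9
  · exact allR_spec _ (147456 : ℕ) (16384 : ℕ) rk15_9 i (by omega) (by omega)
  rcases Nat.lt_or_ge i 180224 with h10 | h10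
  · exact allR_spec _ (163840 : ℕ) (16384 : ℕ) rk15_10 i (by omega) (by omega)
  rcases Nat.lt_or_ge i 196608 with h11 | h11
  · exact allR_spec _ (180224 : ℕ) (16384 : ℕ) rk15_11 i (by omega) (by omega)
  rcases Nat.lt_or_ge i 212992 with h12 | h12
  · exact allR_spec _ (196608 : ℕ) (16384 : ℕ) rk15_12 i (by omega) (by omega)
  rcases Nat.lt_or_ge i 229376 with h13 | h13
  · exact allR_spec _ (212992 : ℕ) (16384 : ℕ) rk15_13 i (by omega) (by omega)
  rcases Nat.lt_or_ge i 245760 with h14 | h14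
  · exact allR_spec _ (229376 : ℕ) (16384 : ℕ) rk15_14 i (by omega) (by omega)
  rcases Nat.lt_or_ge i 262144 with h15 | h15
  · exact allR_spec _ (245760 : ℕ) (16384 : ℕ) rk15_15 i (by omega) (by omega)
  rcases Nat.lt_or_ge i 278528 with h16 | h16
  · exact allR_spec _ (262144 : ℕ) (16384 : ℕ) rk15_16 i (by omega) (by omega)
  rcases Nat.lt_or_ge i 294912 with h17 | h17
  · exact allR_spec _ (278528 : ℕ) (16384 : ℕ) rk15_17 i (by omega) (by omega)
  exact allR_spec _ (294912 : ℕ) (12024 : ℕ) rk15_18 i (by omega) (by omega)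
theorem rk16 : allR (ckComm T3 T10) (nat_lit 0) (nat_lit 306936) = true := by
  apply allR_of_forall
  intro i hi
  have hi : i < 306936 := hi
  rcases Nat.lt_or_ge i 16384 with h0 | h0
  · exact allR_spec _ (0 : ℕ) (16384 : ℕ) rk16_0 i (by omega) (by omega)
  rcases Nat.lt_or_ge i 32768 with h1 | h1
  · exact allR_spec _ (16384 : ℕ) (16384 : ℕ) rk16_1 i (by omega) (by omega)
  rcases Nat.lt_or_ge i 49152 with h2 | h2
  · exact allR_spec _ (32768 : ℕ) (16384 : ℕ) rk16_2 i (by omega) (by omega)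
  rcases Nat.lt_or_ge i 65536 with h3 | h3
  · exact allR_spec _ (49152 : ℕ) (16384 : ℕ) rk16_3 i (by omega) (by omega)
  rcases Nat.lt_or_ge i 81920 with h4 | h4
  · exact allR_spec _ (65536 : ℕ) (16384 : ℕ) rk16_4 i (by omega) (by omega)
  rcases Nat.lt_or_ge i 98304 with h5 | h5
  · exact allR_spec _ (81920 : ℕ) (16384 : ℕ) rk16_5 i (by omega) (by omega)
  rcases Nat.lt_or_ge i 114688 with h6 | h6
  · exact allR_spec _ (98304 : ℕ) (16384 : ℕ) rk16_6 i (by omega) (by omega)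
  rcases Nat.lt_or_ge i 131072 with h7 | h7
  · exact allR_spec _ (114688 : ℕ) (16384 : ℕ) rk16_7 i (by omega) (by omega)
  rcases Nat.lt_or_ge i 147456 with h8 | h8
  · exact allR_spec _ (131072 : ℕ) (16384 : ℕ) rk16_8 i (by omega) (by omega)
  rcases Nat.lt_or_ge i 163840 with h9 | h9
  · exact allR_spec _ (147456 : ℕ) (16384 : ℕ) rk16_9 i (by omega) (by omega)
  rcases Nat.lt_or_ge i 180224 with h10 | h10
  · exact allR_spec _ (163840 : ℕ) (16384 : ℕ) rk16_10 i (by omega) (by omega)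
  rcases Nat.lt_or_ge i 196608 with h11 | h11
  · exact allR_spec _ (180224 : ℕ) (16384 : ℕ) rk16_11 i (by omega) (by omega)
  rcases Nat.lt_or_ge i 212992 with h12 | h12
  · exact allR_spec _ (196608 : ℕ) (16384 : ℕ) rk16_12 i (by omega) (by omega)
  rcases Nat.lt_or_ge i 229376 with h13 | h13
  · exact allR_spec _ (212992 : ℕ) (16384 : ℕ) rk16_13 i (by omega) (by omega)
  rcases Nat.lt_or_ge i 245760 with h14 | h14
  · exact allR_spec _ (229376 : ℕ) (16384 : ℕ) rk16_14 i (by omega) (by omega)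
  rcases Nat.lt_or_ge i 262144 with h15 | h15
  · exact allR_spec _ (245760 : ℕ) (16384 : ℕ) rk16_15 i (by omega) (by omega)
  rcases Nat.lt_or_ge i 278528 with h16 | h16
  · exact allR_spec _ (262144 : ℕ) (16384 : ℕ) rk16_16 i (by omega) (by omega)
  rcases Nat.lt_or_ge i 294912 with h17 | h17
  · exact allR_spec _ (278528 : ℕ) (16384 : ℕ) rk16_17 i (by omega) (by omega)
  exact allR_spec _ (294912 : ℕ) (12024 : ℕ) rk16_18 i (by omega) (by omega)
theorem rk17 : allR (ckComm T3 T11) (nat_lit 0) (nat_lit 306936) = true := by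
  apply allR_of_forall
  intro i hi
  have hi : i < 306936 := hi
  rcases Nat.lt_or_ge i 16384 with h0 | h0
  · exact allR_spec _ (0 : ℕ) (16384 : ℕ) rk17_0 i (by omega) (by omega)
  rcases Nat.lt_or_ge i 32768 with h1 | h1
  · exact allR_spec _ (16384 : ℕ) (16384 : ℕ) rk17_1 i (by omega) (by omega)
  rcases Nat.lt_or_ge i 49152 with h2 | h2
  · exact allR_spec _ (32768 : ℕ) (16384 : ℕ) rk17_2 i (by omega) (by omega)
  rcases Nat.lt_or_ge i 65536 with h3 | h3
  · exact allR_spec _ (49152 : ℕ) (16384 : ℕ) rk17_3 i (by omega) (by omega)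
  rcases Nat.lt_or_ge i 81920 with h4 | h4
  · exact allR_spec _ (65536 : ℕ) (16384 : ℕ) rk17_4 i (by omega) (by omega)
  rcases Nat.lt_or_ge i 98304 with h5 | h5
  · exact allR_spec _ (81920 : ℕ) (16384 : ℕ) rk17_5 i (by omega) (by omega)
  rcases Nat.lt_or_ge i 114688 with h6 | h6
  · exact allR_spec _ (98304 : ℕ) (16384 : ℕ) rk17_6 i (by omega) (by omega)
  rcases Nat.lt_or_ge i 131072 with h7 | h7
  · exact allR_spec _ (114688 : ℕ) (16384 : ℕ) rk17_7 i (by omega) (by omega)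
  rcases Nat.lt_or_ge i 147456 with h8 | h8
  · exact allR_spec _ (131072 : ℕ) (16384 : ℕ) rk17_8 i (by omega) (by omega)
  rcases Nat.lt_or_ge i 163840 with h9 | h9
  · exact allR_spec _ (147456 : ℕ) (16384 : ℕ) rk17_9 i (by omega) (by omega)
  rcases Nat.lt_or_ge i 180224 with h10 | h10
  · exact allR_spec _ (163840 : ℕ) (16384 : ℕ) rk17_10 i (by omega) (by omega)
  rcases Nat.lt_or_ge i 196608 with h11 | h11
  · exact allR_spec _ (180224 : ℕ) (16384 : ℕ) rk17_11 i (by omega) (by omega)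
  rcases Nat.lt_or_ge i 212992 with h12 | h12
  · exact allR_spec _ (196608 : ℕ) (16384 : ℕ) rk17_12 i (by omega) (by omega)
  rcases Nat.lt_or_ge i 229376 with h13 | h13
  · exact allR_spec _ (212992 : ℕ) (16384 : ℕ) rk17_13 i (by omega) (by omega)
  rcases Nat.lt_or_ge i 245760 with h14 | h14
  · exact allR_spec _ (229376 : ℕ) (16384 : ℕ) rk17_14 i (by omega) (by omega)
  rcases Nat.lt_or_ge i 262144 with h15 | h15
  · exact allR_spec _ (245760 : ℕ) (16384 : ℕ) rk17_15 i (by omega) (by omega)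
  rcases Nat.lt_or_ge i 278528 with h16 | h16
  · exact allR_spec _ (262144 : ℕ) (16384 : ℕ) rk17_16 i (by omega) (by omega)
  rcases Nat.lt_or_ge i 294912 with h17 | h17
  · exact allR_spec _ (278528 : ℕ) (16384 : ℕ) rk17_17 i (by omega) (by omega)
  exact allR_spec _ (294912 : ℕ) (12024 : ℕ) rk17_18 i (by omega) (by omega)
theorem rk18 : allR (ckComm T3 T9) (nat_lit 0) (nat_lit 306936) = true := by
  apply allR_of_forall
  intro i hi
  have hi : i < 306936 := hi
  rcases Nat.lt_or_ge i 16384 with h0 | h0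
  · exact allR_spec _ (0 : ℕ) (16384 : ℕ) rk18_0 i (by omega) (by omega)
  rcases Nat.lt_or_ge i 32768 with h1 | h1
  · exact allR_spec _ (16384 : ℕ) (16384 : ℕ) rk18_1 i (by omega) (by omega)
  rcases Nat.lt_or_ge i 49152 with h2 | h2
  · exact allR_spec _ (32768 : ℕ) (16384 : ℕ) rk18_2 i (by omega) (by omega)
  rcases Nat.lt_or_ge i 65536 with h3 | h3
  · exact allR_spec _ (49152 : ℕ) (16384 : ℕ) rk18_3 i (by omega) (by omega)
  rcases Nat.lt_or_ge i 81920 with h4 | h4
  · exact allR_spec _ (65536 : ℕ) (16384 : ℕ) rk18_4 i (by omega) (by omega)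
  rcases Nat.lt_or_ge i 98304 with h5 | h5
  · exact allR_spec _ (81920 : ℕ) (16384 : ℕ) rk18_5 i (by omega) (by omega)
  rcases Nat.lt_or_ge i 114688 with h6 | h6
  · exact allR_spec _ (98304 : ℕ) (16384 : ℕ) rk18_6 i (by omega) (by omega)
  rcases Nat.lt_or_ge i 131072 with h7 | h7
  · exact allR_spec _ (114688 : ℕ) (16384 : ℕ) rk18_7 i (by omega) (by omega)
  rcases Nat.lt_or_ge i 147456 with h8 | h8
  · exact allR_spec _ (131072 : ℕ) (16384 : ℕ) rk18_8 i (by omega) (by omega)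
  rcases Nat.lt_or_ge i 163840 with h9 | h9
  · exact allR_spec _ (147456 : ℕ) (16384 : ℕ) rk18_9 i (by omega) (by omega)
  rcases Nat.lt_or_ge i 180224 with h10 | h10
  · exact allR_spec _ (163840 : ℕ) (16384 : ℕ) rk18_10 i (by omega) (by omega)
  rcases Nat.lt_or_ge i 196608 with h11 | h11
  · exact allR_spec _ (180224 : ℕ) (16384 : ℕ) rk18_11 i (by omega) (by omega)
  rcases Nat.lt_or_ge i 212992 with h12 | h12
  · exact allR_spec _ (196608 : ℕ) (16384 : ℕ) rk18_12 i (by omega) (by omega)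
  rcases Nat.lt_or_ge i 229376 with h13 | h13
  · exact allR_spec _ (212992 : ℕ) (16384 : ℕ) rk18_13 i (by omega) (by omega)
  rcases Nat.lt_or_ge i 245760 with h14 | h14
  · exact allR_spec _ (229376 : ℕ) (16384 : ℕ) rk18_14 i (by omega) (by omega)
  rcases Nat.lt_or_ge i 262144 with h15 | h15
  · exact allR_spec _ (245760 : ℕ) (16384 : ℕ) rk18_15 i (by omega) (by omega)
  rcases Nat.lt_or_ge i 278528 with h16 | h16
  · exact allR_spec _ (262144 : ℕ) (16384 : ℕ) rk18_16 i (by omega) (by omega)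
  rcases Nat.lt_or_ge i 294912 with h17 | h17
  · exact allR_spec _ (278528 : ℕ) (16384 : ℕ) rk18_17 i (by omega) (by omega)
  exact allR_spec _ (294912 : ℕ) (12024 : ℕ) rk18_18 i (by omega) (by omega)
theorem rk19 : allR (ckComm T3 T1) (nat_lit 0) (nat_lit 306936) = true := by
  apply allR_of_forall
  intro i hi
  have hi : i < 306936 := hi
  rcases Nat.lt_or_ge i 16384 with h0 | h0
  · exact allR_spec _ (0 : ℕ) (16384 : ℕ) rk19_0 i (by omega) (by omega)
  rcases Nat.lt_or_ge i 32768 with h1 | h1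
  · exact allR_spec _ (16384 : ℕ) (16384 : ℕ) rk19_1 i (by omega) (by omega)
  rcases Nat.lt_or_ge i 49152 with h2 | h2
  · exact allR_spec _ (32768 : ℕ) (16384 : ℕ) rk19_2 i (by omega) (by omega)
  rcases Nat.lt_or_ge i 65536 with h3 | h3
  · exact allR_spec _ (49152 : ℕ) (16384 : ℕ) rk19_3 i (by omega) (by omega)
  rcases Nat.lt_or_ge i 81920 with h4 | h4
  · exact allR_spec _ (65536 : ℕ) (16384 : ℕ) rk19_4 i (by omega) (by omega)
  rcases Nat.lt_or_ge i 98304 with h5 | h5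
  · exact allR_spec _ (81920 : ℕ) (16384 : ℕ) rk19_5 i (by omega) (by omega)
  rcases Nat.lt_or_ge i 114688 with h6 | h6
  · exact allR_spec _ (98304 : ℕ) (16384 : ℕ) rk19_6 i (by omega) (by omega)
  rcases Nat.lt_or_ge i 131072 with h7 | h7
  · exact allR_spec _ (114688 : ℕ) (16384 : ℕ) rk19_7 i (by omega) (by omega)
  rcases Nat.lt_or_ge i 147456 with h8 | h8
  · exact allR_spec _ (131072 : ℕ) (16384 : ℕ) rk19_8 i (by omega) (by omega)
  rcases Nat.lt_or_ge i 163840 with h9 | h9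
  · exact allR_spec _ (147456 : ℕ) (16384 : ℕ) rk19_9 i (by omega) (by omega)
  rcases Nat.lt_or_ge i 180224 with h10 | h10
  · exact allR_spec _ (163840 : ℕ) (16384 : ℕ) rk19_10 i (by omega) (by omega)
  rcases Nat.lt_or_ge i 196608 with h11 | h11
  · exact allR_spec _ (180224 : ℕ) (16384 : ℕ) rk19_11 i (by omega) (by omega)
  rcases Nat.lt_or_ge i 212992 with h12 | h12
  · exact allR_spec _ (196608 : ℕ) (16384 : ℕ) rk19_12 i (by omega) (by omega)
  rcases Nat.lt_or_ge i 229376 with h13 | h13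
  · exact allR_spec _ (212992 : ℕ) (16384 : ℕ) rk19_13 i (by omega) (by omega)
  rcases Nat.lt_or_ge i 245760 with h14 | h14
  · exact allR_spec _ (229376 : ℕ) (16384 : ℕ) rk19_14 i (by omega) (by omega)
  rcases Nat.lt_or_ge i 262144 with h15 | h15
  · exact allR_spec _ (245760 : ℕ) (16384 : ℕ) rk19_15 i (by omega) (by omega)
  rcases Nat.lt_or_ge i 278528 with h16 | h16
  · exact allR_spec _ (262144 : ℕ) (16384 : ℕ) rk19_16 i (by omega) (by omega)
  rcases Nat.lt_or_ge i 294912 with h17 | h17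
  · exact allR_spec _ (278528 : ℕ) (16384 : ℕ) rk19_17 i (by omega) (by omega)
  exact allR_spec _ (294912 : ℕ) (12024 : ℕ) rk19_18 i (by omega) (by omega)
theorem rk20 : allR (ckComm T3 T0) (nat_lit 0) (nat_lit 306936) = true := by
  apply allR_of_forall
  intro i hi
  have hi : i < 306936 := hi
  rcases Nat.lt_or_ge i 16384 with h0 | h0
  · exact allR_spec _ (0 : ℕ) (16384 : ℕ) rk20_0 i (by omega) (by omega)
  rcases Nat.lt_or_ge i 32768 with h1 | h1
  · exact allR_spec _ (16384 : ℕ) (16384 : ℕ) rk20_1 i (by omega) (by omega)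
  rcases Nat.lt_or_ge i 49152 with h2 | h2
  · exact allR_spec _ (32768 : ℕ) (16384 : ℕ) rk20_2 i (by omega) (by omega)
  rcases Nat.lt_or_ge i 65536 with h3 | h3
  · exact allR_spec _ (49152 : ℕ) (16384 : ℕ) rk20_3 i (by omega) (by omega)
  rcases Nat.lt_or_ge i 81920 with h4 | h4
  · exact allR_spec _ (65536 : ℕ) (16384 : ℕ) rk20_4 i (by omega) (by omega)
  rcases Nat.lt_or_ge i 98304 with h5 | h5
  · exact allR_spec _ (81920 : ℕ) (16384 : ℕ) rk20_5 i (by omega) (by omega)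
  rcases Nat.lt_or_ge i 114688 with h6 | h6
  · exact allR_spec _ (98304 : ℕ) (16384 : ℕ) rk20_6 i (by omega) (by omega)
  rcases Nat.lt_or_ge i 131072 with h7 | h7
  · exact allR_spec _ (114688 : ℕ) (16384 : ℕ) rk20_7 i (by omega) (by omega)
  rcases Nat.lt_or_ge i 147456 with h8 | h8
  · exact allR_spec _ (131072 : ℕ) (16384 : ℕ) rk20_8 i (by omega) (by omega)
  rcases Nat.lt_or_ge i 163840 with h9 | h9
  · exact allR_spec _ (147456 : ℕ) (16384 : ℕ) rk20_9 i (by omega) (by omega)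
  rcases Nat.lt_or_ge i 180224 with h10 | h10
  · exact allR_spec _ (163840 : ℕ) (16384 : ℕ) rk20_10 i (by omega) (by omega)
  rcases Nat.lt_or_ge i 196608 with h11 | h11
  · exact allR_spec _ (180224 : ℕ) (16384 : ℕ) rk20_11 i (by omega) (by omega)
  rcases Nat.lt_or_ge i 212992 with h12 | h12
  · exact allR_spec _ (196608 : ℕ) (16384 : ℕ) rk20_12 i (by omega) (by omega)
  rcases Nat.lt_or_ge i 229376 with h13 | h13
  · exact allR_spec _ (212992 : ℕ) (16384 : ℕ) rk20_13 i (by omega) (by omega)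
  rcases Nat.lt_or_ge i 245760 with h14 | h14
  · exact allR_spec _ (229376 : ℕ) (16384 : ℕ) rk20_14 i (by omega) (by omega)
  rcases Nat.lt_or_ge i 262144 with h15 | h15
  · exact allR_spec _ (245760 : ℕ) (16384 : ℕ) rk20_15 i (by omega) (by omega)
  rcases Nat.lt_or_ge i 278528 with h16 | h16
  · exact allR_spec _ (262144 : ℕ) (16384 : ℕ) rk20_16 i (by omega) (by omega)
  rcases Nat.lt_or_ge i 294912 with h17 | h17
  · exact allR_spec _ (278528 : ℕ) (16384 : ℕ) rk20_17 i (by omega) (by omega)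
  exact allR_spec _ (294912 : ℕ) (12024 : ℕ) rk20_18 i (by omega) (by omega)
theorem rk21 : allR (fun i => powT [T4, T5] i (nat_lit 3) i) (nat_lit 0) (nat_lit 306936) = true := by
  apply allR_of_forall
  intro i hi
  have hi : i < 306936 := hi
  rcases Nat.lt_or_ge i 16384 with h0 | h0
  · exact allR_spec _ (0 : ℕ) (16384 : ℕ) rk21_0 i (by omega) (by omega)
  rcases Nat.lt_or_ge i 32768 with h1 | h1
  · exact allR_spec _ (16384 : ℕ) (16384 : ℕ) rk21_1 i (by omega) (by omega)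
  rcases Nat.lt_or_ge i 49152 with h2 | h2
  · exact allR_spec _ (32768 : ℕ) (16384 : ℕ) rk21_2 i (by omega) (by omega)
  rcases Nat.lt_or_ge i 65536 with h3 | h3
  · exact allR_spec _ (49152 : ℕ) (16384 : ℕ) rk21_3 i (by omega) (by omega)
  rcases Nat.lt_or_ge i 81920 with h4 | h4
  · exact allR_spec _ (65536 : ℕ) (16384 : ℕ) rk21_4 i (by omega) (by omega)
  rcases Nat.lt_or_ge i 98304 with h5 | h5
  · exact allR_spec _ (81920 : ℕ) (16384 : ℕ) rk21_5 i (by omega) (by omega)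
  rcases Nat.lt_or_ge i 114688 with h6 | h6
  · exact allR_spec _ (98304 : ℕ) (16384 : ℕ) rk21_6 i (by omega) (by omega)
  rcases Nat.lt_or_ge i 131072 with h7 | h7
  · exact allR_spec _ (114688 : ℕ) (16384 : ℕ) rk21_7 i (by omega) (by omega)
  rcases Nat.lt_or_ge i 147456 with h8 | h8
  · exact allR_spec _ (131072 : ℕ) (16384 : ℕ) rk21_8 i (by omega) (by omega)
  rcases Nat.lt_or_ge i 163840 with h9 | h9
  · exact allR_spec _ (147456 : ℕ) (16384 : ℕ) rk21_9 i (by omega) (by omega)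
  rcases Nat.lt_or_ge i 180224 with h10 | h10
  · exact allR_spec _ (163840 : ℕ) (16384 : ℕ) rk21_10 i (by omega) (by omega)
  rcases Nat.lt_or_ge i 196608 with h11 | h11
  · exact allR_spec _ (180224 : ℕ) (16384 : ℕ) rk21_11 i (by omega) (by omega)
  rcases Nat.lt_or_ge i 212992 with h12 | h12
  · exact allR_spec _ (196608 : ℕ) (16384 : ℕ) rk21_12 i (by omega) (by omega)
  rcases Nat.lt_or_ge i 229376 with h13 | h13
  · exact allR_spec _ (212992 : ℕ) (16384 : ℕ) rk21_13 i (by omega) (by omega)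
  rcases Nat.lt_or_ge i 245760 with h14 | h14
  · exact allR_spec _ (229376 : ℕ) (16384 : ℕ) rk21_14 i (by omega) (by omega)
  rcases Nat.lt_or_ge i 262144 with h15 | h15
  · exact allR_spec _ (245760 : ℕ) (16384 : ℕ) rk21_15 i (by omega) (by omega)
  rcases Nat.lt_or_ge i 278528 with h16 | h16
  · exact allR_spec _ (262144 : ℕ) (16384 : ℕ) rk21_16 i (by omega) (by omega)
  rcases Nat.lt_or_ge i 294912 with h17 | h17
  · exact allR_spec _ (278528 : ℕ) (16384 : ℕ) rk21_17 i (by omega) (by omega)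
  exact allR_spec _ (294912 : ℕ) (12024 : ℕ) rk21_18 i (by omega) (by omega)
theorem rk22 : allR (ckComm T4 T6) (nat_lit 0) (nat_lit 306936) = true := by
  apply allR_of_forall
  intro i hi
  have hi : i < 306936 := hi
  rcases Nat.lt_or_ge i 16384 with h0 | h0
  · exact allR_spec _ (0 : ℕ) (16384 : ℕ) rk22_0 i (by omega) (by omega)
  rcases Nat.lt_or_ge i 32768 with h1 | h1
  · exact allR_spec _ (16384 : ℕ) (16384 : ℕ) rk22_1 i (by omega) (by omega)
  rcases Nat.lt_or_ge i 49152 with h2 | h2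
  · exact allR_spec _ (32768 : ℕ) (16384 : ℕ) rk22_2 i (by omega) (by omega)
  rcases Nat.lt_or_ge i 65536 with h3 | h3
  · exact allR_spec _ (49152 : ℕ) (16384 : ℕ) rk22_3 i (by omega) (by omega)
  rcases Nat.lt_or_ge i 81920 with h4 | h4
  · exact allR_spec _ (65536 : ℕ) (16384 : ℕ) rk22_4 i (by omega) (by omega)
  rcases Nat.lt_or_ge i 98304 with h5 | h5
  · exact allR_spec _ (81920 : ℕ) (16384 : ℕ) rk22_5 i (by omega) (by omega)
  rcases Nat.lt_or_ge i 114688 with h6 | h6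
  · exact allR_spec _ (98304 : ℕ) (16384 : ℕ) rk22_6 i (by omega) (by omega)
  rcases Nat.lt_or_ge i 131072 with h7 | h7
  · exact allR_spec _ (114688 : ℕ) (16384 : ℕ) rk22_7 i (by omega) (by omega)
  rcases Nat.lt_or_ge i 147456 with h8 | h8
  · exact allR_spec _ (131072 : ℕ) (16384 : ℕ) rk22_8 i (by omega) (by omega)
  rcases Nat.lt_or_ge i 163840 with h9 | h9
  · exact allR_spec _ (147456 : ℕ) (16384 : ℕ) rk22_9 i (by omega) (by omega)
  rcases Nat.lt_or_ge i 180224 with h10 | h10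
  · exact allR_spec _ (163840 : ℕ) (16384 : ℕ) rk22_10 i (by omega) (by omega)
  rcases Nat.lt_or_ge i 196608 with h11 | h11
  · exact allR_spec _ (180224 : ℕ) (16384 : ℕ) rk22_11 i (by omega) (by omega)
  rcases Nat.lt_or_ge i 212992 with h12 | h12
  · exact allR_spec _ (196608 : ℕ) (16384 : ℕ) rk22_12 i (by omega) (by omega)
  rcases Nat.lt_or_ge i 229376 with h13 | h13
  · exact allR_spec _ (212992 : ℕ) (16384 : ℕ) rk22_13 i (by omega) (by omega)
  rcases Nat.lt_or_ge i 245760 with h14 | h14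
  · exact allR_spec _ (229376 : ℕ) (16384 : ℕ) rk22_14 i (by omega) (by omega)
  rcases Nat.lt_or_ge i 262144 with h15 | h15
  · exact allR_spec _ (245760 : ℕ) (16384 : ℕ) rk22_15 i (by omega) (by omega)
  rcases Nat.lt_or_ge i 278528 with h16 | h16
  · exact allR_spec _ (262144 : ℕ) (16384 : ℕ) rk22_16 i (by omega) (by omega)
  rcases Nat.lt_or_ge i 294912 with h17 | h17
  · exact allR_spec _ (278528 : ℕ) (16384 : ℕ) rk22_17 i (by omega) (by omega)
  exact allR_spec _ (294912 : ℕ) (12024 : ℕ) rk22_18 i (by omega) (by omega)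
theorem rk23 : allR (ckComm T4 T7) (nat_lit 0) (nat_lit 306936) = true := by
  apply allR_of_forall
  intro i hi
  have hi : i < 306936 := hi
  rcases Nat.lt_or_ge i 16384 with h0 | h0
  · exact allR_spec _ (0 : ℕ) (16384 : ℕ) rk23_0 i (by omega) (by omega)
  rcases Nat.lt_or_ge i 32768 with h1 | h1
  · exact allR_spec _ (16384 : ℕ) (16384 : ℕ) rk23_1 i (by omega) (by omega)
  rcases Nat.lt_or_ge i 49152 with h2 | h2
  · exact allR_spec _ (32768 : ℕ) (16384 : ℕ) rk23_2 i (by omega) (by omega)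
  rcases Nat.lt_or_ge i 65536 with h3 | h3
  · exact allR_spec _ (49152 : ℕ) (16384 : ℕ) rk23_3 i (by omega) (by omega)
  rcases Nat.lt_or_ge i 81920 with h4 | h4
  · exact allR_spec _ (65536 : ℕ) (16384 : ℕ) rk23_4 i (by omega) (by omega)
  rcases Nat.lt_or_ge i 98304 with h5 | h5
  · exact allR_spec _ (81920 : ℕ) (16384 : ℕ) rk23_5 i (by omega) (by omega)
  rcases Nat.lt_or_ge i 114688 with h6 | h6
  · exact allR_spec _ (98304 : ℕ) (16384 : ℕ) rk23_6 i (by omega) (by omega)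
  rcases Nat.lt_or_ge i 131072 with h7 | h7
  · exact allR_spec _ (114688 : ℕ) (16384 : ℕ) rk23_7 i (by omega) (by omega)
  rcases Nat.lt_or_ge i 147456 with h8 | h8
  · exact allR_spec _ (131072 : ℕ) (16384 : ℕ) rk23_8 i (by omega) (by omega)
  rcases Nat.lt_or_ge i 163840 with h9 | h9
  · exact allR_spec _ (147456 : ℕ) (16384 : ℕ) rk23_9 i (by omega) (by omega)
  rcases Nat.lt_or_ge i 180224 with h10 | h10
  · exact allR_spec _ (163840 : ℕ) (16384 : ℕ) rk23_10 i (by omega) (by omega)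
  rcases Nat.lt_or_ge i 196608 with h11 | h11
  · exact allR_spec _ (180224 : ℕ) (16384 : ℕ) rk23_11 i (by omega) (by omega)
  rcases Nat.lt_or_ge i 212992 with h12 | h12
  · exact allR_spec _ (196608 : ℕ) (16384 : ℕ) rk23_12 i (by omega) (by omega)
  rcases Nat.lt_or_ge i 229376 with h13 | h13
  · exact allR_spec _ (212992 : ℕ) (16384 : ℕ) rk23_13 i (by omega) (by omega)
  rcases Nat.lt_or_ge i 245760 with h14 | h14
  · exact allR_spec _ (229376 : ℕ) (16384 : ℕ) rk23_14 i (by omega) (by omega)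
  rcases Nat.lt_or_ge i 262144 with h15 | h15
  · exact allR_spec _ (245760 : ℕ) (16384 : ℕ) rk23_15 i (by omega) (by omega)
  rcases Nat.lt_or_ge i 278528 with h16 | h16
  · exact allR_spec _ (262144 : ℕ) (16384 : ℕ) rk23_16 i (by omega) (by omega)
  rcases Nat.lt_or_ge i 294912 with h17 | h17
  · exact allR_spec _ (278528 : ℕ) (16384 : ℕ) rk23_17 i (by omega) (by omega)
  exact allR_spec _ (294912 : ℕ) (12024 : ℕ) rk23_18 i (by omega) (by omega)
theorem rk24 : allR (ckComm T4 T8) (nat_lit 0) (nat_lit 306936) = true := by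
  apply allR_of_forall
  intro i hi
  have hi : i < 306936 := hi
  rcases Nat.lt_or_ge i 16384 with h0 | h0
  · exact allR_spec _ (0 : ℕ) (16384 : ℕ) rk24_0 i (by omega) (by omega)
  rcases Nat.lt_or_ge i 32768 with h1 | h1
  · exact allR_spec _ (16384 : ℕ) (16384 : ℕ) rk24_1 i (by omega) (by omega)
  rcases Nat.lt_or_ge i 49152 with h2 | h2
  · exact allR_spec _ (32768 : ℕ) (16384 : ℕ) rk24_2 i (by omega) (by omega)
  rcases Nat.lt_or_ge i 65536 with h3 | h3
  · exact allR_spec _ (49152 : ℕ) (16384 : ℕ) rk24_3 i (by omega) (by omega)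
  rcases Nat.lt_or_ge i 81920 with h4 | h4
  · exact allR_spec _ (65536 : ℕ) (16384 : ℕ) rk24_4 i (by omega) (by omega)
  rcases Nat.lt_or_ge i 98304 with h5 | h5
  · exact allR_spec _ (81920 : ℕ) (16384 : ℕ) rk24_5 i (by omega) (by omega)
  rcases Nat.lt_or_ge i 114688 with h6 | h6
  · exact allR_spec _ (98304 : ℕ) (16384 : ℕ) rk24_6 i (by omega) (by omega)
  rcases Nat.lt_or_ge i 131072 with h7 | h7
  · exact allR_spec _ (114688 : ℕ) (16384 : ℕ) rk24_7 i (by omega) (by omega)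
  rcases Nat.lt_or_ge i 147456 with h8 | h8
  · exact allR_spec _ (131072 : ℕ) (16384 : ℕ) rk24_8 i (by omega) (by omega)
  rcases Nat.lt_or_ge i 163840 with h9 | h9
  · exact allR_spec _ (147456 : ℕ) (16384 : ℕ) rk24_9 i (by omega) (by omega)
  rcases Nat.lt_or_ge i 180224 with h10 | h10
  · exact allR_spec _ (163840 : ℕ) (16384 : ℕ) rk24_10 i (by omega) (by omega)
  rcases Nat.lt_or_ge i 196608 with h11 | h11
  · exact allR_spec _ (180224 : ℕ) (16384 : ℕ) rk24_11 i (by omega) (by omega)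
  rcases Nat.lt_or_ge i 212992 with h12 | h12
  · exact allR_spec _ (196608 : ℕ) (16384 : ℕ) rk24_12 i (by omega) (by omega)
  rcases Nat.lt_or_ge i 229376 with h13 | h13
  · exact allR_spec _ (212992 : ℕ) (16384 : ℕ) rk24_13 i (by omega) (by omega)
  rcases Nat.lt_or_ge i 245760 with h14 | h14
  · exact allR_spec _ (229376 : ℕ) (16384 : ℕ) rk24_14 i (by omega) (by omega)
  rcases Nat.lt_or_ge i 262144 with h15 | h15
  · exact allR_spec _ (245760 : ℕ) (16384 : ℕ) rk24_15 i (by omega) (by omega)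
  rcases Nat.lt_or_ge i 278528 with h16 | h16
  · exact allR_spec _ (262144 : ℕ) (16384 : ℕ) rk24_16 i (by omega) (by omega)
  rcases Nat.lt_or_ge i 294912 with h17 | h17
  · exact allR_spec _ (278528 : ℕ) (16384 : ℕ) rk24_17 i (by omega) (by omega)
  exact allR_spec _ (294912 : ℕ) (12024 : ℕ) rk24_18 i (by omega) (by omega)
theorem rk25 : allR (ckComm T4 T10) (nat_lit 0) (nat_lit 306936) = true := by
  apply allR_of_forall
  intro i hi
  have hi : i < 306936 := hi
  rcases Nat.lt_or_ge i 16384 with h0 | h0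
  · exact allR_spec _ (0 : ℕ) (16384 : ℕ) rk25_0 i (by omega) (by omega)
  rcases Nat.lt_or_ge i 32768 with h1 | h1
  · exact allR_spec _ (16384 : ℕ) (16384 : ℕ) rk25_1 i (by omega) (by omega)
  rcases Nat.lt_or_ge i 49152 with h2 | h2
  · exact allR_spec _ (32768 : ℕ) (16384 : ℕ) rk25_2 i (by omega) (by omega)
  rcases Nat.lt_or_ge i 65536 with h3 | h3
  · exact allR_spec _ (49152 : ℕ) (16384 : ℕ) rk25_3 i (by omega) (by omega)
  rcases Nat.lt_or_ge i 81920 with h4 | h4
  · exact allR_spec _ (65536 : ℕ) (16384 : ℕ) rk25_4 i (by omega) (by omega)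
  rcases Nat.lt_or_ge i 98304 with h5 | h5
  · exact allR_spec _ (81920 : ℕ) (16384 : ℕ) rk25_5 i (by omega) (by omega)
  rcases Nat.lt_or_ge i 114688 with h6 | h6
  · exact allR_spec _ (98304 : ℕ) (16384 : ℕ) rk25_6 i (by omega) (by omega)
  rcases Nat.lt_or_ge i 131072 with h7 | h7
  · exact allR_spec _ (114688 : ℕ) (16384 : ℕ) rk25_7 i (by omega) (by omega)
  rcases Nat.lt_or_ge i 147456 with h8 | h8
  · exact allR_spec _ (131072 : ℕ) (16384 : ℕ) rk25_8 i (by omega) (by omega)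
  rcases Nat.lt_or_ge i 163840 with h9 | h9
  · exact allR_spec _ (147456 : ℕ) (16384 : ℕ) rk25_9 i (by omega) (by omega)
  rcases Nat.lt_or_ge i 180224 with h10 | h10
  · exact allR_spec _ (163840 : ℕ) (16384 : ℕ) rk25_10 i (by omega) (by omega)
  rcases Nat.lt_or_ge i 196608 with h11 | h11
  · exact allR_spec _ (180224 : ℕ) (16384 : ℕ) rk25_11 i (by omega) (by omega)
  rcases Nat.lt_or_ge i 212992 with h12 | h12
  · exact allR_spec _ (196608 : ℕ) (16384 : ℕ) rk25_12 i (by omega) (by omega)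
  rcases Nat.lt_or_ge i 229376 with h13 | h13
  · exact allR_spec _ (212992 : ℕ) (16384 : ℕ) rk25_13 i (by omega) (by omega)
  rcases Nat.lt_or_ge i 245760 with h14 | h14
  · exact allR_spec _ (229376 : ℕ) (16384 : ℕ) rk25_14 i (by omega) (by omega)
  rcases Nat.lt_or_ge i 262144 with h15 | h15
  · exact allR_spec _ (245760 : ℕ) (16384 : ℕ) rk25_15 i (by omega) (by omega)
  rcases Nat.lt_or_ge i 278528 with h16 | h16
  · exact allR_spec _ (262144 : ℕ) (16384 : ℕ) rk25_16 i (by omega) (by omega)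
  rcases Nat.lt_or_ge i 294912 with h17 | h17
  · exact allR_spec _ (278528 : ℕ) (16384 : ℕ) rk25_17 i (by omega) (by omega)
  exact allR_spec _ (294912 : ℕ) (12024 : ℕ) rk25_18 i (by omega) (by omega)
theorem rk26 : allR (ckComm T4 T11) (nat_lit 0) (nat_lit 306936) = true := by
  apply allR_of_forall
  intro i hi
  have hi : i < 306936 := hi
  rcases Nat.lt_or_ge i 16384 with h0 | h0
  · exact allR_spec _ (0 : ℕ) (16384 : ℕ) rk26_0 i (by omega) (by omega)
  rcases Nat.lt_or_ge i 32768 with h1 | h1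
  · exact allR_spec _ (16384 : ℕ) (16384 : ℕ) rk26_1 i (by omega) (by omega)
  rcases Nat.lt_or_ge i 49152 with h2 | h2
  · exact allR_spec _ (32768 : ℕ) (16384 : ℕ) rk26_2 i (by omega) (by omega)
  rcases Nat.lt_or_ge i 65536 with h3 | h3
  · exact allR_spec _ (49152 : ℕ) (16384 : ℕ) rk26_3 i (by omega) (by omega)
  rcases Nat.lt_or_ge i 81920 with h4 | h4
  · exact allR_spec _ (65536 : ℕ) (16384 : ℕ) rk26_4 i (by omega) (by omega)
  rcases Nat.lt_or_ge i 98304 with h5 | h5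
  · exact allR_spec _ (81920 : ℕ) (16384 : ℕ) rk26_5 i (by omega) (by omega)
  rcases Nat.lt_or_ge i 114688 with h6 | h6
  · exact allR_spec _ (98304 : ℕ) (16384 : ℕ) rk26_6 i (by omega) (by omega)
  rcases Nat.lt_or_ge i 131072 with h7 | h7
  · exact allR_spec _ (114688 : ℕ) (16384 : ℕ) rk26_7 i (by omega) (by omega)
  rcases Nat.lt_or_ge i 147456 with h8 | h8
  · exact allR_spec _ (131072 : ℕ) (16384 : ℕ) rk26_8 i (by omega) (by omega)
  rcases Nat.lt_or_ge i 163840 with h9 | h9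
  · exact allR_spec _ (147456 : ℕ) (16384 : ℕ) rk26_9 i (by omega) (by omega)
  rcases Nat.lt_or_ge i 180224 with h10 | h10
  · exact allR_spec _ (163840 : ℕ) (16384 : ℕ) rk26_10 i (by omega) (by omega)
  rcases Nat.lt_or_ge i 196608 with h11 | h11
  · exact allR_spec _ (180224 : ℕ) (16384 : ℕ) rk26_11 i (by omega) (by omega)
  rcases Nat.lt_or_ge i 212992 with h12 | h12
  · exact allR_spec _ (196608 : ℕ) (16384 : ℕ) rk26_12 i (by omega) (by omega)
  rcases Nat.lt_or_ge i 229376 with h13 | h13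
  · exact allR_spec _ (212992 : ℕ) (16384 : ℕ) rk26_13 i (by omega) (by omega)
  rcases Nat.lt_or_ge i 245760 with h14 | h14
  · exact allR_spec _ (229376 : ℕ) (16384 : ℕ) rk26_14 i (by omega) (by omega)
  rcases Nat.lt_or_ge i 262144 with h15 | h15
  · exact allR_spec _ (245760 : ℕ) (16384 : ℕ) rk26_15 i (by omega) (by omega)
  rcases Nat.lt_or_ge i 278528 with h16 | h16
  · exact allR_spec _ (262144 : ℕ) (16384 : ℕ) rk26_16 i (by omega) (by omega)
  rcases Nat.lt_or_ge i 294912 with h17 | h17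
  · exact allR_spec _ (278528 : ℕ) (16384 : ℕ) rk26_17 i (by omega) (by omega)
  exact allR_spec _ (294912 : ℕ) (12024 : ℕ) rk26_18 i (by omega) (by omega)
theorem rk27 : allR (ckComm T4 T9) (nat_lit 0) (nat_lit 306936) = true := by
  apply allR_of_forall
  intro i hi
  have hi : i < 306936 := hi
  rcases Nat.lt_or_ge i 16384 with h0 | h0
  · exact allR_spec _ (0 : ℕ) (16384 : ℕ) rk27_0 i (by omega) (by omega)
  rcases Nat.lt_or_ge i 32768 with h1 | h1
  · exact allR_spec _ (16384 : ℕ) (16384 : ℕ) rk27_1 i (by omega) (by omega)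
  rcases Nat.lt_or_ge i 49152 with h2 | h2
  · exact allR_spec _ (32768 : ℕ) (16384 : ℕ) rk27_2 i (by omega) (by omega)
  rcases Nat.lt_or_ge i 65536 with h3 | h3
  · exact allR_spec _ (49152 : ℕ) (16384 : ℕ) rk27_3 i (by omega) (by omega)
  rcases Nat.lt_or_ge i 81920 with h4 | h4
  · exact allR_spec _ (65536 : ℕ) (16384 : ℕ) rk27_4 i (by omega) (by omega)
  rcases Nat.lt_or_ge i 98304 with h5 | h5
  · exact allR_spec _ (81920 : ℕ) (16384 : ℕ) rk27_5 i (by omega) (by omega)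
  rcases Nat.lt_or_ge i 114688 with h6 | h6
  · exact allR_spec _ (98304 : ℕ) (16384 : ℕ) rk27_6 i (by omega) (by omega)
  rcases Nat.lt_or_ge i 131072 with h7 | h7
  · exact allR_spec _ (114688 : ℕ) (16384 : ℕ) rk27_7 i (by omega) (by omega)
  rcases Nat.lt_or_ge i 147456 with h8 | h8
  · exact allR_spec _ (131072 : ℕ) (16384 : ℕ) rk27_8 i (by omega) (by omega)
  rcases Nat.lt_or_ge i 163840 with h9 | h9
  · exact allR_spec _ (147456 : ℕ) (16384 : ℕ) rk27_9 i (by omega) (by omega)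
  rcases Nat.lt_or_ge i 180224 with h10 | h10
  · exact allR_spec _ (163840 : ℕ) (16384 : ℕ) rk27_10 i (by omega) (by omega)
  rcases Nat.lt_or_ge i 196608 with h11 | h11
  · exact allR_spec _ (180224 : ℕ) (16384 : ℕ) rk27_11 i (by omega) (by omega)
  rcases Nat.lt_or_ge i 212992 with h12 | h12
  · exact allR_spec _ (196608 : ℕ) (16384 : ℕ) rk27_12 i (by omega) (by omega)
  rcases Nat.lt_or_ge i 229376 with h13 | h13
  · exact allR_spec _ (212992 : ℕ) (16384 : ℕ) rk27_13 i (by omega) (by omega)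
  rcases Nat.lt_or_ge i 245760 with h14 | h14
  · exact allR_spec _ (229376 : ℕ) (16384 : ℕ) rk27_14 i (by omega) (by omega)
  rcases Nat.lt_or_ge i 262144 with h15 | h15
  · exact allR_spec _ (245760 : ℕ) (16384 : ℕ) rk27_15 i (by omega) (by omega)
  rcases Nat.lt_or_ge i 278528 with h16 | h16
  · exact allR_spec _ (262144 : ℕ) (16384 : ℕ) rk27_16 i (by omega) (by omega)
  rcases Nat.lt_or_ge i 294912 with h17 | h17
  · exact allR_spec _ (278528 : ℕ) (16384 : ℕ) rk27_17 i (by omega) (by omega)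
  exact allR_spec _ (294912 : ℕ) (12024 : ℕ) rk27_18 i (by omega) (by omega)
theorem rk28 : allR (ckComm T4 T1) (nat_lit 0) (nat_lit 306936) = true := by
  apply allR_of_forall
  intro i hi
  have hi : i < 306936 := hi
  rcases Nat.lt_or_ge i 16384 with h0 | h0
  · exact allR_spec _ (0 : ℕ) (16384 : ℕ) rk28_0 i (by omega) (by omega)
  rcases Nat.lt_or_ge i 32768 with h1 | h1
  · exact allR_spec _ (16384 : ℕ) (16384 : ℕ) rk28_1 i (by omega) (by omega)
  rcases Nat.lt_or_ge i 49152 with h2 | h2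
  · exact allR_spec _ (32768 : ℕ) (16384 : ℕ) rk28_2 i (by omega) (by omega)
  rcases Nat.lt_or_ge i 65536 with h3 | h3
  · exact allR_spec _ (49152 : ℕ) (16384 : ℕ) rk28_3 i (by omega) (by omega)
  rcases Nat.lt_or_ge i 81920 with h4 | h4
  · exact allR_spec _ (65536 : ℕ) (16384 : ℕ) rk28_4 i (by omega) (by omega)
  rcases Nat.lt_or_ge i 98304 with h5 | h5
  · exact allR_spec _ (81920 : ℕ) (16384 : ℕ) rk28_5 i (by omega) (by omega)
  rcases Nat.lt_or_ge i 114688 with h6 | h6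
  · exact allR_spec _ (98304 : ℕ) (16384 : ℕ) rk28_6 i (by omega) (by omega)
  rcases Nat.lt_or_ge i 131072 with h7 | h7
  · exact allR_spec _ (114688 : ℕ) (16384 : ℕ) rk28_7 i (by omega) (by omega)
  rcases Nat.lt_or_ge i 147456 with h8 | h8
  · exact allR_spec _ (131072 : ℕ) (16384 : ℕ) rk28_8 i (by omega) (by omega)
  rcases Nat.lt_or_ge i 163840 with h9 | h9
  · exact allR_spec _ (147456 : ℕ) (16384 : ℕ) rk28_9 i (by omega) (by omega)
  rcases Nat.lt_or_ge i 180224 with h10 | h10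
  · exact allR_spec _ (163840 : ℕ) (16384 : ℕ) rk28_10 i (by omega) (by omega)
  rcases Nat.lt_or_ge i 196608 with h11 | h11
  · exact allR_spec _ (180224 : ℕ) (16384 : ℕ) rk28_11 i (by omega) (by omega)
  rcases Nat.lt_or_ge i 212992 with h12 | h12
  · exact allR_spec _ (196608 : ℕ) (16384 : ℕ) rk28_12 i (by omega) (by omega)
  rcases Nat.lt_or_ge i 229376 with h13 | h13
  · exact allR_spec _ (212992 : ℕ) (16384 : ℕ) rk28_13 i (by omega) (by omega)
  rcases Nat.lt_or_ge i 245760 with h14 | h14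
  · exact allR_spec _ (229376 : ℕ) (16384 : ℕ) rk28_14 i (by omega) (by omega)
  rcases Nat.lt_or_ge i 262144 with h15 | h15
  · exact allR_spec _ (245760 : ℕ) (16384 : ℕ) rk28_15 i (by omega) (by omega)
  rcases Nat.lt_or_ge i 278528 with h16 | h16
  · exact allR_spec _ (262144 : ℕ) (16384 : ℕ) rk28_16 i (by omega) (by omega)
  rcases Nat.lt_or_ge i 294912 with h17 | h17
  · exact allR_spec _ (278528 : ℕ) (16384 : ℕ) rk28_17 i (by omega) (by omega)
  exact allR_spec _ (294912 : ℕ) (12024 : ℕ) rk28_18 i (by omega) (by omega)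
theorem rk29 : allR (ckComm T4 T0) (nat_lit 0) (nat_lit 306936) = true := by
  apply allR_of_forall
  intro i hi
  have hi : i < 306936 := hi
  rcases Nat.lt_or_ge i 16384 with h0 | h0
  · exact allR_spec _ (0 : ℕ) (16384 : ℕ) rk29_0 i (by omega) (by omega)
  rcases Nat.lt_or_ge i 32768 with h1 | h1
  · exact allR_spec _ (16384 : ℕ) (16384 : ℕ) rk29_1 i (by omega) (by omega)
  rcases Nat.lt_or_ge i 49152 with h2 | h2
  · exact allR_spec _ (32768 : ℕ) (16384 : ℕ) rk29_2 i (by omega) (by omega)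
  rcases Nat.lt_or_ge i 65536 with h3 | h3
  · exact allR_spec _ (49152 : ℕ) (16384 : ℕ) rk29_3 i (by omega) (by omega)
  rcases Nat.lt_or_ge i 81920 with h4 | h4
  · exact allR_spec _ (65536 : ℕ) (16384 : ℕ) rk29_4 i (by omega) (by omega)
  rcases Nat.lt_or_ge i 98304 with h5 | h5
  · exact allR_spec _ (81920 : ℕ) (16384 : ℕ) rk29_5 i (by omega) (by omega)
  rcases Nat.lt_or_ge i 114688 with h6 | h6
  · exact allR_spec _ (98304 : ℕ) (16384 : ℕ) rk29_6 i (by omega) (by omega)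
  rcases Nat.lt_or_ge i 131072 with h7 | h7
  · exact allR_spec _ (114688 : ℕ) (16384 : ℕ) rk29_7 i (by omega) (by omega)
  rcases Nat.lt_or_ge i 147456 with h8 | h8
  · exact allR_spec _ (131072 : ℕ) (16384 : ℕ) rk29_8 i (by omega) (by omega)
  rcases Nat.lt_or_ge i 163840 with h9 | h9
  · exact allR_spec _ (147456 : ℕ) (16384 : ℕ) rk29_9 i (by omega) (by omega)
  rcases Nat.lt_or_ge i 180224 with h10 | h10
  · exact allR_spec _ (163840 : ℕ) (16384 : ℕ) rk29_10 i (by omega) (by omega)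
  rcases Nat.lt_or_ge i 196608 with h11 | h11
  · exact allR_spec _ (180224 : ℕ) (16384 : ℕ) rk29_11 i (by omega) (by omega)
  rcases Nat.lt_or_ge i 212992 with h12 | h12
  · exact allR_spec _ (196608 : ℕ) (16384 : ℕ) rk29_12 i (by omega) (by omega)
  rcases Nat.lt_or_ge i 229376 with h13 | h13
  · exact allR_spec _ (212992 : ℕ) (16384 : ℕ) rk29_13 i (by omega) (by omega)
  rcases Nat.lt_or_ge i 245760 with h14 | h14
  · exact allR_spec _ (229376 : ℕ) (16384 : ℕ) rk29_14 i (by omega) (by omega)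
  rcases Nat.lt_or_ge i 262144 with h15 | h15
  · exact allR_spec _ (245760 : ℕ) (16384 : ℕ) rk29_15 i (by omega) (by omega)
  rcases Nat.lt_or_ge i 278528 with h16 | h16
  · exact allR_spec _ (262144 : ℕ) (16384 : ℕ) rk29_16 i (by omega) (by omega)
  rcases Nat.lt_or_ge i 294912 with h17 | h17
  · exact allR_spec _ (278528 : ℕ) (16384 : ℕ) rk29_17 i (by omega) (by omega)
  exact allR_spec _ (294912 : ℕ) (12024 : ℕ) rk29_18 i (by omega) (by omega)
theorem rk30 : allR (fun i => powT [T5, T6] i (nat_lit 3) i) (nat_lit 0) (nat_lit 306936) = true := by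
  apply allR_of_forall
  intro i hi
  have hi : i < 306936 := hi
  rcases Nat.lt_or_ge i 16384 with h0 | h0
  · exact allR_spec _ (0 : ℕ) (16384 : ℕ) rk30_0 i (by omega) (by omega)
  rcases Nat.lt_or_ge i 32768 with h1 | h1
  · exact allR_spec _ (16384 : ℕ) (16384 : ℕ) rk30_1 i (by omega) (by omega)
  rcases Nat.lt_or_ge i 49152 with h2 | h2
  · exact allR_spec _ (32768 : ℕ) (16384 : ℕ) rk30_2 i (by omega) (by omega)
  rcases Nat.lt_or_ge i 65536 with h3 | h3
  · exact allR_spec _ (49152 : ℕ) (16384 : ℕ) rk30_3 i (by omega) (by omega)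
  rcases Nat.lt_or_ge i 81920 with h4 | h4
  · exact allR_spec _ (65536 : ℕ) (16384 : ℕ) rk30_4 i (by omega) (by omega)
  rcases Nat.lt_or_ge i 98304 with h5 | h5
  · exact allR_spec _ (81920 : ℕ) (16384 : ℕ) rk30_5 i (by omega) (by omega)
  rcases Nat.lt_or_ge i 114688 with h6 | h6
  · exact allR_spec _ (98304 : ℕ) (16384 : ℕ) rk30_6 i (by omega) (by omega)
  rcases Nat.lt_or_ge i 131072 with h7 | h7
  · exact allR_spec _ (114688 : ℕ) (16384 : ℕ) rk30_7 i (by omega) (by omega)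
  rcases Nat.lt_or_ge i 147456 with h8 | h8
  · exact allR_spec _ (131072 : ℕ) (16384 : ℕ) rk30_8 i (by omega) (by omega)
  rcases Nat.lt_or_ge i 163840 with h9 | h9
  · exact allR_spec _ (147456 : ℕ) (16384 : ℕ) rk30_9 i (by omega) (by omega)
  rcases Nat.lt_or_ge i 180224 with h10 | h10
  · exact allR_spec _ (163840 : ℕ) (16384 : ℕ) rk30_10 i (by omega) (by omega)
  rcases Nat.lt_or_ge i 196608 with h11 | h11
  · exact allR_spec _ (180224 : ℕ) (16384 : ℕ) rk30_11 i (by omega) (by omega)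
  rcases Nat.lt_or_ge i 212992 with h12 | h12
  · exact allR_spec _ (196608 : ℕ) (16384 : ℕ) rk30_12 i (by omega) (by omega)
  rcases Nat.lt_or_ge i 229376 with h13 | h13
  · exact allR_spec _ (212992 : ℕ) (16384 : ℕ) rk30_13 i (by omega) (by omega)
  rcases Nat.lt_or_ge i 245760 with h14 | h14
  · exact allR_spec _ (229376 : ℕ) (16384 : ℕ) rk30_14 i (by omega) (by omega)
  rcases Nat.lt_or_ge i 262144 with h15 | h15
  · exact allR_spec _ (245760 : ℕ) (16384 : ℕ) rk30_15 i (by omega) (by omega)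
  rcases Nat.lt_or_ge i 278528 with h16 | h16
  · exact allR_spec _ (262144 : ℕ) (16384 : ℕ) rk30_16 i (by omega) (by omega)
  rcases Nat.lt_or_ge i 294912 with h17 | h17
  · exact allR_spec _ (278528 : ℕ) (16384 : ℕ) rk30_17 i (by omega) (by omega)
  exact allR_spec _ (294912 : ℕ) (12024 : ℕ) rk30_18 i (by omega) (by omega)
theorem rk31 : allR (ckComm T5 T7) (nat_lit 0) (nat_lit 306936) = true := by
  apply allR_of_forall
  intro i hi
  have hi : i < 306936 := hi
  rcases Nat.lt_or_ge i 16384 with h0 | h0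
  · exact allR_spec _ (0 : ℕ) (16384 : ℕ) rk31_0 i (by omega) (by omega)
  rcases Nat.lt_or_ge i 32768 with h1 | h1
  · exact allR_spec _ (16384 : ℕ) (16384 : ℕ) rk31_1 i (by omega) (by omega)
  rcases Nat.lt_or_ge i 49152 with h2 | h2
  · exact allR_spec _ (32768 : ℕ) (16384 : ℕ) rk31_2 i (by omega) (by omega)
  rcases Nat.lt_or_ge i 65536 with h3 | h3
  · exact allR_spec _ (49152 : ℕ) (16384 : ℕ) rk31_3 i (by omega) (by omega)
  rcases Nat.lt_or_ge i 81920 with h4 | h4
  · exact allR_spec _ (65536 : ℕ) (16384 : ℕ) rk31_4 i (by omega) (by omega)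
  rcases Nat.lt_or_ge i 98304 with h5 | h5
  · exact allR_spec _ (81920 : ℕ) (16384 : ℕ) rk31_5 i (by omega) (by omega)
  rcases Nat.lt_or_ge i 114688 with h6 | h6
  · exact allR_spec _ (98304 : ℕ) (16384 : ℕ) rk31_6 i (by omega) (by omega)
  rcases Nat.lt_or_ge i 131072 with h7 | h7
  · exact allR_spec _ (114688 : ℕ) (16384 : ℕ) rk31_7 i (by omega) (by omega)
  rcases Nat.lt_or_ge i 147456 with h8 | h8
  · exact allR_spec _ (131072 : ℕ) (16384 : ℕ) rk31_8 i (by omega) (by omega)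
  rcases Nat.lt_or_ge i 163840 with h9 | h9
  · exact allR_spec _ (147456 : ℕ) (16384 : ℕ) rk31_9 i (by omega) (by omega)
  rcases Nat.lt_or_ge i 180224 with h10 | h10
  · exact allR_spec _ (163840 : ℕ) (16384 : ℕ) rk31_10 i (by omega) (by omega)
  rcases Nat.lt_or_ge i 196608 with h11 | h11
  · exact allR_spec _ (180224 : ℕ) (16384 : ℕ) rk31_11 i (by omega) (by omega)
  rcases Nat.lt_or_ge i 212992 with h12 | h12
  · exact allR_spec _ (196608 : ℕ) (16384 : ℕ) rk31_12 i (by omega) (by omega)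
  rcases Nat.lt_or_ge i 229376 with h13 | h13
  · exact allR_spec _ (212992 : ℕ) (16384 : ℕ) rk31_13 i (by omega) (by omega)
  rcases Nat.lt_or_ge i 245760 with h14 | h14
  · exact allR_spec _ (229376 : ℕ) (16384 : ℕ) rk31_14 i (by omega) (by omega)
  rcases Nat.lt_or_ge i 262144 with h15 | h15
  · exact allR_spec _ (245760 : ℕ) (16384 : ℕ) rk31_15 i (by omega) (by omega)
  rcases Nat.lt_or_ge i 278528 with h16 | h16
  · exact allR_spec _ (262144 : ℕ) (16384 : ℕ) rk31_16 i (by omega) (by omega)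
  rcases Nat.lt_or_ge i 294912 with h17 | h17
  · exact allR_spec _ (278528 : ℕ) (16384 : ℕ) rk31_17 i (by omega) (by omega)
  exact allR_spec _ (294912 : ℕ) (12024 : ℕ) rk31_18 i (by omega) (by omega)
theorem rk32 : allR (ckComm T5 T8) (nat_lit 0) (nat_lit 306936) = true := by
  apply allR_of_forall
  intro i hi
  have hi : i < 306936 := hi
  rcases Nat.lt_or_ge i 16384 with h0 | h0
  · exact allR_spec _ (0 : ℕ) (16384 : ℕ) rk32_0 i (by omega) (by omega)
  rcases Nat.lt_or_ge i 32768 with h1 | h1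
  · exact allR_spec _ (16384 : ℕ) (16384 : ℕ) rk32_1 i (by omega) (by omega)
  rcases Nat.lt_or_ge i 49152 with h2 | h2
  · exact allR_spec _ (32768 : ℕ) (16384 : ℕ) rk32_2 i (by omega) (by omega)
  rcases Nat.lt_or_ge i 65536 with h3 | h3
  · exact allR_spec _ (49152 : ℕ) (16384 : ℕ) rk32_3 i (by omega) (by omega)
  rcases Nat.lt_or_ge i 81920 with h4 | h4
  · exact allR_spec _ (65536 : ℕ) (16384 : ℕ) rk32_4 i (by omega) (by omega)
  rcases Nat.lt_or_ge i 98304 with h5 | h5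
  · exact allR_spec _ (81920 : ℕ) (16384 : ℕ) rk32_5 i (by omega) (by omega)
  rcases Nat.lt_or_ge i 114688 with h6 | h6
  · exact allR_spec _ (98304 : ℕ) (16384 : ℕ) rk32_6 i (by omega) (by omega)
  rcases Nat.lt_or_ge i 131072 with h7 | h7
  · exact allR_spec _ (114688 : ℕ) (16384 : ℕ) rk32_7 i (by omega) (by omega)
  rcases Nat.lt_or_ge i 147456 with h8 | h8
  · exact allR_spec _ (131072 : ℕ) (16384 : ℕ) rk32_8 i (by omega) (by omega)
  rcases Nat.lt_or_ge i 163840 with h9 | h9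
  · exact allR_spec _ (147456 : ℕ) (16384 : ℕ) rk32_9 i (by omega) (by omega)
  rcases Nat.lt_or_ge i 180224 with h10 | h10
  · exact allR_spec _ (163840 : ℕ) (16384 : ℕ) rk32_10 i (by omega) (by omega)
  rcases Nat.lt_or_ge i 196608 with h11 | h11
  · exact allR_spec _ (180224 : ℕ) (16384 : ℕ) rk32_11 i (by omega) (by omega)
  rcases Nat.lt_or_ge i 212992 with h12 | h12
  · exact allR_spec _ (196608 : ℕ) (16384 : ℕ) rk32_12 i (by omega) (by omega)
  rcases Nat.lt_or_ge i 229376 with h13 | h13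
  · exact allR_spec _ (212992 : ℕ) (16384 : ℕ) rk32_13 i (by omega) (by omega)
  rcases Nat.lt_or_ge i 245760 with h14 | h14
  · exact allR_spec _ (229376 : ℕ) (16384 : ℕ) rk32_14 i (by omega) (by omega)
  rcases Nat.lt_or_ge i 262144 with h15 | h15
  · exact allR_spec _ (245760 : ℕ) (16384 : ℕ) rk32_15 i (by omega) (by omega)
  rcases Nat.lt_or_ge i 278528 with h16 | h16
  · exact allR_spec _ (262144 : ℕ) (16384 : ℕ) rk32_16 i (by omega) (by omega)
  rcases Nat.lt_or_ge i 294912 with h17 | h17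
  · exact allR_spec _ (278528 : ℕ) (16384 : ℕ) rk32_17 i (by omega) (by omega)
  exact allR_spec _ (294912 : ℕ) (12024 : ℕ) rk32_18 i (by omega) (by omega)
theorem rk33 : allR (fun i => powT [T5, T10] i (nat_lit 3) i) (nat_lit 0) (nat_lit 306936) = true := by
  apply allR_of_forall
  intro i hi
  have hi : i < 306936 := hi
  rcases Nat.lt_or_ge i 16384 with h0 | h0
  · exact allR_spec _ (0 : ℕ) (16384 : ℕ) rk33_0 i (by omega) (by omega)
  rcases Nat.lt_or_ge i 32768 with h1 | h1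
  · exact allR_spec _ (16384 : ℕ) (16384 : ℕ) rk33_1 i (by omega) (by omega)
  rcases Nat.lt_or_ge i 49152 with h2 | h2
  · exact allR_spec _ (32768 : ℕ) (16384 : ℕ) rk33_2 i (by omega) (by omega)
  rcases Nat.lt_or_ge i 65536 with h3 | h3
  · exact allR_spec _ (49152 : ℕ) (16384 : ℕ) rk33_3 i (by omega) (by omega)
  rcases Nat.lt_or_ge i 81920 with h4 | h4
  · exact allR_spec _ (65536 : ℕ) (16384 : ℕ) rk33_4 i (by omega) (by omega)
  rcases Nat.lt_or_ge i 98304 with h5 | h5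
  · exact allR_spec _ (81920 : ℕ) (16384 : ℕ) rk33_5 i (by omega) (by omega)
  rcases Nat.lt_or_ge i 114688 with h6 | h6
  · exact allR_spec _ (98304 : ℕ) (16384 : ℕ) rk33_6 i (by omega) (by omega)
  rcases Nat.lt_or_ge i 131072 with h7 | h7
  · exact allR_spec _ (114688 : ℕ) (16384 : ℕ) rk33_7 i (by omega) (by omega)
  rcases Nat.lt_or_ge i 147456 with h8 | h8
  · exact allR_spec _ (131072 : ℕ) (16384 : ℕ) rk33_8 i (by omega) (by omega)
  rcases Nat.lt_or_ge i 163840 with h9 | h9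
  · exact allR_spec _ (147456 : ℕ) (16384 : ℕ) rk33_9 i (by omega) (by omega)
  rcases Nat.lt_or_ge i 180224 with h10 | h10
  · exact allR_spec _ (163840 : ℕ) (16384 : ℕ) rk33_10 i (by omega) (by omega)
  rcases Nat.lt_or_ge i 196608 with h11 | h11
  · exact allR_spec _ (180224 : ℕ) (16384 : ℕ) rk33_11 i (by omega) (by omega)
  rcases Nat.lt_or_ge i 212992 with h12 | h12
  · exact allR_spec _ (196608 : ℕ) (16384 : ℕ) rk33_12 i (by omega) (by omega)
  rcases Nat.lt_or_ge i 229376 with h13 | h13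
  · exact allR_spec _ (212992 : ℕ) (16384 : ℕ) rk33_13 i (by omega) (by omega)
  rcases Nat.lt_or_ge i 245760 with h14 | h14
  · exact allR_spec _ (229376 : ℕ) (16384 : ℕ) rk33_14 i (by omega) (by omega)
  rcases Nat.lt_or_ge i 262144 with h15 | h15
  · exact allR_spec _ (245760 : ℕ) (16384 : ℕ) rk33_15 i (by omega) (by omega)
  rcases Nat.lt_or_ge i 278528 with h16 | h16
  · exact allR_spec _ (262144 : ℕ) (16384 : ℕ) rk33_16 i (by omega) (by omega)
  rcases Nat.lt_or_ge i 294912 with h17 | h17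
  · exact allR_spec _ (278528 : ℕ) (16384 : ℕ) rk33_17 i (by omega) (by omega)
  exact allR_spec _ (294912 : ℕ) (12024 : ℕ) rk33_18 i (by omega) (by omega)
theorem rk34 : allR (ckComm T5 T11) (nat_lit 0) (nat_lit 306936) = true := by
  apply allR_of_forall
  intro i hi
  have hi : i < 306936 := hi
  rcases Nat.lt_or_ge i 16384 with h0 | h0
  · exact allR_spec _ (0 : ℕ) (16384 : ℕ) rk34_0 i (by omega) (by omega)
  rcases Nat.lt_or_ge i 32768 with h1 | h1
  · exact allR_spec _ (16384 : ℕ) (16384 : ℕ) rk34_1 i (by omega) (by omega)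
  rcases Nat.lt_or_ge i 49152 with h2 | h2
  · exact allR_spec _ (32768 : ℕ) (16384 : ℕ) rk34_2 i (by omega) (by omega)
  rcases Nat.lt_or_ge i 65536 with h3 | h3
  · exact allR_spec _ (49152 : ℕ) (16384 : ℕ) rk34_3 i (by omega) (by omega)
  rcases Nat.lt_or_ge i 81920 with h4 | h4
  · exact allR_spec _ (65536 : ℕ) (16384 : ℕ) rk34_4 i (by omega) (by omega)
  rcases Nat.lt_or_ge i 98304 with h5 | h5
  · exact allR_spec _ (81920 : ℕ) (16384 : ℕ) rk34_5 i (by omega) (by omega)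
  rcases Nat.lt_or_ge i 114688 with h6 | h6
  · exact allR_spec _ (98304 : ℕ) (16384 : ℕ) rk34_6 i (by omega) (by omega)
  rcases Nat.lt_or_ge i 131072 with h7 | h7
  · exact allR_spec _ (114688 : ℕ) (16384 : ℕ) rk34_7 i (by omega) (by omega)
  rcases Nat.lt_or_ge i 147456 with h8 | h8
  · exact allR_spec _ (131072 : ℕ) (16384 : ℕ) rk34_8 i (by omega) (by omega)
  rcases Nat.lt_or_ge i 163840 with h9 | h9
  · exact allR_spec _ (147456 : ℕ) (16384 : ℕ) rk34_9 i (by omega) (by omega)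
  rcases Nat.lt_or_ge i 180224 with h10 | h10
  · exact allR_spec _ (163840 : ℕ) (16384 : ℕ) rk34_10 i (by omega) (by omega)
  rcases Nat.lt_or_ge i 196608 with h11 | h11
  · exact allR_spec _ (180224 : ℕ) (16384 : ℕ) rk34_11 i (by omega) (by omega)
  rcases Nat.lt_or_ge i 212992 with h12 | h12
  · exact allR_spec _ (196608 : ℕ) (16384 : ℕ) rk34_12 i (by omega) (by omega)
  rcases Nat.lt_or_ge i 229376 with h13 | h13
  · exact allR_spec _ (212992 : ℕ) (16384 : ℕ) rk34_13 i (by omega) (by omega)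
  rcases Nat.lt_or_ge i 245760 with h14 | h14
  · exact allR_spec _ (229376 : ℕ) (16384 : ℕ) rk34_14 i (by omega) (by omega)
  rcases Nat.lt_or_ge i 262144 with h15 | h15
  · exact allR_spec _ (245760 : ℕ) (16384 : ℕ) rk34_15 i (by omega) (by omega)
  rcases Nat.lt_or_ge i 278528 with h16 | h16
  · exact allR_spec _ (262144 : ℕ) (16384 : ℕ) rk34_16 i (by omega) (by omega)
  rcases Nat.lt_or_ge i 294912 with h17 | h17
  · exact allR_spec _ (278528 : ℕ) (16384 : ℕ) rk34_17 i (by omega) (by omega)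
  exact allR_spec _ (294912 : ℕ) (12024 : ℕ) rk34_18 i (by omega) (by omega)
theorem rk35 : allR (ckComm T5 T9) (nat_lit 0) (nat_lit 306936) = true := by
  apply allR_of_forall
  intro i hi
  have hi : i < 306936 := hi
  rcases Nat.lt_or_ge i 16384 with h0 | h0
  · exact allR_spec _ (0 : ℕ) (16384 : ℕ) rk35_0 i (by omega) (by omega)
  rcases Nat.lt_or_ge i 32768 with h1 | h1
  · exact allR_spec _ (16384 : ℕ) (16384 : ℕ) rk35_1 i (by omega) (by omega)
  rcases Nat.lt_or_ge i 49152 with h2 | h2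
  · exact allR_spec _ (32768 : ℕ) (16384 : ℕ) rk35_2 i (by omega) (by omega)
  rcases Nat.lt_or_ge i 65536 with h3 | h3
  · exact allR_spec _ (49152 : ℕ) (16384 : ℕ) rk35_3 i (by omega) (by omega)
  rcases Nat.lt_or_ge i 81920 with h4 | h4
  · exact allR_spec _ (65536 : ℕ) (16384 : ℕ) rk35_4 i (by omega) (by omega)
  rcases Nat.lt_or_ge i 98304 with h5 | h5
  · exact allR_spec _ (81920 : ℕ) (16384 : ℕ) rk35_5 i (by omega) (by omega)
  rcases Nat.lt_or_ge i 114688 with h6 | h6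
  · exact allR_spec _ (98304 : ℕ) (16384 : ℕ) rk35_6 i (by omega) (by omega)
  rcases Nat.lt_or_ge i 131072 with h7 | h7
  · exact allR_spec _ (114688 : ℕ) (16384 : ℕ) rk35_7 i (by omega) (by omega)
  rcases Nat.lt_or_ge i 147456 with h8 | h8
  · exact allR_spec _ (131072 : ℕ) (16384 : ℕ) rk35_8 i (by omega) (by omega)
  rcases Nat.lt_or_ge i 163840 with h9 | h9
  · exact allR_spec _ (147456 : ℕ) (16384 : ℕ) rk35_9 i (by omega) (by omega)
  rcases Nat.lt_or_ge i 180224 with h10 | h10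
  · exact allR_spec _ (163840 : ℕ) (16384 : ℕ) rk35_10 i (by omega) (by omega)
  rcases Nat.lt_or_ge i 196608 with h11 | h11
  · exact allR_spec _ (180224 : ℕ) (16384 : ℕ) rk35_11 i (by omega) (by omega)
  rcases Nat.lt_or_ge i 212992 with h12 | h12
  · exact allR_spec _ (196608 : ℕ) (16384 : ℕ) rk35_12 i (by omega) (by omega)
  rcases Nat.lt_or_ge i 229376 with h13 | h13
  · exact allR_spec _ (212992 : ℕ) (16384 : ℕ) rk35_13 i (by omega) (by omega)
  rcases Nat.lt_or_ge i 245760 with h14 | h14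
  · exact allR_spec _ (229376 : ℕ) (16384 : ℕ) rk35_14 i (by omega) (by omega)
  rcases Nat.lt_or_ge i 262144 with h15 | h15
  · exact allR_spec _ (245760 : ℕ) (16384 : ℕ) rk35_15 i (by omega) (by omega)
  rcases Nat.lt_or_ge i 278528 with h16 | h16
  · exact allR_spec _ (262144 : ℕ) (16384 : ℕ) rk35_16 i (by omega) (by omega)
  rcases Nat.lt_or_ge i 294912 with h17 | h17
  · exact allR_spec _ (278528 : ℕ) (16384 : ℕ) rk35_17 i (by omega) (by omega)
  exact allR_spec _ (294912 : ℕ) (12024 : ℕ) rk35_18 i (by omega) (by omega)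
theorem rk36 : allR (ckComm T5 T1) (nat_lit 0) (nat_lit 306936) = true := by
  apply allR_of_forall
  intro i hi
  have hi : i < 306936 := hi
  rcases Nat.lt_or_ge i 16384 with h0 | h0
  · exact allR_spec _ (0 : ℕ) (16384 : ℕ) rk36_0 i (by omega) (by omega)
  rcases Nat.lt_or_ge i 32768 with h1 | h1
  · exact allR_spec _ (16384 : ℕ) (16384 : ℕ) rk36_1 i (by omega) (by omega)
  rcases Nat.lt_or_ge i 49152 with h2 | h2
  · exact allR_spec _ (32768 : ℕ) (16384 : ℕ) rk36_2 i (by omega) (by omega)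
  rcases Nat.lt_or_ge i 65536 with h3 | h3
  · exact allR_spec _ (49152 : ℕ) (16384 : ℕ) rk36_3 i (by omega) (by omega)
  rcases Nat.lt_or_ge i 81920 with h4 | h4
  · exact allR_spec _ (65536 : ℕ) (16384 : ℕ) rk36_4 i (by omega) (by omega)
  rcases Nat.lt_or_ge i 98304 with h5 | h5
  · exact allR_spec _ (81920 : ℕ) (16384 : ℕ) rk36_5 i (by omega) (by omega)
  rcases Nat.lt_or_ge i 114688 with h6 | h6
  · exact allR_spec _ (98304 : ℕ) (16384 : ℕ) rk36_6 i (by omega) (by omega)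
  rcases Nat.lt_or_ge i 131072 with h7 | h7
  · exact allR_spec _ (114688 : ℕ) (16384 : ℕ) rk36_7 i (by omega) (by omega)
  rcases Nat.lt_or_ge i 147456 with h8 | h8
  · exact allR_spec _ (131072 : ℕ) (16384 : ℕ) rk36_8 i (by omega) (by omega)
  rcases Nat.lt_or_ge i 163840 with h9 | h9
  · exact allR_spec _ (147456 : ℕ) (16384 : ℕ) rk36_9 i (by omega) (by omega)
  rcases Nat.lt_or_ge i 180224 with h10 | h10
  · exact allR_spec _ (163840 : ℕ) (16384 : ℕ) rk36_10 i (by omega) (by omega)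
  rcases Nat.lt_or_ge i 196608 with h11 | h11
  · exact allR_spec _ (180224 : ℕ) (16384 : ℕ) rk36_11 i (by omega) (by omega)
  rcases Nat.lt_or_ge i 212992 with h12 | h12
  · exact allR_spec _ (196608 : ℕ) (16384 : ℕ) rk36_12 i (by omega) (by omega)
  rcases Nat.lt_or_ge i 229376 with h13 | h13
  · exact allR_spec _ (212992 : ℕ) (16384 : ℕ) rk36_13 i (by omega) (by omega)
  rcases Nat.lt_or_ge i 245760 with h14 | h14
  · exact allR_spec _ (229376 : ℕ) (16384 : ℕ) rk36_14 i (by omega) (by omega)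
  rcases Nat.lt_or_ge i 262144 with h15 | h15
  · exact allR_spec _ (245760 : ℕ) (16384 : ℕ) rk36_15 i (by omega) (by omega)
  rcases Nat.lt_or_ge i 278528 with h16 | h16
  · exact allR_spec _ (262144 : ℕ) (16384 : ℕ) rk36_16 i (by omega) (by omega)
  rcases Nat.lt_or_ge i 294912 with h17 | h17
  · exact allR_spec _ (278528 : ℕ) (16384 : ℕ) rk36_17 i (by omega) (by omega)
  exact allR_spec _ (294912 : ℕ) (12024 : ℕ) rk36_18 i (by omega) (by omega)
theorem rk37 : allR (ckComm T5 T0) (nat_lit 0) (nat_lit 306936) = true := by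
  apply allR_of_forall
  intro i hi
  have hi : i < 306936 := hi
  rcases Nat.lt_or_ge i 16384 with h0 | h0
  · exact allR_spec _ (0 : ℕ) (16384 : ℕ) rk37_0 i (by omega) (by omega)
  rcases Nat.lt_or_ge i 32768 with h1 | h1
  · exact allR_spec _ (16384 : ℕ) (16384 : ℕ) rk37_1 i (by omega) (by omega)
  rcases Nat.lt_or_ge i 49152 with h2 | h2
  · exact allR_spec _ (32768 : ℕ) (16384 : ℕ) rk37_2 i (by omega) (by omega)
  rcases Nat.lt_or_ge i 65536 with h3 | h3
  · exact allR_spec _ (49152 : ℕ) (16384 : ℕ) rk37_3 i (by omega) (by omega)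
  rcases Nat.lt_or_ge i 81920 with h4 | h4
  · exact allR_spec _ (65536 : ℕ) (16384 : ℕ) rk37_4 i (by omega) (by omega)
  rcases Nat.lt_or_ge i 98304 with h5 | h5
  · exact allR_spec _ (81920 : ℕ) (16384 : ℕ) rk37_5 i (by omega) (by omega)
  rcases Nat.lt_or_ge i 114688 with h6 | h6
  · exact allR_spec _ (98304 : ℕ) (16384 : ℕ) rk37_6 i (by omega) (by omega)
  rcases Nat.lt_or_ge i 131072 with h7 | h7
  · exact allR_spec _ (114688 : ℕ) (16384 : ℕ) rk37_7 i (by omega) (by omega)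
  rcases Nat.lt_or_ge i 147456 with h8 | h8
  · exact allR_spec _ (131072 : ℕ) (16384 : ℕ) rk37_8 i (by omega) (by omega)
  rcases Nat.lt_or_ge i 163840 with h9 | h9
  · exact allR_spec _ (147456 : ℕ) (16384 : ℕ) rk37_9 i (by omega) (by omega)
  rcases Nat.lt_or_ge i 180224 with h10 | h10
  · exact allR_spec _ (163840 : ℕ) (16384 : ℕ) rk37_10 i (by omega) (by omega)
  rcases Nat.lt_or_ge i 196608 with h11 | h11
  · exact allR_spec _ (180224 : ℕ) (16384 : ℕ) rk37_11 i (by omega) (by omega)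
  rcases Nat.lt_or_ge i 212992 with h12 | h12
  · exact allR_spec _ (196608 : ℕ) (16384 : ℕ) rk37_12 i (by omega) (by omega)
  rcases Nat.lt_or_ge i 229376 with h13 | h13
  · exact allR_spec _ (212992 : ℕ) (16384 : ℕ) rk37_13 i (by omega) (by omega)
  rcases Nat.lt_or_ge i 245760 with h14 | h14
  · exact allR_spec _ (229376 : ℕ) (16384 : ℕ) rk37_14 i (by omega) (by omega)
  rcases Nat.lt_or_ge i 262144 with h15 | h15
  · exact allR_spec _ (245760 : ℕ) (16384 : ℕ) rk37_15 i (by omega) (by omega)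
  rcases Nat.lt_or_ge i 278528 with h16 | h16
  · exact allR_spec _ (262144 : ℕ) (16384 : ℕ) rk37_16 i (by omega) (by omega)
  rcases Nat.lt_or_ge i 294912 with h17 | h17
  · exact allR_spec _ (278528 : ℕ) (16384 : ℕ) rk37_17 i (by omega) (by omega)
  exact allR_spec _ (294912 : ℕ) (12024 : ℕ) rk37_18 i (by omega) (by omega)
theorem rk38 : allR (fun i => powT [T6, T7] i (nat_lit 3) i) (nat_lit 0) (nat_lit 306936) = true := by
  apply allR_of_forall
  intro i hi
  have hi : i < 306936 := hi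
  rcases Nat.lt_or_ge i 16384 with h0 | h0
  · exact allR_spec _ (0 : ℕ) (16384 : ℕ) rk38_0 i (by omega) (by omega)
  rcases Nat.lt_or_ge i 32768 with h1 | h1
  · exact allR_spec _ (16384 : ℕ) (16384 : ℕ) rk38_1 i (by omega) (by omega)
  rcases Nat.lt_or_ge i 49152 with h2 | h2
  · exact allR_spec _ (32768 : ℕ) (16384 : ℕ) rk38_2 i (by omega) (by omega)
  rcases Nat.lt_or_ge i 65536 with h3 | h3
  · exact allR_spec _ (49152 : ℕ) (16384 : ℕ) rk38_3 i (by omega) (by omega)
  rcases Nat.lt_or_ge i 81920 with h4 | h4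
  · exact allR_spec _ (65536 : ℕ) (16384 : ℕ) rk38_4 i (by omega) (by omega)
  rcases Nat.lt_or_ge i 98304 with h5 | h5
  · exact allR_spec _ (81920 : ℕ) (16384 : ℕ) rk38_5 i (by omega) (by omega)
  rcases Nat.lt_or_ge i 114688 with h6 | h6
  · exact allR_spec _ (98304 : ℕ) (16384 : ℕ) rk38_6 i (by omega) (by omega)
  rcases Nat.lt_or_ge i 131072 with h7 | h7
  · exact allR_spec _ (114688 : ℕ) (16384 : ℕ) rk38_7 i (by omega) (by omega)
  rcases Nat.lt_or_ge i 147456 with h8 | h8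
  · exact allR_spec _ (131072 : ℕ) (16384 : ℕ) rk38_8 i (by omega) (by omega)
  rcases Nat.lt_or_ge i 163840 with h9 | h9
  · exact allR_spec _ (147456 : ℕ) (16384 : ℕ) rk38_9 i (by omega) (by omega)
  rcases Nat.lt_or_ge i 180224 with h10 | h10
  · exact allR_spec _ (163840 : ℕ) (16384 : ℕ) rk38_10 i (by omega) (by omega)
  rcases Nat.lt_or_ge i 196608 with h11 | h11
  · exact allR_spec _ (180224 : ℕ) (16384 : ℕ) rk38_11 i (by omega) (by omega)
  rcases Nat.lt_or_ge i 212992 with h12 | h12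
  · exact allR_spec _ (196608 : ℕ) (16384 : ℕ) rk38_12 i (by omega) (by omega)
  rcases Nat.lt_or_ge i 229376 with h13 | h13
  · exact allR_spec _ (212992 : ℕ) (16384 : ℕ) rk38_13 i (by omega) (by omega)
  rcases Nat.lt_or_ge i 245760 with h14 | h14
  · exact allR_spec _ (229376 : ℕ) (16384 : ℕ) rk38_14 i (by omega) (by omega)
  rcases Nat.lt_or_ge i 262144 with h15 | h15
  · exact allR_spec _ (245760 : ℕ) (16384 : ℕ) rk38_15 i (by omega) (by omega)
  rcases Nat.lt_or_ge i 278528 with h16 | h16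
  · exact allR_spec _ (262144 : ℕ) (16384 : ℕ) rk38_16 i (by omega) (by omega)
  rcases Nat.lt_or_ge i 294912 with h17 | h17
  · exact allR_spec _ (278528 : ℕ) (16384 : ℕ) rk38_17 i (by omega) (by omega)
  exact allR_spec _ (294912 : ℕ) (12024 : ℕ) rk38_18 i (by omega) (by omega)
theorem rk39 : allR (ckComm T6 T8) (nat_lit 0) (nat_lit 306936) = true := by
  apply allR_of_forall
  intro i hi
  have hi : i < 306936 := hi
  rcases Nat.lt_or_ge i 16384 with h0 | h0
  · exact allR_spec _ (0 : ℕ) (16384 : ℕ) rk39_0 i (by omega) (by omega)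
  rcases Nat.lt_or_ge i 32768 with h1 | h1
  · exact allR_spec _ (16384 : ℕ) (16384 : ℕ) rk39_1 i (by omega) (by omega)
  rcases Nat.lt_or_ge i 49152 with h2 | h2
  · exact allR_spec _ (32768 : ℕ) (16384 : ℕ) rk39_2 i (by omega) (by omega)
  rcases Nat.lt_or_ge i 65536 with h3 | h3
  · exact allR_spec _ (49152 : ℕ) (16384 : ℕ) rk39_3 i (by omega) (by omega)
  rcases Nat.lt_or_ge i 81920 with h4 | h4
  · exact allR_spec _ (65536 : ℕ) (16384 : ℕ) rk39_4 i (by omega) (by omega)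
  rcases Nat.lt_or_ge i 98304 with h5 | h5
  · exact allR_spec _ (81920 : ℕ) (16384 : ℕ) rk39_5 i (by omega) (by omega)
  rcases Nat.lt_or_ge i 114688 with h6 | h6
  · exact allR_spec _ (98304 : ℕ) (16384 : ℕ) rk39_6 i (by omega) (by omega)
  rcases Nat.lt_or_ge i 131072 with h7 | h7
  · exact allR_spec _ (114688 : ℕ) (16384 : ℕ) rk39_7 i (by omega) (by omega)
  rcases Nat.lt_or_ge i 147456 with h8 | h8
  · exact allR_spec _ (131072 : ℕ) (16384 : ℕ) rk39_8 i (by omega) (by omega)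
  rcases Nat.lt_or_ge i 163840 with h9 | h9
  · exact allR_spec _ (147456 : ℕ) (16384 : ℕ) rk39_9 i (by omega) (by omega)
  rcases Nat.lt_or_ge i 180224 with h10 | h10
  · exact allR_spec _ (163840 : ℕ) (16384 : ℕ) rk39_10 i (by omega) (by omega)
  rcases Nat.lt_or_ge i 196608 with h11 | h11
  · exact allR_spec _ (180224 : ℕ) (16384 : ℕ) rk39_11 i (by omega) (by omega)
  rcases Nat.lt_or_ge i 212992 with h12 | h12
  · exact allR_spec _ (196608 : ℕ) (16384 : ℕ) rk39_12 i (by omega) (by omega)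
  rcases Nat.lt_or_ge i 229376 with h13 | h13
  · exact allR_spec _ (212992 : ℕ) (16384 : ℕ) rk39_13 i (by omega) (by omega)
  rcases Nat.lt_or_ge i 245760 with h14 | h14
  · exact allR_spec _ (229376 : ℕ) (16384 : ℕ) rk39_14 i (by omega) (by omega)
  rcases Nat.lt_or_ge i 262144 with h15 | h15
  · exact allR_spec _ (245760 : ℕ) (16384 : ℕ) rk39_15 i (by omega) (by omega)
  rcases Nat.lt_or_ge i 278528 with h16 | h16
  · exact allR_spec _ (262144 : ℕ) (16384 : ℕ) rk39_16 i (by omega) (by omega)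
  rcases Nat.lt_or_ge i 294912 with h17 | h17
  · exact allR_spec _ (278528 : ℕ) (16384 : ℕ) rk39_17 i (by omega) (by omega)
  exact allR_spec _ (294912 : ℕ) (12024 : ℕ) rk39_18 i (by omega) (by omega)
theorem rk40 : allR (ckComm T6 T10) (nat_lit 0) (nat_lit 306936) = true := by
  apply allR_of_forall
  intro i hi
  have hi : i < 306936 := hi
  rcases Nat.lt_or_ge i 16384 with h0 | h0
  · exact allR_spec _ (0 : ℕ) (16384 : ℕ) rk40_0 i (by omega) (by omega)
  rcases Nat.lt_or_ge i 32768 with h1 | h1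
  · exact allR_spec _ (16384 : ℕ) (16384 : ℕ) rk40_1 i (by omega) (by omega)
  rcases Nat.lt_or_ge i 49152 with h2 | h2
  · exact allR_spec _ (32768 : ℕ) (16384 : ℕ) rk40_2 i (by omega) (by omega)
  rcases Nat.lt_or_ge i 65536 with h3 | h3
  · exact allR_spec _ (49152 : ℕ) (16384 : ℕ) rk40_3 i (by omega) (by omega)
  rcases Nat.lt_or_ge i 81920 with h4 | h4
  · exact allR_spec _ (65536 : ℕ) (16384 : ℕ) rk40_4 i (by omega) (by omega)
  rcases Nat.lt_or_ge i 98304 with h5 | h5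
  · exact allR_spec _ (81920 : ℕ) (16384 : ℕ) rk40_5 i (by omega) (by omega)
  rcases Nat.lt_or_ge i 114688 with h6 | h6
  · exact allR_spec _ (98304 : ℕ) (16384 : ℕ) rk40_6 i (by omega) (by omega)
  rcases Nat.lt_or_ge i 131072 with h7 | h7
  · exact allR_spec _ (114688 : ℕ) (16384 : ℕ) rk40_7 i (by omega) (by omega)
  rcases Nat.lt_or_ge i 147456 with h8 | h8
  · exact allR_spec _ (131072 : ℕ) (16384 : ℕ) rk40_8 i (by omega) (by omega)
  rcases Nat.lt_or_ge i 163840 with h9 | h9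
  · exact allR_spec _ (147456 : ℕ) (16384 : ℕ) rk40_9 i (by omega) (by omega)
  rcases Nat.lt_or_ge i 180224 with h10 | h10
  · exact allR_spec _ (163840 : ℕ) (16384 : ℕ) rk40_10 i (by omega) (by omega)
  rcases Nat.lt_or_ge i 196608 with h11 | h11
  · exact allR_spec _ (180224 : ℕ) (16384 : ℕ) rk40_11 i (by omega) (by omega)
  rcases Nat.lt_or_ge i 212992 with h12 | h12
  · exact allR_spec _ (196608 : ℕ) (16384 : ℕ) rk40_12 i (by omega) (by omega)
  rcases Nat.lt_or_ge i 229376 with h13 | h13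
  · exact allR_spec _ (212992 : ℕ) (16384 : ℕ) rk40_13 i (by omega) (by omega)
  rcases Nat.lt_or_ge i 245760 with h14 | h14
  · exact allR_spec _ (229376 : ℕ) (16384 : ℕ) rk40_14 i (by omega) (by omega)
  rcases Nat.lt_or_ge i 262144 with h15 | h15
  · exact allR_spec _ (245760 : ℕ) (16384 : ℕ) rk40_15 i (by omega) (by omega)
  rcases Nat.lt_or_ge i 278528 with h16 | h16
  · exact allR_spec _ (262144 : ℕ) (16384 : ℕ) rk40_16 i (by omega) (by omega)
  rcases Nat.lt_or_ge i 294912 with h17 | h17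
  · exact allR_spec _ (278528 : ℕ) (16384 : ℕ) rk40_17 i (by omega) (by omega)
  exact allR_spec _ (294912 : ℕ) (12024 : ℕ) rk40_18 i (by omega) (by omega)
theorem rk41 : allR (ckComm T6 T11) (nat_lit 0) (nat_lit 306936) = true := by
  apply allR_of_forall
  intro i hi
  have hi : i < 306936 := hi
  rcases Nat.lt_or_ge i 16384 with h0 | h0
  · exact allR_spec _ (0 : ℕ) (16384 : ℕ) rk41_0 i (by omega) (by omega)
  rcases Nat.lt_or_ge i 32768 with h1 | h1
  · exact allR_spec _ (16384 : ℕ) (16384 : ℕ) rk41_1 i (by omega) (by omega)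
  rcases Nat.lt_or_ge i 49152 with h2 | h2
  · exact allR_spec _ (32768 : ℕ) (16384 : ℕ) rk41_2 i (by omega) (by omega)
  rcases Nat.lt_or_ge i 65536 with h3 | h3
  · exact allR_spec _ (49152 : ℕ) (16384 : ℕ) rk41_3 i (by omega) (by omega)
  rcases Nat.lt_or_ge i 81920 with h4 | h4
  · exact allR_spec _ (65536 : ℕ) (16384 : ℕ) rk41_4 i (by omega) (by omega)
  rcases Nat.lt_or_ge i 98304 with h5 | h5
  · exact allR_spec _ (81920 : ℕ) (16384 : ℕ) rk41_5 i (by omega) (by omega)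
  rcases Nat.lt_or_ge i 114688 with h6 | h6
  · exact allR_spec _ (98304 : ℕ) (16384 : ℕ) rk41_6 i (by omega) (by omega)
  rcases Nat.lt_or_ge i 131072 with h7 | h7
  · exact allR_spec _ (114688 : ℕ) (16384 : ℕ) rk41_7 i (by omega) (by omega)
  rcases Nat.lt_or_ge i 147456 with h8 | h8
  · exact allR_spec _ (131072 : ℕ) (16384 : ℕ) rk41_8 i (by omega) (by omega)
  rcases Nat.lt_or_ge i 163840 with h9 | h9
  · exact allR_spec _ (147456 : ℕ) (16384 : ℕ) rk41_9 i (by omega) (by omega)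
  rcases Nat.lt_or_ge i 180224 with h10 | h10
  · exact allR_spec _ (163840 : ℕ) (16384 : ℕ) rk41_10 i (by omega) (by omega)
  rcases Nat.lt_or_ge i 196608 with h11 | h11
  · exact allR_spec _ (180224 : ℕ) (16384 : ℕ) rk41_11 i (by omega) (by omega)
  rcases Nat.lt_or_ge i 212992 with h12 | h12
  · exact allR_spec _ (196608 : ℕ) (16384 : ℕ) rk41_12 i (by omega) (by omega)
  rcases Nat.lt_or_ge i 229376 with h13 | h13
  · exact allR_spec _ (212992 : ℕ) (16384 : ℕ) rk41_13 i (by omega) (by omega)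
  rcases Nat.lt_or_ge i 245760 with h14 | h14
  · exact allR_spec _ (229376 : ℕ) (16384 : ℕ) rk41_14 i (by omega) (by omega)
  rcases Nat.lt_or_ge i 262144 with h15 | h15
  · exact allR_spec _ (245760 : ℕ) (16384 : ℕ) rk41_15 i (by omega) (by omega)
  rcases Nat.lt_or_ge i 278528 with h16 | h16
  · exact allR_spec _ (262144 : ℕ) (16384 : ℕ) rk41_16 i (by omega) (by omega)
  rcases Nat.lt_or_ge i 294912 with h17 | h17
  · exact allR_spec _ (278528 : ℕ) (16384 : ℕ) rk41_17 i (by omega) (by omega)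
  exact allR_spec _ (294912 : ℕ) (12024 : ℕ) rk41_18 i (by omega) (by omega)
theorem rk42 : allR (ckComm T6 T9) (nat_lit 0) (nat_lit 306936) = true := by
  apply allR_of_forall
  intro i hi
  have hi : i < 306936 := hi
  rcases Nat.lt_or_ge i 16384 with h0 | h0
  · exact allR_spec _ (0 : ℕ) (16384 : ℕ) rk42_0 i (by omega) (by omega)
  rcases Nat.lt_or_ge i 32768 with h1 | h1
  · exact allR_spec _ (16384 : ℕ) (16384 : ℕ) rk42_1 i (by omega) (by omega)
  rcases Nat.lt_or_ge i 49152 with h2 | h2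
  · exact allR_spec _ (32768 : ℕ) (16384 : ℕ) rk42_2 i (by omega) (by omega)
  rcases Nat.lt_or_ge i 65536 with h3 | h3
  · exact allR_spec _ (49152 : ℕ) (16384 : ℕ) rk42_3 i (by omega) (by omega)
  rcases Nat.lt_or_ge i 81920 with h4 | h4
  · exact allR_spec _ (65536 : ℕ) (16384 : ℕ) rk42_4 i (by omega) (by omega)
  rcases Nat.lt_or_ge i 98304 with h5 | h5
  · exact allR_spec _ (81920 : ℕ) (16384 : ℕ) rk42_5 i (by omega) (by omega)
  rcases Nat.lt_or_ge i 114688 with h6 | h6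
  · exact allR_spec _ (98304 : ℕ) (16384 : ℕ) rk42_6 i (by omega) (by omega)
  rcases Nat.lt_or_ge i 131072 with h7 | h7
  · exact allR_spec _ (114688 : ℕ) (16384 : ℕ) rk42_7 i (by omega) (by omega)
  rcases Nat.lt_or_ge i 147456 with h8 | h8
  · exact allR_spec _ (131072 : ℕ) (16384 : ℕ) rk42_8 i (by omega) (by omega)
  rcases Nat.lt_or_ge i 163840 with h9 | h9
  · exact allR_spec _ (147456 : ℕ) (16384 : ℕ) rk42_9 i (by omega) (by omega)
  rcases Nat.lt_or_ge i 180224 with h10 | h10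
  · exact allR_spec _ (163840 : ℕ) (16384 : ℕ) rk42_10 i (by omega) (by omega)
  rcases Nat.lt_or_ge i 196608 with h11 | h11
  · exact allR_spec _ (180224 : ℕ) (16384 : ℕ) rk42_11 i (by omega) (by omega)
  rcases Nat.lt_or_ge i 212992 with h12 | h12
  · exact allR_spec _ (196608 : ℕ) (16384 : ℕ) rk42_12 i (by omega) (by omega)
  rcases Nat.lt_or_ge i 229376 with h13 | h13
  · exact allR_spec _ (212992 : ℕ) (16384 : ℕ) rk42_13 i (by omega) (by omega)
  rcases Nat.lt_or_ge i 245760 with h14 | h14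
  · exact allR_spec _ (229376 : ℕ) (16384 : ℕ) rk42_14 i (by omega) (by omega)
  rcases Nat.lt_or_ge i 262144 with h15 | h15
  · exact allR_spec _ (245760 : ℕ) (16384 : ℕ) rk42_15 i (by omega) (by omega)
  rcases Nat.lt_or_ge i 278528 with h16 | h16
  · exact allR_spec _ (262144 : ℕ) (16384 : ℕ) rk42_16 i (by omega) (by omega)
  rcases Nat.lt_or_ge i 294912 with h17 | h17
  · exact allR_spec _ (278528 : ℕ) (16384 : ℕ) rk42_17 i (by omega) (by omega)
  exact allR_spec _ (294912 : ℕ) (12024 : ℕ) rk42_18 i (by omega) (by omega)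
theorem rk43 : allR (ckComm T6 T1) (nat_lit 0) (nat_lit 306936) = true := by
  apply allR_of_forall
  intro i hi
  have hi : i < 306936 := hi
  rcases Nat.lt_or_ge i 16384 with h0 | h0
  · exact allR_spec _ (0 : ℕ) (16384 : ℕ) rk43_0 i (by omega) (by omega)
  rcases Nat.lt_or_ge i 32768 with h1 | h1
  · exact allR_spec _ (16384 : ℕ) (16384 : ℕ) rk43_1 i (by omega) (by omega)
  rcases Nat.lt_or_ge i 49152 with h2 | h2
  · exact allR_spec _ (32768 : ℕ) (16384 : ℕ) rk43_2 i (by omega) (by omega)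
  rcases Nat.lt_or_ge i 65536 with h3 | h3
  · exact allR_spec _ (49152 : ℕ) (16384 : ℕ) rk43_3 i (by omega) (by omega)
  rcases Nat.lt_or_ge i 81920 with h4 | h4
  · exact allR_spec _ (65536 : ℕ) (16384 : ℕ) rk43_4 i (by omega) (by omega)
  rcases Nat.lt_or_ge i 98304 with h5 | h5
  · exact allR_spec _ (81920 : ℕ) (16384 : ℕ) rk43_5 i (by omega) (by omega)
  rcases Nat.lt_or_ge i 114688 with h6 | h6
  · exact allR_spec _ (98304 : ℕ) (16384 : ℕ) rk43_6 i (by omega) (by omega)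
  rcases Nat.lt_or_ge i 131072 with h7 | h7
  · exact allR_spec _ (114688 : ℕ) (16384 : ℕ) rk43_7 i (by omega) (by omega)
  rcases Nat.lt_or_ge i 147456 with h8 | h8
  · exact allR_spec _ (131072 : ℕ) (16384 : ℕ) rk43_8 i (by omega) (by omega)
  rcases Nat.lt_or_ge i 163840 with h9 | h9
  · exact allR_spec _ (147456 : ℕ) (16384 : ℕ) rk43_9 i (by omega) (by omega)
  rcases Nat.lt_or_ge i 180224 with h10 | h10
  · exact allR_spec _ (163840 : ℕ) (16384 : ℕ) rk43_10 i (by omega) (by omega)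
  rcases Nat.lt_or_ge i 196608 with h11 | h11
  · exact allR_spec _ (180224 : ℕ) (16384 : ℕ) rk43_11 i (by omega) (by omega)
  rcases Nat.lt_or_ge i 212992 with h12 | h12
  · exact allR_spec _ (196608 : ℕ) (16384 : ℕ) rk43_12 i (by omega) (by omega)
  rcases Nat.lt_or_ge i 229376 with h13 | h13
  · exact allR_spec _ (212992 : ℕ) (16384 : ℕ) rk43_13 i (by omega) (by omega)
  rcases Nat.lt_or_ge i 245760 with h14 | h14
  · exact allR_spec _ (229376 : ℕ) (16384 : ℕ) rk43_14 i (by omega) (by omega)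
  rcases Nat.lt_or_ge i 262144 with h15 | h15
  · exact allR_spec _ (245760 : ℕ) (16384 : ℕ) rk43_15 i (by omega) (by omega)
  rcases Nat.lt_or_ge i 278528 with h16 | h16
  · exact allR_spec _ (262144 : ℕ) (16384 : ℕ) rk43_16 i (by omega) (by omega)
  rcases Nat.lt_or_ge i 294912 with h17 | h17
  · exact allR_spec _ (278528 : ℕ) (16384 : ℕ) rk43_17 i (by omega) (by omega)
  exact allR_spec _ (294912 : ℕ) (12024 : ℕ) rk43_18 i (by omega) (by omega)
theorem rk44 : allR (ckComm T6 T0) (nat_lit 0) (nat_lit 306936) = true := by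
  apply allR_of_forall
  intro i hi
  have hi : i < 306936 := hi
  rcases Nat.lt_or_ge i 16384 with h0 | h0
  · exact allR_spec _ (0 : ℕ) (16384 : ℕ) rk44_0 i (by omega) (by omega)
  rcases Nat.lt_or_ge i 32768 with h1 | h1
  · exact allR_spec _ (16384 : ℕ) (16384 : ℕ) rk44_1 i (by omega) (by omega)
  rcases Nat.lt_or_ge i 49152 with h2 | h2
  · exact allR_spec _ (32768 : ℕ) (16384 : ℕ) rk44_2 i (by omega) (by omega)
  rcases Nat.lt_or_ge i 65536 with h3 | h3
  · exact allR_spec _ (49152 : ℕ) (16384 : ℕ) rk44_3 i (by omega) (by omega)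
  rcases Nat.lt_or_ge i 81920 with h4 | h4
  · exact allR_spec _ (65536 : ℕ) (16384 : ℕ) rk44_4 i (by omega) (by omega)
  rcases Nat.lt_or_ge i 98304 with h5 | h5
  · exact allR_spec _ (81920 : ℕ) (16384 : ℕ) rk44_5 i (by omega) (by omega)
  rcases Nat.lt_or_ge i 114688 with h6 | h6
  · exact allR_spec _ (98304 : ℕ) (16384 : ℕ) rk44_6 i (by omega) (by omega)
  rcases Nat.lt_or_ge i 131072 with h7 | h7
  · exact allR_spec _ (114688 : ℕ) (16384 : ℕ) rk44_7 i (by omega) (by omega)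
  rcases Nat.lt_or_ge i 147456 with h8 | h8
  · exact allR_spec _ (131072 : ℕ) (16384 : ℕ) rk44_8 i (by omega) (by omega)
  rcases Nat.lt_or_ge i 163840 with h9 | h9
  · exact allR_spec _ (147456 : ℕ) (16384 : ℕ) rk44_9 i (by omega) (by omega)
  rcases Nat.lt_or_ge i 180224 with h10 | h10
  · exact allR_spec _ (163840 : ℕ) (16384 : ℕ) rk44_10 i (by omega) (by omega)
  rcases Nat.lt_or_ge i 196608 with h11 | h11
  · exact allR_spec _ (180224 : ℕ) (16384 : ℕ) rk44_11 i (by omega) (by omega)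
  rcases Nat.lt_or_ge i 212992 with h12 | h12
  · exact allR_spec _ (196608 : ℕ) (16384 : ℕ) rk44_12 i (by omega) (by omega)
  rcases Nat.lt_or_ge i 229376 with h13 | h13
  · exact allR_spec _ (212992 : ℕ) (16384 : ℕ) rk44_13 i (by omega) (by omega)
  rcases Nat.lt_or_ge i 245760 with h14 | h14
  · exact allR_spec _ (229376 : ℕ) (16384 : ℕ) rk44_14 i (by omega) (by omega)
  rcases Nat.lt_or_ge i 262144 with h15 | h15
  · exact allR_spec _ (245760 : ℕ) (16384 : ℕ) rk44_15 i (by omega) (by omega)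
  rcases Nat.lt_or_ge i 278528 with h16 | h16
  · exact allR_spec _ (262144 : ℕ) (16384 : ℕ) rk44_16 i (by omega) (by omega)
  rcases Nat.lt_or_ge i 294912 with h17 | h17
  · exact allR_spec _ (278528 : ℕ) (16384 : ℕ) rk44_17 i (by omega) (by omega)
  exact allR_spec _ (294912 : ℕ) (12024 : ℕ) rk44_18 i (by omega) (by omega)
theorem rk45 : allR (fun i => powT [T7, T8] i (nat_lit 3) i) (nat_lit 0) (nat_lit 306936) = true := by
  apply allR_of_forall
  intro i hi
  have hi : i < 306936 := hi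
  rcases Nat.lt_or_ge i 16384 with h0 | h0
  · exact allR_spec _ (0 : ℕ) (16384 : ℕ) rk45_0 i (by omega) (by omega)
  rcases Nat.lt_or_ge i 32768 with h1 | h1
  · exact allR_spec _ (16384 : ℕ) (16384 : ℕ) rk45_1 i (by omega) (by omega)
  rcases Nat.lt_or_ge i 49152 with h2 | h2
  · exact allR_spec _ (32768 : ℕ) (16384 : ℕ) rk45_2 i (by omega) (by omega)
  rcases Nat.lt_or_ge i 65536 with h3 | h3
  · exact allR_spec _ (49152 : ℕ) (16384 : ℕ) rk45_3 i (by omega) (by omega)
  rcases Nat.lt_or_ge i 81920 with h4 | h4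
  · exact allR_spec _ (65536 : ℕ) (16384 : ℕ) rk45_4 i (by omega) (by omega)
  rcases Nat.lt_or_ge i 98304 with h5 | h5
  · exact allR_spec _ (81920 : ℕ) (16384 : ℕ) rk45_5 i (by omega) (by omega)
  rcases Nat.lt_or_ge i 114688 with h6 | h6
  · exact allR_spec _ (98304 : ℕ) (16384 : ℕ) rk45_6 i (by omega) (by omega)
  rcases Nat.lt_or_ge i 131072 with h7 | h7
  · exact allR_spec _ (114688 : ℕ) (16384 : ℕ) rk45_7 i (by omega) (by omega)
  rcases Nat.lt_or_ge i 147456 with h8 | h8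
  · exact allR_spec _ (131072 : ℕ) (16384 : ℕ) rk45_8 i (by omega) (by omega)
  rcases Nat.lt_or_ge i 163840 with h9 | h9
  · exact allR_spec _ (147456 : ℕ) (16384 : ℕ) rk45_9 i (by omega) (by omega)
  rcases Nat.lt_or_ge i 180224 with h10 | h10
  · exact allR_spec _ (163840 : ℕ) (16384 : ℕ) rk45_10 i (by omega) (by omega)
  rcases Nat.lt_or_ge i 196608 with h11 | h11
  · exact allR_spec _ (180224 : ℕ) (16384 : ℕ) rk45_11 i (by omega) (by omega)
  rcases Nat.lt_or_ge i 212992 with h12 | h12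
  · exact allR_spec _ (196608 : ℕ) (16384 : ℕ) rk45_12 i (by omega) (by omega)
  rcases Nat.lt_or_ge i 229376 with h13 | h13
  · exact allR_spec _ (212992 : ℕ) (16384 : ℕ) rk45_13 i (by omega) (by omega)
  rcases Nat.lt_or_ge i 245760 with h14 | h14
  · exact allR_spec _ (229376 : ℕ) (16384 : ℕ) rk45_14 i (by omega) (by omega)
  rcases Nat.lt_or_ge i 262144 with h15 | h15
  · exact allR_spec _ (245760 : ℕ) (16384 : ℕ) rk45_15 i (by omega) (by omega)
  rcases Nat.lt_or_ge i 278528 with h16 | h16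
  · exact allR_spec _ (262144 : ℕ) (16384 : ℕ) rk45_16 i (by omega) (by omega)
  rcases Nat.lt_or_ge i 294912 with h17 | h17
  · exact allR_spec _ (278528 : ℕ) (16384 : ℕ) rk45_17 i (by omega) (by omega)
  exact allR_spec _ (294912 : ℕ) (12024 : ℕ) rk45_18 i (by omega) (by omega)
theorem rk46 : allR (ckComm T7 T10) (nat_lit 0) (nat_lit 306936) = true := by
  apply allR_of_forall
  intro i hi
  have hi : i < 306936 := hi
  rcases Nat.lt_or_ge i 16384 with h0 | h0
  · exact allR_spec _ (0 : ℕ) (16384 : ℕ) rk46_0 i (by omega) (by omega)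
  rcases Nat.lt_or_ge i 32768 with h1 | h1
  · exact allR_spec _ (16384 : ℕ) (16384 : ℕ) rk46_1 i (by omega) (by omega)
  rcases Nat.lt_or_ge i 49152 with h2 | h2
  · exact allR_spec _ (32768 : ℕ) (16384 : ℕ) rk46_2 i (by omega) (by omega)
  rcases Nat.lt_or_ge i 65536 with h3 | h3
  · exact allR_spec _ (49152 : ℕ) (16384 : ℕ) rk46_3 i (by omega) (by omega)
  rcases Nat.lt_or_ge i 81920 with h4 | h4
  · exact allR_spec _ (65536 : ℕ) (16384 : ℕ) rk46_4 i (by omega) (by omega)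
  rcases Nat.lt_or_ge i 98304 with h5 | h5
  · exact allR_spec _ (81920 : ℕ) (16384 : ℕ) rk46_5 i (by omega) (by omega)
  rcases Nat.lt_or_ge i 114688 with h6 | h6
  · exact allR_spec _ (98304 : ℕ) (16384 : ℕ) rk46_6 i (by omega) (by omega)
  rcases Nat.lt_or_ge i 131072 with h7 | h7
  · exact allR_spec _ (114688 : ℕ) (16384 : ℕ) rk46_7 i (by omega) (by omega)
  rcases Nat.lt_or_ge i 147456 with h8 | h8
  · exact allR_spec _ (131072 : ℕ) (16384 : ℕ) rk46_8 i (by omega) (by omega)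
  rcases Nat.lt_or_ge i 163840 with h9 | h9
  · exact allR_spec _ (147456 : ℕ) (16384 : ℕ) rk46_9 i (by omega) (by omega)
  rcases Nat.lt_or_ge i 180224 with h10 | h10
  · exact allR_spec _ (163840 : ℕ) (16384 : ℕ) rk46_10 i (by omega) (by omega)
  rcases Nat.lt_or_ge i 196608 with h11 | h11
  · exact allR_spec _ (180224 : ℕ) (16384 : ℕ) rk46_11 i (by omega) (by omega)
  rcases Nat.lt_or_ge i 212992 with h12 | h12
  · exact allR_spec _ (196608 : ℕ) (16384 : ℕ) rk46_12 i (by omega) (by omega)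
  rcases Nat.lt_or_ge i 229376 with h13 | h13
  · exact allR_spec _ (212992 : ℕ) (16384 : ℕ) rk46_13 i (by omega) (by omega)
  rcases Nat.lt_or_ge i 245760 with h14 | h14
  · exact allR_spec _ (229376 : ℕ) (16384 : ℕ) rk46_14 i (by omega) (by omega)
  rcases Nat.lt_or_ge i 262144 with h15 | h15
  · exact allR_spec _ (245760 : ℕ) (16384 : ℕ) rk46_15 i (by omega) (by omega)
  rcases Nat.lt_or_ge i 278528 with h16 | h16
  · exact allR_spec _ (262144 : ℕ) (16384 : ℕ) rk46_16 i (by omega) (by omega)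
  rcases Nat.lt_or_ge i 294912 with h17 | h17
  · exact allR_spec _ (278528 : ℕ) (16384 : ℕ) rk46_17 i (by omega) (by omega)
  exact allR_spec _ (294912 : ℕ) (12024 : ℕ) rk46_18 i (by omega) (by omega)
theorem rk47 : allR (ckComm T7 T11) (nat_lit 0) (nat_lit 306936) = true := by
  apply allR_of_forall
  intro i hi
  have hi : i < 306936 := hi
  rcases Nat.lt_or_ge i 16384 with h0 | h0
  · exact allR_spec _ (0 : ℕ) (16384 : ℕ) rk47_0 i (by omega) (by omega)
  rcases Nat.lt_or_ge i 32768 with h1 | h1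
  · exact allR_spec _ (16384 : ℕ) (16384 : ℕ) rk47_1 i (by omega) (by omega)
  rcases Nat.lt_or_ge i 49152 with h2 | h2
  · exact allR_spec _ (32768 : ℕ) (16384 : ℕ) rk47_2 i (by omega) (by omega)
  rcases Nat.lt_or_ge i 65536 with h3 | h3
  · exact allR_spec _ (49152 : ℕ) (16384 : ℕ) rk47_3 i (by omega) (by omega)
  rcases Nat.lt_or_ge i 81920 with h4 | h4
  · exact allR_spec _ (65536 : ℕ) (16384 : ℕ) rk47_4 i (by omega) (by omega)
  rcases Nat.lt_or_ge i 98304 with h5 | h5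
  · exact allR_spec _ (81920 : ℕ) (16384 : ℕ) rk47_5 i (by omega) (by omega)
  rcases Nat.lt_or_ge i 114688 with h6 | h6
  · exact allR_spec _ (98304 : ℕ) (16384 : ℕ) rk47_6 i (by omega) (by omega)
  rcases Nat.lt_or_ge i 131072 with h7 | h7
  · exact allR_spec _ (114688 : ℕ) (16384 : ℕ) rk47_7 i (by omega) (by omega)
  rcases Nat.lt_or_ge i 147456 with h8 | h8
  · exact allR_spec _ (131072 : ℕ) (16384 : ℕ) rk47_8 i (by omega) (by omega)
  rcases Nat.lt_or_ge i 163840 with h9 | h9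
  · exact allR_spec _ (147456 : ℕ) (16384 : ℕ) rk47_9 i (by omega) (by omega)
  rcases Nat.lt_or_ge i 180224 with h10 | h10
  · exact allR_spec _ (163840 : ℕ) (16384 : ℕ) rk47_10 i (by omega) (by omega)
  rcases Nat.lt_or_ge i 196608 with h11 | h11
  · exact allR_spec _ (180224 : ℕ) (16384 : ℕ) rk47_11 i (by omega) (by omega)
  rcases Nat.lt_or_ge i 212992 with h12 | h12
  · exact allR_spec _ (196608 : ℕ) (16384 : ℕ) rk47_12 i (by omega) (by omega)
  rcases Nat.lt_or_ge i 229376 with h13 | h13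
  · exact allR_spec _ (212992 : ℕ) (16384 : ℕ) rk47_13 i (by omega) (by omega)
  rcases Nat.lt_or_ge i 245760 with h14 | h14
  · exact allR_spec _ (229376 : ℕ) (16384 : ℕ) rk47_14 i (by omega) (by omega)
  rcases Nat.lt_or_ge i 262144 with h15 | h15
  · exact allR_spec _ (245760 : ℕ) (16384 : ℕ) rk47_15 i (by omega) (by omega)
  rcases Nat.lt_or_ge i 278528 with h16 | h16
  · exact allR_spec _ (262144 : ℕ) (16384 : ℕ) rk47_16 i (by omega) (by omega)
  rcases Nat.lt_or_ge i 294912 with h17 | h17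
  · exact allR_spec _ (278528 : ℕ) (16384 : ℕ) rk47_17 i (by omega) (by omega)
  exact allR_spec _ (294912 : ℕ) (12024 : ℕ) rk47_18 i (by omega) (by omega)
theorem rk48 : allR (ckComm T7 T9) (nat_lit 0) (nat_lit 306936) = true := by
  apply allR_of_forall
  intro i hi
  have hi : i < 306936 := hi
  rcases Nat.lt_or_ge i 16384 with h0 | h0
  · exact allR_spec _ (0 : ℕ) (16384 : ℕ) rk48_0 i (by omega) (by omega)
  rcases Nat.lt_or_ge i 32768 with h1 | h1
  · exact allR_spec _ (16384 : ℕ) (16384 : ℕ) rk48_1 i (by omega) (by omega)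
  rcases Nat.lt_or_ge i 49152 with h2 | h2
  · exact allR_spec _ (32768 : ℕ) (16384 : ℕ) rk48_2 i (by omega) (by omega)
  rcases Nat.lt_or_ge i 65536 with h3 | h3
  · exact allR_spec _ (49152 : ℕ) (16384 : ℕ) rk48_3 i (by omega) (by omega)
  rcases Nat.lt_or_ge i 81920 with h4 | h4
  · exact allR_spec _ (65536 : ℕ) (16384 : ℕ) rk48_4 i (by omega) (by omega)
  rcases Nat.lt_or_ge i 98304 with h5 | h5
  · exact allR_spec _ (81920 : ℕ) (16384 : ℕ) rk48_5 i (by omega) (by omega)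
  rcases Nat.lt_or_ge i 114688 with h6 | h6
  · exact allR_spec _ (98304 : ℕ) (16384 : ℕ) rk48_6 i (by omega) (by omega)
  rcases Nat.lt_or_ge i 131072 with h7 | h7
  · exact allR_spec _ (114688 : ℕ) (16384 : ℕ) rk48_7 i (by omega) (by omega)
  rcases Nat.lt_or_ge i 147456 with h8 | h8
  · exact allR_spec _ (131072 : ℕ) (16384 : ℕ) rk48_8 i (by omega) (by omega)
  rcases Nat.lt_or_ge i 163840 with h9 | h9
  · exact allR_spec _ (147456 : ℕ) (16384 : ℕ) rk48_9 i (by omega) (by omega)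
  rcases Nat.lt_or_ge i 180224 with h10 | h10
  · exact allR_spec _ (163840 : ℕ) (16384 : ℕ) rk48_10 i (by omega) (by omega)
  rcases Nat.lt_or_ge i 196608 with h11 | h11
  · exact allR_spec _ (180224 : ℕ) (16384 : ℕ) rk48_11 i (by omega) (by omega)
  rcases Nat.lt_or_ge i 212992 with h12 | h12
  · exact allR_spec _ (196608 : ℕ) (16384 : ℕ) rk48_12 i (by omega) (by omega)
  rcases Nat.lt_or_ge i 229376 with h13 | h13
  · exact allR_spec _ (212992 : ℕ) (16384 : ℕ) rk48_13 i (by omega) (by omega)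
  rcases Nat.lt_or_ge i 245760 with h14 | h14
  · exact allR_spec _ (229376 : ℕ) (16384 : ℕ) rk48_14 i (by omega) (by omega)
  rcases Nat.lt_or_ge i 262144 with h15 | h15
  · exact allR_spec _ (245760 : ℕ) (16384 : ℕ) rk48_15 i (by omega) (by omega)
  rcases Nat.lt_or_ge i 278528 with h16 | h16
  · exact allR_spec _ (262144 : ℕ) (16384 : ℕ) rk48_16 i (by omega) (by omega)
  rcases Nat.lt_or_ge i 294912 with h17 | h17
  · exact allR_spec _ (278528 : ℕ) (16384 : ℕ) rk48_17 i (by omega) (by omega)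
  exact allR_spec _ (294912 : ℕ) (12024 : ℕ) rk48_18 i (by omega) (by omega)
theorem rk49 : allR (ckComm T7 T1) (nat_lit 0) (nat_lit 306936) = true := by
  apply allR_of_forall
  intro i hi
  have hi : i < 306936 := hi
  rcases Nat.lt_or_ge i 16384 with h0 | h0
  · exact allR_spec _ (0 : ℕ) (16384 : ℕ) rk49_0 i (by omega) (by omega)
  rcases Nat.lt_or_ge i 32768 with h1 | h1
  · exact allR_spec _ (16384 : ℕ) (16384 : ℕ) rk49_1 i (by omega) (by omega)
  rcases Nat.lt_or_ge i 49152 with h2 | h2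
  · exact allR_spec _ (32768 : ℕ) (16384 : ℕ) rk49_2 i (by omega) (by omega)
  rcases Nat.lt_or_ge i 65536 with h3 | h3
  · exact allR_spec _ (49152 : ℕ) (16384 : ℕ) rk49_3 i (by omega) (by omega)
  rcases Nat.lt_or_ge i 81920 with h4 | h4
  · exact allR_spec _ (65536 : ℕ) (16384 : ℕ) rk49_4 i (by omega) (by omega)
  rcases Nat.lt_or_ge i 98304 with h5 | h5
  · exact allR_spec _ (81920 : ℕ) (16384 : ℕ) rk49_5 i (by omega) (by omega)
  rcases Nat.lt_or_ge i 114688 with h6 | h6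
  · exact allR_spec _ (98304 : ℕ) (16384 : ℕ) rk49_6 i (by omega) (by omega)
  rcases Nat.lt_or_ge i 131072 with h7 | h7
  · exact allR_spec _ (114688 : ℕ) (16384 : ℕ) rk49_7 i (by omega) (by omega)
  rcases Nat.lt_or_ge i 147456 with h8 | h8
  · exact allR_spec _ (131072 : ℕ) (16384 : ℕ) rk49_8 i (by omega) (by omega)
  rcases Nat.lt_or_ge i 163840 with h9 | h9
  · exact allR_spec _ (147456 : ℕ) (16384 : ℕ) rk49_9 i (by omega) (by omega)
  rcases Nat.lt_or_ge i 180224 with h10 | h10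
  · exact allR_spec _ (163840 : ℕ) (16384 : ℕ) rk49_10 i (by omega) (by omega)
  rcases Nat.lt_or_ge i 196608 with h11 | h11
  · exact allR_spec _ (180224 : ℕ) (16384 : ℕ) rk49_11 i (by omega) (by omega)
  rcases Nat.lt_or_ge i 212992 with h12 | h12
  · exact allR_spec _ (196608 : ℕ) (16384 : ℕ) rk49_12 i (by omega) (by omega)
  rcases Nat.lt_or_ge i 229376 with h13 | h13
  · exact allR_spec _ (212992 : ℕ) (16384 : ℕ) rk49_13 i (by omega) (by omega)
  rcases Nat.lt_or_ge i 245760 with h14 | h14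
  · exact allR_spec _ (229376 : ℕ) (16384 : ℕ) rk49_14 i (by omega) (by omega)
  rcases Nat.lt_or_ge i 262144 with h15 | h15
  · exact allR_spec _ (245760 : ℕ) (16384 : ℕ) rk49_15 i (by omega) (by omega)
  rcases Nat.lt_or_ge i 278528 with h16 | h16
  · exact allR_spec _ (262144 : ℕ) (16384 : ℕ) rk49_16 i (by omega) (by omega)
  rcases Nat.lt_or_ge i 294912 with h17 | h17
  · exact allR_spec _ (278528 : ℕ) (16384 : ℕ) rk49_17 i (by omega) (by omega)
  exact allR_spec _ (294912 : ℕ) (12024 : ℕ) rk49_18 i (by omega) (by omega)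
theorem rk50 : allR (ckComm T7 T0) (nat_lit 0) (nat_lit 306936) = true := by
  apply allR_of_forall
  intro i hi
  have hi : i < 306936 := hi
  rcases Nat.lt_or_ge i 16384 with h0 | h0
  · exact allR_spec _ (0 : ℕ) (16384 : ℕ) rk50_0 i (by omega) (by omega)
  rcases Nat.lt_or_ge i 32768 with h1 | h1
  · exact allR_spec _ (16384 : ℕ) (16384 : ℕ) rk50_1 i (by omega) (by omega)
  rcases Nat.lt_or_ge i 49152 with h2 | h2
  · exact allR_spec _ (32768 : ℕ) (16384 : ℕ) rk50_2 i (by omega) (by omega)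
  rcases Nat.lt_or_ge i 65536 with h3 | h3
  · exact allR_spec _ (49152 : ℕ) (16384 : ℕ) rk50_3 i (by omega) (by omega)
  rcases Nat.lt_or_ge i 81920 with h4 | h4
  · exact allR_spec _ (65536 : ℕ) (16384 : ℕ) rk50_4 i (by omega) (by omega)
  rcases Nat.lt_or_ge i 98304 with h5 | h5
  · exact allR_spec _ (81920 : ℕ) (16384 : ℕ) rk50_5 i (by omega) (by omega)
  rcases Nat.lt_or_ge i 114688 with h6 | h6
  · exact allR_spec _ (98304 : ℕ) (16384 : ℕ) rk50_6 i (by omega) (by omega)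
  rcases Nat.lt_or_ge i 131072 with h7 | h7
  · exact allR_spec _ (114688 : ℕ) (16384 : ℕ) rk50_7 i (by omega) (by omega)
  rcases Nat.lt_or_ge i 147456 with h8 | h8
  · exact allR_spec _ (131072 : ℕ) (16384 : ℕ) rk50_8 i (by omega) (by omega)
  rcases Nat.lt_or_ge i 163840 with h9 | h9
  · exact allR_spec _ (147456 : ℕ) (16384 : ℕ) rk50_9 i (by omega) (by omega)
  rcases Nat.lt_or_ge i 180224 with h10 | h10
  · exact allR_spec _ (163840 : ℕ) (16384 : ℕ) rk50_10 i (by omega) (by omega)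
  rcases Nat.lt_or_ge i 196608 with h11 | h11
  · exact allR_spec _ (180224 : ℕ) (16384 : ℕ) rk50_11 i (by omega) (by omega)
  rcases Nat.lt_or_ge i 212992 with h12 | h12
  · exact allR_spec _ (196608 : ℕ) (16384 : ℕ) rk50_12 i (by omega) (by omega)
  rcases Nat.lt_or_ge i 229376 with h13 | h13
  · exact allR_spec _ (212992 : ℕ) (16384 : ℕ) rk50_13 i (by omega) (by omega)
  rcases Nat.lt_or_ge i 245760 with h14 | h14
  · exact allR_spec _ (229376 : ℕ) (16384 : ℕ) rk50_14 i (by omega) (by omega)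
  rcases Nat.lt_or_ge i 262144 with h15 | h15
  · exact allR_spec _ (245760 : ℕ) (16384 : ℕ) rk50_15 i (by omega) (by omega)
  rcases Nat.lt_or_ge i 278528 with h16 | h16
  · exact allR_spec _ (262144 : ℕ) (16384 : ℕ) rk50_16 i (by omega) (by omega)
  rcases Nat.lt_or_ge i 294912 with h17 | h17
  · exact allR_spec _ (278528 : ℕ) (16384 : ℕ) rk50_17 i (by omega) (by omega)
  exact allR_spec _ (294912 : ℕ) (12024 : ℕ) rk50_18 i (by omega) (by omega)
theorem rk51 : allR (ckComm T8 T10) (nat_lit 0) (nat_lit 306936) = true := by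
  apply allR_of_forall
  intro i hi
  have hi : i < 306936 := hi
  rcases Nat.lt_or_ge i 16384 with h0 | h0
  · exact allR_spec _ (0 : ℕ) (16384 : ℕ) rk51_0 i (by omega) (by omega)
  rcases Nat.lt_or_ge i 32768 with h1 | h1
  · exact allR_spec _ (16384 : ℕ) (16384 : ℕ) rk51_1 i (by omega) (by omega)
  rcases Nat.lt_or_ge i 49152 with h2 | h2
  · exact allR_spec _ (32768 : ℕ) (16384 : ℕ) rk51_2 i (by omega) (by omega)
  rcases Nat.lt_or_ge i 65536 with h3 | h3
  · exact allR_spec _ (49152 : ℕ) (16384 : ℕ) rk51_3 i (by omega) (by omega)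
  rcases Nat.lt_or_ge i 81920 with h4 | h4
  · exact allR_spec _ (65536 : ℕ) (16384 : ℕ) rk51_4 i (by omega) (by omega)
  rcases Nat.lt_or_ge i 98304 with h5 | h5
  · exact allR_spec _ (81920 : ℕ) (16384 : ℕ) rk51_5 i (by omega) (by omega)
  rcases Nat.lt_or_ge i 114688 with h6 | h6
  · exact allR_spec _ (98304 : ℕ) (16384 : ℕ) rk51_6 i (by omega) (by omega)
  rcases Nat.lt_or_ge i 131072 with h7 | h7
  · exact allR_spec _ (114688 : ℕ) (16384 : ℕ) rk51_7 i (by omega) (by omega)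
  rcases Nat.lt_or_ge i 147456 with h8 | h8
  · exact allR_spec _ (131072 : ℕ) (16384 : ℕ) rk51_8 i (by omega) (by omega)
  rcases Nat.lt_or_ge i 163840 with h9 | h9
  · exact allR_spec _ (147456 : ℕ) (16384 : ℕ) rk51_9 i (by omega) (by omega)
  rcases Nat.lt_or_ge i 180224 with h10 | h10
  · exact allR_spec _ (163840 : ℕ) (16384 : ℕ) rk51_10 i (by omega) (by omega)
  rcases Nat.lt_or_ge i 196608 with h11 | h11
  · exact allR_spec _ (180224 : ℕ) (16384 : ℕ) rk51_11 i (by omega) (by omega)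
  rcases Nat.lt_or_ge i 212992 with h12 | h12
  · exact allR_spec _ (196608 : ℕ) (16384 : ℕ) rk51_12 i (by omega) (by omega)
  rcases Nat.lt_or_ge i 229376 with h13 | h13
  · exact allR_spec _ (212992 : ℕ) (16384 : ℕ) rk51_13 i (by omega) (by omega)
  rcases Nat.lt_or_ge i 245760 with h14 | h14
  · exact allR_spec _ (229376 : ℕ) (16384 : ℕ) rk51_14 i (by omega) (by omega)
  rcases Nat.lt_or_ge i 262144 with h15 | h15
  · exact allR_spec _ (245760 : ℕ) (16384 : ℕ) rk51_15 i (by omega) (by omega)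
  rcases Nat.lt_or_ge i 278528 with h16 | h16
  · exact allR_spec _ (262144 : ℕ) (16384 : ℕ) rk51_16 i (by omega) (by omega)
  rcases Nat.lt_or_ge i 294912 with h17 | h17
  · exact allR_spec _ (278528 : ℕ) (16384 : ℕ) rk51_17 i (by omega) (by omega)
  exact allR_spec _ (294912 : ℕ) (12024 : ℕ) rk51_18 i (by omega) (by omega)
theorem rk52 : allR (ckComm T8 T11) (nat_lit 0) (nat_lit 306936) = true := by
  apply allR_of_forall
  intro i hi
  have hi : i < 306936 := hi
  rcases Nat.lt_or_ge i 16384 with h0 | h0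
  · exact allR_spec _ (0 : ℕ) (16384 : ℕ) rk52_0 i (by omega) (by omega)
  rcases Nat.lt_or_ge i 32768 with h1 | h1
  · exact allR_spec _ (16384 : ℕ) (16384 : ℕ) rk52_1 i (by omega) (by omega)
  rcases Nat.lt_or_ge i 49152 with h2 | h2
  · exact allR_spec _ (32768 : ℕ) (16384 : ℕ) rk52_2 i (by omega) (by omega)
  rcases Nat.lt_or_ge i 65536 with h3 | h3
  · exact allR_spec _ (49152 : ℕ) (16384 : ℕ) rk52_3 i (by omega) (by omega)
  rcases Nat.lt_or_ge i 81920 with h4 | h4
  · exact allR_spec _ (65536 : ℕ) (16384 : ℕ) rk52_4 i (by omega) (by omega)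
  rcases Nat.lt_or_ge i 98304 with h5 | h5
  · exact allR_spec _ (81920 : ℕ) (16384 : ℕ) rk52_5 i (by omega) (by omega)
  rcases Nat.lt_or_ge i 114688 with h6 | h6
  · exact allR_spec _ (98304 : ℕ) (16384 : ℕ) rk52_6 i (by omega) (by omega)
  rcases Nat.lt_or_ge i 131072 with h7 | h7
  · exact allR_spec _ (114688 : ℕ) (16384 : ℕ) rk52_7 i (by omega) (by omega)
  rcases Nat.lt_or_ge i 147456 with h8 | h8
  · exact allR_spec _ (131072 : ℕ) (16384 : ℕ) rk52_8 i (by omega) (by omega)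
  rcases Nat.lt_or_ge i 163840 with h9 | h9
  · exact allR_spec _ (147456 : ℕ) (16384 : ℕ) rk52_9 i (by omega) (by omega)
  rcases Nat.lt_or_ge i 180224 with h10 | h10
  · exact allR_spec _ (163840 : ℕ) (16384 : ℕ) rk52_10 i (by omega) (by omega)
  rcases Nat.lt_or_ge i 196608 with h11 | h11
  · exact allR_spec _ (180224 : ℕ) (16384 : ℕ) rk52_11 i (by omega) (by omega)
  rcases Nat.lt_or_ge i 212992 with h12 | h12
  · exact allR_spec _ (196608 : ℕ) (16384 : ℕ) rk52_12 i (by omega) (by omega)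
  rcases Nat.lt_or_ge i 229376 with h13 | h13
  · exact allR_spec _ (212992 : ℕ) (16384 : ℕ) rk52_13 i (by omega) (by omega)
  rcases Nat.lt_or_ge i 245760 with h14 | h14
  · exact allR_spec _ (229376 : ℕ) (16384 : ℕ) rk52_14 i (by omega) (by omega)
  rcases Nat.lt_or_ge i 262144 with h15 | h15
  · exact allR_spec _ (245760 : ℕ) (16384 : ℕ) rk52_15 i (by omega) (by omega)
  rcases Nat.lt_or_ge i 278528 with h16 | h16
  · exact allR_spec _ (262144 : ℕ) (16384 : ℕ) rk52_16 i (by omega) (by omega)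
  rcases Nat.lt_or_ge i 294912 with h17 | h17
  · exact allR_spec _ (278528 : ℕ) (16384 : ℕ) rk52_17 i (by omega) (by omega)
  exact allR_spec _ (294912 : ℕ) (12024 : ℕ) rk52_18 i (by omega) (by omega)
theorem rk53 : allR (fun i => powT [T8, T9] i (nat_lit 3) i) (nat_lit 0) (nat_lit 306936) = true := by
  apply allR_of_forall
  intro i hi
  have hi : i < 306936 := hi
  rcases Nat.lt_or_ge i 16384 with h0 | h0
  · exact allR_spec _ (0 : ℕ) (16384 : ℕ) rk53_0 i (by omega) (by omega)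
  rcases Nat.lt_or_ge i 32768 with h1 | h1
  · exact allR_spec _ (16384 : ℕ) (16384 : ℕ) rk53_1 i (by omega) (by omega)
  rcases Nat.lt_or_ge i 49152 with h2 | h2
  · exact allR_spec _ (32768 : ℕ) (16384 : ℕ) rk53_2 i (by omega) (by omega)
  rcases Nat.lt_or_ge i 65536 with h3 | h3
  · exact allR_spec _ (49152 : ℕ) (16384 : ℕ) rk53_3 i (by omega) (by omega)
  rcases Nat.lt_or_ge i 81920 with h4 | h4
  · exact allR_spec _ (65536 : ℕ) (16384 : ℕ) rk53_4 i (by omega) (by omega)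
  rcases Nat.lt_or_ge i 98304 with h5 | h5
  · exact allR_spec _ (81920 : ℕ) (16384 : ℕ) rk53_5 i (by omega) (by omega)
  rcases Nat.lt_or_ge i 114688 with h6 | h6
  · exact allR_spec _ (98304 : ℕ) (16384 : ℕ) rk53_6 i (by omega) (by omega)
  rcases Nat.lt_or_ge i 131072 with h7 | h7
  · exact allR_spec _ (114688 : ℕ) (16384 : ℕ) rk53_7 i (by omega) (by omega)
  rcases Nat.lt_or_ge i 147456 with h8 | h8
  · exact allR_spec _ (131072 : ℕ) (16384 : ℕ) rk53_8 i (by omega) (by omega)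
  rcases Nat.lt_or_ge i 163840 with h9 | h9
  · exact allR_spec _ (147456 : ℕ) (16384 : ℕ) rk53_9 i (by omega) (by omega)
  rcases Nat.lt_or_ge i 180224 with h10 | h10
  · exact allR_spec _ (163840 : ℕ) (16384 : ℕ) rk53_10 i (by omega) (by omega)
  rcases Nat.lt_or_ge i 196608 with h11 | h11
  · exact allR_spec _ (180224 : ℕ) (16384 : ℕ) rk53_11 i (by omega) (by omega)
  rcases Nat.lt_or_ge i 212992 with h12 | h12
  · exact allR_spec _ (196608 : ℕ) (16384 : ℕ) rk53_12 i (by omega) (by omega)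
  rcases Nat.lt_or_ge i 229376 with h13 | h13
  · exact allR_spec _ (212992 : ℕ) (16384 : ℕ) rk53_13 i (by omega) (by omega)
  rcases Nat.lt_or_ge i 245760 with h14 | h14
  · exact allR_spec _ (229376 : ℕ) (16384 : ℕ) rk53_14 i (by omega) (by omega)
  rcases Nat.lt_or_ge i 262144 with h15 | h15
  · exact allR_spec _ (245760 : ℕ) (16384 : ℕ) rk53_15 i (by omega) (by omega)
  rcases Nat.lt_or_ge i 278528 with h16 | h16
  · exact allR_spec _ (262144 : ℕ) (16384 : ℕ) rk53_16 i (by omega) (by omega)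
  rcases Nat.lt_or_ge i 294912 with h17 | h17
  · exact allR_spec _ (278528 : ℕ) (16384 : ℕ) rk53_17 i (by omega) (by omega)
  exact allR_spec _ (294912 : ℕ) (12024 : ℕ) rk53_18 i (by omega) (by omega)
theorem rk54 : allR (ckComm T8 T1) (nat_lit 0) (nat_lit 306936) = true := by
  apply allR_of_forall
  intro i hi
  have hi : i < 306936 := hi
  rcases Nat.lt_or_ge i 16384 with h0 | h0
  · exact allR_spec _ (0 : ℕ) (16384 : ℕ) rk54_0 i (by omega) (by omega)
  rcases Nat.lt_or_ge i 32768 with h1 | h1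
  · exact allR_spec _ (16384 : ℕ) (16384 : ℕ) rk54_1 i (by omega) (by omega)
  rcases Nat.lt_or_ge i 49152 with h2 | h2
  · exact allR_spec _ (32768 : ℕ) (16384 : ℕ) rk54_2 i (by omega) (by omega)
  rcases Nat.lt_or_ge i 65536 with h3 | h3
  · exact allR_spec _ (49152 : ℕ) (16384 : ℕ) rk54_3 i (by omega) (by omega)
  rcases Nat.lt_or_ge i 81920 with h4 | h4
  · exact allR_spec _ (65536 : ℕ) (16384 : ℕ) rk54_4 i (by omega) (by omega)
  rcases Nat.lt_or_ge i 98304 with h5 | h5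
  · exact allR_spec _ (81920 : ℕ) (16384 : ℕ) rk54_5 i (by omega) (by omega)
  rcases Nat.lt_or_ge i 114688 with h6 | h6
  · exact allR_spec _ (98304 : ℕ) (16384 : ℕ) rk54_6 i (by omega) (by omega)
  rcases Nat.lt_or_ge i 131072 with h7 | h7
  · exact allR_spec _ (114688 : ℕ) (16384 : ℕ) rk54_7 i (by omega) (by omega)
  rcases Nat.lt_or_ge i 147456 with h8 | h8
  · exact allR_spec _ (131072 : ℕ) (16384 : ℕ) rk54_8 i (by omega) (by omega)
  rcases Nat.lt_or_ge i 163840 with h9 | h9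
  · exact allR_spec _ (147456 : ℕ) (16384 : ℕ) rk54_9 i (by omega) (by omega)
  rcases Nat.lt_or_ge i 180224 with h10 | h10
  · exact allR_spec _ (163840 : ℕ) (16384 : ℕ) rk54_10 i (by omega) (by omega)
  rcases Nat.lt_or_ge i 196608 with h11 | h11
  · exact allR_spec _ (180224 : ℕ) (16384 : ℕ) rk54_11 i (by omega) (by omega)
  rcases Nat.lt_or_ge i 212992 with h12 | h12
  · exact allR_spec _ (196608 : ℕ) (16384 : ℕ) rk54_12 i (by omega) (by omega)
  rcases Nat.lt_or_ge i 229376 with h13 | h13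
  · exact allR_spec _ (212992 : ℕ) (16384 : ℕ) rk54_13 i (by omega) (by omega)
  rcases Nat.lt_or_ge i 245760 with h14 | h14
  · exact allR_spec _ (229376 : ℕ) (16384 : ℕ) rk54_14 i (by omega) (by omega)
  rcases Nat.lt_or_ge i 262144 with h15 | h15
  · exact allR_spec _ (245760 : ℕ) (16384 : ℕ) rk54_15 i (by omega) (by omega)
  rcases Nat.lt_or_ge i 278528 with h16 | h16
  · exact allR_spec _ (262144 : ℕ) (16384 : ℕ) rk54_16 i (by omega) (by omega)
  rcases Nat.lt_or_ge i 294912 with h17 | h17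
  · exact allR_spec _ (278528 : ℕ) (16384 : ℕ) rk54_17 i (by omega) (by omega)
  exact allR_spec _ (294912 : ℕ) (12024 : ℕ) rk54_18 i (by omega) (by omega)
theorem rk55 : allR (ckComm T8 T0) (nat_lit 0) (nat_lit 306936) = true := by
  apply allR_of_forall
  intro i hi
  have hi : i < 306936 := hi
  rcases Nat.lt_or_ge i 16384 with h0 | h0
  · exact allR_spec _ (0 : ℕ) (16384 : ℕ) rk55_0 i (by omega) (by omega)
  rcases Nat.lt_or_ge i 32768 with h1 | h1
  · exact allR_spec _ (16384 : ℕ) (16384 : ℕ) rk55_1 i (by omega) (by omega)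
  rcases Nat.lt_or_ge i 49152 with h2 | h2
  · exact allR_spec _ (32768 : ℕ) (16384 : ℕ) rk55_2 i (by omega) (by omega)
  rcases Nat.lt_or_ge i 65536 with h3 | h3
  · exact allR_spec _ (49152 : ℕ) (16384 : ℕ) rk55_3 i (by omega) (by omega)
  rcases Nat.lt_or_ge i 81920 with h4 | h4
  · exact allR_spec _ (65536 : ℕ) (16384 : ℕ) rk55_4 i (by omega) (by omega)
  rcases Nat.lt_or_ge i 98304 with h5 | h5
  · exact allR_spec _ (81920 : ℕ) (16384 : ℕ) rk55_5 i (by omega) (by omega)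
  rcases Nat.lt_or_ge i 114688 with h6 | h6
  · exact allR_spec _ (98304 : ℕ) (16384 : ℕ) rk55_6 i (by omega) (by omega)
  rcases Nat.lt_or_ge i 131072 with h7 | h7
  · exact allR_spec _ (114688 : ℕ) (16384 : ℕ) rk55_7 i (by omega) (by omega)
  rcases Nat.lt_or_ge i 147456 with h8 | h8
  · exact allR_spec _ (131072 : ℕ) (16384 : ℕ) rk55_8 i (by omega) (by omega)
  rcases Nat.lt_or_ge i 163840 with h9 | h9
  · exact allR_spec _ (147456 : ℕ) (16384 : ℕ) rk55_9 i (by omega) (by omega)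
  rcases Nat.lt_or_ge i 180224 with h10 | h10
  · exact allR_spec _ (163840 : ℕ) (16384 : ℕ) rk55_10 i (by omega) (by omega)
  rcases Nat.lt_or_ge i 196608 with h11 | h11
  · exact allR_spec _ (180224 : ℕ) (16384 : ℕ) rk55_11 i (by omega) (by omega)
  rcases Nat.lt_or_ge i 212992 with h12 | h12
  · exact allR_spec _ (196608 : ℕ) (16384 : ℕ) rk55_12 i (by omega) (by omega)
  rcases Nat.lt_or_ge i 229376 with h13 | h13
  · exact allR_spec _ (212992 : ℕ) (16384 : ℕ) rk55_13 i (by omega) (by omega)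
  rcases Nat.lt_or_ge i 245760 with h14 | h14
  · exact allR_spec _ (229376 : ℕ) (16384 : ℕ) rk55_14 i (by omega) (by omega)
  rcases Nat.lt_or_ge i 262144 with h15 | h15
  · exact allR_spec _ (245760 : ℕ) (16384 : ℕ) rk55_15 i (by omega) (by omega)
  rcases Nat.lt_or_ge i 278528 with h16 | h16
  · exact allR_spec _ (262144 : ℕ) (16384 : ℕ) rk55_16 i (by omega) (by omega)
  rcases Nat.lt_or_ge i 294912 with h17 | h17
  · exact allR_spec _ (278528 : ℕ) (16384 : ℕ) rk55_17 i (by omega) (by omega)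
  exact allR_spec _ (294912 : ℕ) (12024 : ℕ) rk55_18 i (by omega) (by omega)
theorem rk56 : allR (fun i => powT [T10, T11] i (nat_lit 3) i) (nat_lit 0) (nat_lit 306936) = true := by
  apply allR_of_forall
  intro i hi
  have hi : i < 306936 := hi
  rcases Nat.lt_or_ge i 16384 with h0 | h0
  · exact allR_spec _ (0 : ℕ) (16384 : ℕ) rk56_0 i (by omega) (by omega)
  rcases Nat.lt_or_ge i 32768 with h1 | h1
  · exact allR_spec _ (16384 : ℕ) (16384 : ℕ) rk56_1 i (by omega) (by omega)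
  rcases Nat.lt_or_ge i 49152 with h2 | h2
  · exact allR_spec _ (32768 : ℕ) (16384 : ℕ) rk56_2 i (by omega) (by omega)
  rcases Nat.lt_or_ge i 65536 with h3 | h3
  · exact allR_spec _ (49152 : ℕ) (16384 : ℕ) rk56_3 i (by omega) (by omega)
  rcases Nat.lt_or_ge i 81920 with h4 | h4
  · exact allR_spec _ (65536 : ℕ) (16384 : ℕ) rk56_4 i (by omega) (by omega)
  rcases Nat.lt_or_ge i 98304 with h5 | h5
  · exact allR_spec _ (81920 : ℕ) (16384 : ℕ) rk56_5 i (by omega) (by omega)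
  rcases Nat.lt_or_ge i 114688 with h6 | h6
  · exact allR_spec _ (98304 : ℕ) (16384 : ℕ) rk56_6 i (by omega) (by omega)
  rcases Nat.lt_or_ge i 131072 with h7 | h7
  · exact allR_spec _ (114688 : ℕ) (16384 : ℕ) rk56_7 i (by omega) (by omega)
  rcases Nat.lt_or_ge i 147456 with h8 | h8
  · exact allR_spec _ (131072 : ℕ) (16384 : ℕ) rk56_8 i (by omega) (by omega)
  rcases Nat.lt_or_ge i 163840 with h9 | h9
  · exact allR_spec _ (147456 : ℕ) (16384 : ℕ) rk56_9 i (by omega) (by omega)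
  rcases Nat.lt_or_ge i 180224 with h10 | h10
  · exact allR_spec _ (163840 : ℕ) (16384 : ℕ) rk56_10 i (by omega) (by omega)
  rcases Nat.lt_or_ge i 196608 with h11 | h11
  · exact allR_spec _ (180224 : ℕ) (16384 : ℕ) rk56_11 i (by omega) (by omega)
  rcases Nat.lt_or_ge i 212992 with h12 | h12
  · exact allR_spec _ (196608 : ℕ) (16384 : ℕ) rk56_12 i (by omega) (by omega)
  rcases Nat.lt_or_ge i 229376 with h13 | h13
  · exact allR_spec _ (212992 : ℕ) (16384 : ℕ) rk56_13 i (by omega) (by omega)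
  rcases Nat.lt_or_ge i 245760 with h14 | h14
  · exact allR_spec _ (229376 : ℕ) (16384 : ℕ) rk56_14 i (by omega) (by omega)
  rcases Nat.lt_or_ge i 262144 with h15 | h15
  · exact allR_spec _ (245760 : ℕ) (16384 : ℕ) rk56_15 i (by omega) (by omega)
  rcases Nat.lt_or_ge i 278528 with h16 | h16
  · exact allR_spec _ (262144 : ℕ) (16384 : ℕ) rk56_16 i (by omega) (by omega)
  rcases Nat.lt_or_ge i 294912 with h17 | h17
  · exact allR_spec _ (278528 : ℕ) (16384 : ℕ) rk56_17 i (by omega) (by omega)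
  exact allR_spec _ (294912 : ℕ) (12024 : ℕ) rk56_18 i (by omega) (by omega)
theorem rk57 : allR (ckComm T10 T9) (nat_lit 0) (nat_lit 306936) = true := by
  apply allR_of_forall
  intro i hi
  have hi : i < 306936 := hi
  rcases Nat.lt_or_ge i 16384 with h0 | h0
  · exact allR_spec _ (0 : ℕ) (16384 : ℕ) rk57_0 i (by omega) (by omega)
  rcases Nat.lt_or_ge i 32768 with h1 | h1
  · exact allR_spec _ (16384 : ℕ) (16384 : ℕ) rk57_1 i (by omega) (by omega)
  rcases Nat.lt_or_ge i 49152 with h2 | h2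
  · exact allR_spec _ (32768 : ℕ) (16384 : ℕ) rk57_2 i (by omega) (by omega)
  rcases Nat.lt_or_ge i 65536 with h3 | h3
  · exact allR_spec _ (49152 : ℕ) (16384 : ℕ) rk57_3 i (by omega) (by omega)
  rcases Nat.lt_or_ge i 81920 with h4 | h4
  · exact allR_spec _ (65536 : ℕ) (16384 : ℕ) rk57_4 i (by omega) (by omega)
  rcases Nat.lt_or_ge i 98304 with h5 | h5
  · exact allR_spec _ (81920 : ℕ) (16384 : ℕ) rk57_5 i (by omega) (by omega)
  rcases Nat.lt_or_ge i 114688 with h6 | h6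
  · exact allR_spec _ (98304 : ℕ) (16384 : ℕ) rk57_6 i (by omega) (by omega)
  rcases Nat.lt_or_ge i 131072 with h7 | h7
  · exact allR_spec _ (114688 : ℕ) (16384 : ℕ) rk57_7 i (by omega) (by omega)
  rcases Nat.lt_or_ge i 147456 with h8 | h8
  · exact allR_spec _ (131072 : ℕ) (16384 : ℕ) rk57_8 i (by omega) (by omega)
  rcases Nat.lt_or_ge i 163840 with h9 | h9
  · exact allR_spec _ (147456 : ℕ) (16384 : ℕ) rk57_9 i (by omega) (by omega)
  rcases Nat.lt_or_ge i 180224 with h10 | h10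
  · exact allR_spec _ (163840 : ℕ) (16384 : ℕ) rk57_10 i (by omega) (by omega)
  rcases Nat.lt_or_ge i 196608 with h11 | h11
  · exact allR_spec _ (180224 : ℕ) (16384 : ℕ) rk57_11 i (by omega) (by omega)
  rcases Nat.lt_or_ge i 212992 with h12 | h12
  · exact allR_spec _ (196608 : ℕ) (16384 : ℕ) rk57_12 i (by omega) (by omega)
  rcases Nat.lt_or_ge i 229376 with h13 | h13
  · exact allR_spec _ (212992 : ℕ) (16384 : ℕ) rk57_13 i (by omega) (by omega)
  rcases Nat.lt_or_ge i 245760 with h14 | h14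
  · exact allR_spec _ (229376 : ℕ) (16384 : ℕ) rk57_14 i (by omega) (by omega)
  rcases Nat.lt_or_ge i 262144 with h15 | h15
  · exact allR_spec _ (245760 : ℕ) (16384 : ℕ) rk57_15 i (by omega) (by omega)
  rcases Nat.lt_or_ge i 278528 with h16 | h16
  · exact allR_spec _ (262144 : ℕ) (16384 : ℕ) rk57_16 i (by omega) (by omega)
  rcases Nat.lt_or_ge i 294912 with h17 | h17
  · exact allR_spec _ (278528 : ℕ) (16384 : ℕ) rk57_17 i (by omega) (by omega)
  exact allR_spec _ (294912 : ℕ) (12024 : ℕ) rk57_18 i (by omega) (by omega)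
theorem rk58 : allR (ckComm T10 T1) (nat_lit 0) (nat_lit 306936) = true := by
  apply allR_of_forall
  intro i hi
  have hi : i < 306936 := hi
  rcases Nat.lt_or_ge i 16384 with h0 | h0
  · exact allR_spec _ (0 : ℕ) (16384 : ℕ) rk58_0 i (by omega) (by omega)
  rcases Nat.lt_or_ge i 32768 with h1 | h1
  · exact allR_spec _ (16384 : ℕ) (16384 : ℕ) rk58_1 i (by omega) (by omega)
  rcases Nat.lt_or_ge i 49152 with h2 | h2
  · exact allR_spec _ (32768 : ℕ) (16384 : ℕ) rk58_2 i (by omega) (by omega)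
  rcases Nat.lt_or_ge i 65536 with h3 | h3
  · exact allR_spec _ (49152 : ℕ) (16384 : ℕ) rk58_3 i (by omega) (by omega)
  rcases Nat.lt_or_ge i 81920 with h4 | h4
  · exact allR_spec _ (65536 : ℕ) (16384 : ℕ) rk58_4 i (by omega) (by omega)
  rcases Nat.lt_or_ge i 98304 with h5 | h5
  · exact allR_spec _ (81920 : ℕ) (16384 : ℕ) rk58_5 i (by omega) (by omega)
  rcases Nat.lt_or_ge i 114688 with h6 | h6
  · exact allR_spec _ (98304 : ℕ) (16384 : ℕ) rk58_6 i (by omega) (by omega)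
  rcases Nat.lt_or_ge i 131072 with h7 | h7
  · exact allR_spec _ (114688 : ℕ) (16384 : ℕ) rk58_7 i (by omega) (by omega)
  rcases Nat.lt_or_ge i 147456 with h8 | h8
  · exact allR_spec _ (131072 : ℕ) (16384 : ℕ) rk58_8 i (by omega) (by omega)
  rcases Nat.lt_or_ge i 163840 with h9 | h9
  · exact allR_spec _ (147456 : ℕ) (16384 : ℕ) rk58_9 i (by omega) (by omega)
  rcases Nat.lt_or_ge i 180224 with h10 | h10
  · exact allR_spec _ (163840 : ℕ) (16384 : ℕ) rk58_10 i (by omega) (by omega)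
  rcases Nat.lt_or_ge i 196608 with h11 | h11
  · exact allR_spec _ (180224 : ℕ) (16384 : ℕ) rk58_11 i (by omega) (by omega)
  rcases Nat.lt_or_ge i 212992 with h12 | h12
  · exact allR_spec _ (196608 : ℕ) (16384 : ℕ) rk58_12 i (by omega) (by omega)
  rcases Nat.lt_or_ge i 229376 with h13 | h13
  · exact allR_spec _ (212992 : ℕ) (16384 : ℕ) rk58_13 i (by omega) (by omega)
  rcases Nat.lt_or_ge i 245760 with h14 | h14
  · exact allR_spec _ (229376 : ℕ) (16384 : ℕ) rk58_14 i (by omega) (by omega)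
  rcases Nat.lt_or_ge i 262144 with h15 | h15
  · exact allR_spec _ (245760 : ℕ) (16384 : ℕ) rk58_15 i (by omega) (by omega)
  rcases Nat.lt_or_ge i 278528 with h16 | h16
  · exact allR_spec _ (262144 : ℕ) (16384 : ℕ) rk58_16 i (by omega) (by omega)
  rcases Nat.lt_or_ge i 294912 with h17 | h17
  · exact allR_spec _ (278528 : ℕ) (16384 : ℕ) rk58_17 i (by omega) (by omega)
  exact allR_spec _ (294912 : ℕ) (12024 : ℕ) rk58_18 i (by omega) (by omega)
theorem rk59 : allR (ckComm T10 T0) (nat_lit 0) (nat_lit 306936) = true := by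
  apply allR_of_forall
  intro i hi
  have hi : i < 306936 := hi
  rcases Nat.lt_or_ge i 16384 with h0 | h0
  · exact allR_spec _ (0 : ℕ) (16384 : ℕ) rk59_0 i (by omega) (by omega)
  rcases Nat.lt_or_ge i 32768 with h1 | h1
  · exact allR_spec _ (16384 : ℕ) (16384 : ℕ) rk59_1 i (by omega) (by omega)
  rcases Nat.lt_or_ge i 49152 with h2 | h2
  · exact allR_spec _ (32768 : ℕ) (16384 : ℕ) rk59_2 i (by omega) (by omega)
  rcases Nat.lt_or_ge i 65536 with h3 | h3
  · exact allR_spec _ (49152 : ℕ) (16384 : ℕ) rk59_3 i (by omega) (by omega)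
  rcases Nat.lt_or_ge i 81920 with h4 | h4
  · exact allR_spec _ (65536 : ℕ) (16384 : ℕ) rk59_4 i (by omega) (by omega)
  rcases Nat.lt_or_ge i 98304 with h5 | h5
  · exact allR_spec _ (81920 : ℕ) (16384 : ℕ) rk59_5 i (by omega) (by omega)
  rcases Nat.lt_or_ge i 114688 with h6 | h6
  · exact allR_spec _ (98304 : ℕ) (16384 : ℕ) rk59_6 i (by omega) (by omega)
  rcases Nat.lt_or_ge i 131072 with h7 | h7
  · exact allR_spec _ (114688 : ℕ) (16384 : ℕ) rk59_7 i (by omega) (by omega)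
  rcases Nat.lt_or_ge i 147456 with h8 | h8
  · exact allR_spec _ (131072 : ℕ) (16384 : ℕ) rk59_8 i (by omega) (by omega)
  rcases Nat.lt_or_ge i 163840 with h9 | h9
  · exact allR_spec _ (147456 : ℕ) (16384 : ℕ) rk59_9 i (by omega) (by omega)
  rcases Nat.lt_or_ge i 180224 with h10 | h10
  · exact allR_spec _ (163840 : ℕ) (16384 : ℕ) rk59_10 i (by omega) (by omega)
  rcases Nat.lt_or_ge i 196608 with h11 | h11
  · exact allR_spec _ (180224 : ℕ) (16384 : ℕ) rk59_11 i (by omega) (by omega)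
  rcases Nat.lt_or_ge i 212992 with h12 | h12
  · exact allR_spec _ (196608 : ℕ) (16384 : ℕ) rk59_12 i (by omega) (by omega)
  rcases Nat.lt_or_ge i 229376 with h13 | h13
  · exact allR_spec _ (212992 : ℕ) (16384 : ℕ) rk59_13 i (by omega) (by omega)
  rcases Nat.lt_or_ge i 245760 with h14 | h14
  · exact allR_spec _ (229376 : ℕ) (16384 : ℕ) rk59_14 i (by omega) (by omega)
  rcases Nat.lt_or_ge i 262144 with h15 | h15
  · exact allR_spec _ (245760 : ℕ) (16384 : ℕ) rk59_15 i (by omega) (by omega)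
  rcases Nat.lt_or_ge i 278528 with h16 | h16
  · exact allR_spec _ (262144 : ℕ) (16384 : ℕ) rk59_16 i (by omega) (by omega)
  rcases Nat.lt_or_ge i 294912 with h17 | h17
  · exact allR_spec _ (278528 : ℕ) (16384 : ℕ) rk59_17 i (by omega) (by omega)
  exact allR_spec _ (294912 : ℕ) (12024 : ℕ) rk59_18 i (by omega) (by omega)
theorem rk60 : allR (ckComm T11 T9) (nat_lit 0) (nat_lit 306936) = true := by
  apply allR_of_forall
  intro i hi
  have hi : i < 306936 := hi
  rcases Nat.lt_or_ge i 16384 with h0 | h0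
  · exact allR_spec _ (0 : ℕ) (16384 : ℕ) rk60_0 i (by omega) (by omega)
  rcases Nat.lt_or_ge i 32768 with h1 | h1
  · exact allR_spec _ (16384 : ℕ) (16384 : ℕ) rk60_1 i (by omega) (by omega)
  rcases Nat.lt_or_ge i 49152 with h2 | h2
  · exact allR_spec _ (32768 : ℕ) (16384 : ℕ) rk60_2 i (by omega) (by omega)
  rcases Nat.lt_or_ge i 65536 with h3 | h3
  · exact allR_spec _ (49152 : ℕ) (16384 : ℕ) rk60_3 i (by omega) (by omega)
  rcases Nat.lt_or_ge i 81920 with h4 | h4
  · exact allR_spec _ (65536 : ℕ) (16384 : ℕ) rk60_4 i (by omega) (by omega)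
  rcases Nat.lt_or_ge i 98304 with h5 | h5
  · exact allR_spec _ (81920 : ℕ) (16384 : ℕ) rk60_5 i (by omega) (by omega)
  rcases Nat.lt_or_ge i 114688 with h6 | h6
  · exact allR_spec _ (98304 : ℕ) (16384 : ℕ) rk60_6 i (by omega) (by omega)
  rcases Nat.lt_or_ge i 131072 with h7 | h7
  · exact allR_spec _ (114688 : ℕ) (16384 : ℕ) rk60_7 i (by omega) (by omega)
  rcases Nat.lt_or_ge i 147456 with h8 | h8
  · exact allR_spec _ (131072 : ℕ) (16384 : ℕ) rk60_8 i (by omega) (by omega)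
  rcases Nat.lt_or_ge i 163840 with h9 | h9
  · exact allR_spec _ (147456 : ℕ) (16384 : ℕ) rk60_9 i (by omega) (by omega)
  rcases Nat.lt_or_ge i 180224 with h10 | h10
  · exact allR_spec _ (163840 : ℕ) (16384 : ℕ) rk60_10 i (by omega) (by omega)
  rcases Nat.lt_or_ge i 196608 with h11 | h11
  · exact allR_spec _ (180224 : ℕ) (16384 : ℕ) rk60_11 i (by omega) (by omega)
  rcases Nat.lt_or_ge i 212992 with h12 | h12
  · exact allR_spec _ (196608 : ℕ) (16384 : ℕ) rk60_12 i (by omega) (by omega)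
  rcases Nat.lt_or_ge i 229376 with h13 | h13
  · exact allR_spec _ (212992 : ℕ) (16384 : ℕ) rk60_13 i (by omega) (by omega)
  rcases Nat.lt_or_ge i 245760 with h14 | h14
  · exact allR_spec _ (229376 : ℕ) (16384 : ℕ) rk60_14 i (by omega) (by omega)
  rcases Nat.lt_or_ge i 262144 with h15 | h15
  · exact allR_spec _ (245760 : ℕ) (16384 : ℕ) rk60_15 i (by omega) (by omega)
  rcases Nat.lt_or_ge i 278528 with h16 | h16
  · exact allR_spec _ (262144 : ℕ) (16384 : ℕ) rk60_16 i (by omega) (by omega)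
  rcases Nat.lt_or_ge i 294912 with h17 | h17
  · exact allR_spec _ (278528 : ℕ) (16384 : ℕ) rk60_17 i (by omega) (by omega)
  exact allR_spec _ (294912 : ℕ) (12024 : ℕ) rk60_18 i (by omega) (by omega)
theorem rk61 : allR (ckComm T11 T1) (nat_lit 0) (nat_lit 306936) = true := by
  apply allR_of_forall
  intro i hi
  have hi : i < 306936 := hi
  rcases Nat.lt_or_ge i 16384 with h0 | h0
  · exact allR_spec _ (0 : ℕ) (16384 : ℕ) rk61_0 i (by omega) (by omega)
  rcases Nat.lt_or_ge i 32768 with h1 | h1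
  · exact allR_spec _ (16384 : ℕ) (16384 : ℕ) rk61_1 i (by omega) (by omega)
  rcases Nat.lt_or_ge i 49152 with h2 | h2
  · exact allR_spec _ (32768 : ℕ) (16384 : ℕ) rk61_2 i (by omega) (by omega)
  rcases Nat.lt_or_ge i 65536 with h3 | h3
  · exact allR_spec _ (49152 : ℕ) (16384 : ℕ) rk61_3 i (by omega) (by omega)
  rcases Nat.lt_or_ge i 81920 with h4 | h4
  · exact allR_spec _ (65536 : ℕ) (16384 : ℕ) rk61_4 i (by omega) (by omega)
  rcases Nat.lt_or_ge i 98304 with h5 | h5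
  · exact allR_spec _ (81920 : ℕ) (16384 : ℕ) rk61_5 i (by omega) (by omega)
  rcases Nat.lt_or_ge i 114688 with h6 | h6
  · exact allR_spec _ (98304 : ℕ) (16384 : ℕ) rk61_6 i (by omega) (by omega)
  rcases Nat.lt_or_ge i 131072 with h7 | h7
  · exact allR_spec _ (114688 : ℕ) (16384 : ℕ) rk61_7 i (by omega) (by omega)
  rcases Nat.lt_or_ge i 147456 with h8 | h8
  · exact allR_spec _ (131072 : ℕ) (16384 : ℕ) rk61_8 i (by omega) (by omega)
  rcases Nat.lt_or_ge i 163840 with h9 | h9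
  · exact allR_spec _ (147456 : ℕ) (16384 : ℕ) rk61_9 i (by omega) (by omega)
  rcases Nat.lt_or_ge i 180224 with h10 | h10
  · exact allR_spec _ (163840 : ℕ) (16384 : ℕ) rk61_10 i (by omega) (by omega)
  rcases Nat.lt_or_ge i 196608 with h11 | h11
  · exact allR_spec _ (180224 : ℕ) (16384 : ℕ) rk61_11 i (by omega) (by omega)
  rcases Nat.lt_or_ge i 212992 with h12 | h12
  · exact allR_spec _ (196608 : ℕ) (16384 : ℕ) rk61_12 i (by omega) (by omega)
  rcases Nat.lt_or_ge i 229376 with h13 | h13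
  · exact allR_spec _ (212992 : ℕ) (16384 : ℕ) rk61_13 i (by omega) (by omega)
  rcases Nat.lt_or_ge i 245760 with h14 | h14
  · exact allR_spec _ (229376 : ℕ) (16384 : ℕ) rk61_14 i (by omega) (by omega)
  rcases Nat.lt_or_ge i 262144 with h15 | h15
  · exact allR_spec _ (245760 : ℕ) (16384 : ℕ) rk61_15 i (by omega) (by omega)
  rcases Nat.lt_or_ge i 278528 with h16 | h16
  · exact allR_spec _ (262144 : ℕ) (16384 : ℕ) rk61_16 i (by omega) (by omega)
  rcases Nat.lt_or_ge i 294912 with h17 | h17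
  · exact allR_spec _ (278528 : ℕ) (16384 : ℕ) rk61_17 i (by omega) (by omega)
  exact allR_spec _ (294912 : ℕ) (12024 : ℕ) rk61_18 i (by omega) (by omega)
theorem rk62 : allR (ckComm T11 T0) (nat_lit 0) (nat_lit 306936) = true := by
  apply allR_of_forall
  intro i hi
  have hi : i < 306936 := hi
  rcases Nat.lt_or_ge i 16384 with h0 | h0
  · exact allR_spec _ (0 : ℕ) (16384 : ℕ) rk62_0 i (by omega) (by omega)
  rcases Nat.lt_or_ge i 32768 with h1 | h1
  · exact allR_spec _ (16384 : ℕ) (16384 : ℕ) rk62_1 i (by omega) (by omega)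
  rcases Nat.lt_or_ge i 49152 with h2 | h2
  · exact allR_spec _ (32768 : ℕ) (16384 : ℕ) rk62_2 i (by omega) (by omega)
  rcases Nat.lt_or_ge i 65536 with h3 | h3
  · exact allR_spec _ (49152 : ℕ) (16384 : ℕ) rk62_3 i (by omega) (by omega)
  rcases Nat.lt_or_ge i 81920 with h4 | h4
  · exact allR_spec _ (65536 : ℕ) (16384 : ℕ) rk62_4 i (by omega) (by omega)
  rcases Nat.lt_or_ge i 98304 with h5 | h5
  · exact allR_spec _ (81920 : ℕ) (16384 : ℕ) rk62_5 i (by omega) (by omega)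
  rcases Nat.lt_or_ge i 114688 with h6 | h6
  · exact allR_spec _ (98304 : ℕ) (16384 : ℕ) rk62_6 i (by omega) (by omega)
  rcases Nat.lt_or_ge i 131072 with h7 | h7
  · exact allR_spec _ (114688 : ℕ) (16384 : ℕ) rk62_7 i (by omega) (by omega)
  rcases Nat.lt_or_ge i 147456 with h8 | h8
  · exact allR_spec _ (131072 : ℕ) (16384 : ℕ) rk62_8 i (by omega) (by omega)
  rcases Nat.lt_or_ge i 163840 with h9 | h9
  · exact allR_spec _ (147456 : ℕ) (16384 : ℕ) rk62_9 i (by omega) (by omega)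
  rcases Nat.lt_or_ge i 180224 with h10 | h10
  · exact allR_spec _ (163840 : ℕ) (16384 : ℕ) rk62_10 i (by omega) (by omega)
  rcases Nat.lt_or_ge i 196608 with h11 | h11
  · exact allR_spec _ (180224 : ℕ) (16384 : ℕ) rk62_11 i (by omega) (by omega)
  rcases Nat.lt_or_ge i 212992 with h12 | h12
  · exact allR_spec _ (196608 : ℕ) (16384 : ℕ) rk62_12 i (by omega) (by omega)
  rcases Nat.lt_or_ge i 229376 with h13 | h13
  · exact allR_spec _ (212992 : ℕ) (16384 : ℕ) rk62_13 i (by omega) (by omega)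
  rcases Nat.lt_or_ge i 245760 with h14 | h14
  · exact allR_spec _ (229376 : ℕ) (16384 : ℕ) rk62_14 i (by omega) (by omega)
  rcases Nat.lt_or_ge i 262144 with h15 | h15
  · exact allR_spec _ (245760 : ℕ) (16384 : ℕ) rk62_15 i (by omega) (by omega)
  rcases Nat.lt_or_ge i 278528 with h16 | h16
  · exact allR_spec _ (262144 : ℕ) (16384 : ℕ) rk62_16 i (by omega) (by omega)
  rcases Nat.lt_or_ge i 294912 with h17 | h17
  · exact allR_spec _ (278528 : ℕ) (16384 : ℕ) rk62_17 i (by omega) (by omega)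
  exact allR_spec _ (294912 : ℕ) (12024 : ℕ) rk62_18 i (by omega) (by omega)
theorem rk63 : allR (ckComm T9 T1) (nat_lit 0) (nat_lit 306936) = true := by
  apply allR_of_forall
  intro i hi
  have hi : i < 306936 := hi
  rcases Nat.lt_or_ge i 16384 with h0 | h0
  · exact allR_spec _ (0 : ℕ) (16384 : ℕ) rk63_0 i (by omega) (by omega)
  rcases Nat.lt_or_ge i 32768 with h1 | h1
  · exact allR_spec _ (16384 : ℕ) (16384 : ℕ) rk63_1 i (by omega) (by omega)
  rcases Nat.lt_or_ge i 49152 with h2 | h2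
  · exact allR_spec _ (32768 : ℕ) (16384 : ℕ) rk63_2 i (by omega) (by omega)
  rcases Nat.lt_or_ge i 65536 with h3 | h3
  · exact allR_spec _ (49152 : ℕ) (16384 : ℕ) rk63_3 i (by omega) (by omega)
  rcases Nat.lt_or_ge i 81920 with h4 | h4
  · exact allR_spec _ (65536 : ℕ) (16384 : ℕ) rk63_4 i (by omega) (by omega)
  rcases Nat.lt_or_ge i 98304 with h5 | h5
  · exact allR_spec _ (81920 : ℕ) (16384 : ℕ) rk63_5 i (by omega) (by omega)
  rcases Nat.lt_or_ge i 114688 with h6 | h6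
  · exact allR_spec _ (98304 : ℕ) (16384 : ℕ) rk63_6 i (by omega) (by omega)
  rcases Nat.lt_or_ge i 131072 with h7 | h7
  · exact allR_spec _ (114688 : ℕ) (16384 : ℕ) rk63_7 i (by omega) (by omega)
  rcases Nat.lt_or_ge i 147456 with h8 | h8
  · exact allR_spec _ (131072 : ℕ) (16384 : ℕ) rk63_8 i (by omega) (by omega)
  rcases Nat.lt_or_ge i 163840 with h9 | h9
  · exact allR_spec _ (147456 : ℕ) (16384 : ℕ) rk63_9 i (by omega) (by omega)
  rcases Nat.lt_or_ge i 180224 with h10 | h10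
  · exact allR_spec _ (163840 : ℕ) (16384 : ℕ) rk63_10 i (by omega) (by omega)
  rcases Nat.lt_or_ge i 196608 with h11 | h11
  · exact allR_spec _ (180224 : ℕ) (16384 : ℕ) rk63_11 i (by omega) (by omega)
  rcases Nat.lt_or_ge i 212992 with h12 | h12
  · exact allR_spec _ (196608 : ℕ) (16384 : ℕ) rk63_12 i (by omega) (by omega)
  rcases Nat.lt_or_ge i 229376 with h13 | h13
  · exact allR_spec _ (212992 : ℕ) (16384 : ℕ) rk63_13 i (by omega) (by omega)
  rcases Nat.lt_or_ge i 245760 with h14 | h14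
  · exact allR_spec _ (229376 : ℕ) (16384 : ℕ) rk63_14 i (by omega) (by omega)
  rcases Nat.lt_or_ge i 262144 with h15 | h15
  · exact allR_spec _ (245760 : ℕ) (16384 : ℕ) rk63_15 i (by omega) (by omega)
  rcases Nat.lt_or_ge i 278528 with h16 | h16
  · exact allR_spec _ (262144 : ℕ) (16384 : ℕ) rk63_16 i (by omega) (by omega)
  rcases Nat.lt_or_ge i 294912 with h17 | h17
  · exact allR_spec _ (278528 : ℕ) (16384 : ℕ) rk63_17 i (by omega) (by omega)
  exact allR_spec _ (294912 : ℕ) (12024 : ℕ) rk63_18 i (by omega) (by omega)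
theorem rk64 : allR (ckComm T9 T0) (nat_lit 0) (nat_lit 306936) = true := by
  apply allR_of_forall
  intro i hi
  have hi : i < 306936 := hi
  rcases Nat.lt_or_ge i 16384 with h0 | h0
  · exact allR_spec _ (0 : ℕ) (16384 : ℕ) rk64_0 i (by omega) (by omega)
  rcases Nat.lt_or_ge i 32768 with h1 | h1
  · exact allR_spec _ (16384 : ℕ) (16384 : ℕ) rk64_1 i (by omega) (by omega)
  rcases Nat.lt_or_ge i 49152 with h2 | h2
  · exact allR_spec _ (32768 : ℕ) (16384 : ℕ) rk64_2 i (by omega) (by omega)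
  rcases Nat.lt_or_ge i 65536 with h3 | h3
  · exact allR_spec _ (49152 : ℕ) (16384 : ℕ) rk64_3 i (by omega) (by omega)
  rcases Nat.lt_or_ge i 81920 with h4 | h4
  · exact allR_spec _ (65536 : ℕ) (16384 : ℕ) rk64_4 i (by omega) (by omega)
  rcases Nat.lt_or_ge i 98304 with h5 | h5
  · exact allR_spec _ (81920 : ℕ) (16384 : ℕ) rk64_5 i (by omega) (by omega)
  rcases Nat.lt_or_ge i 114688 with h6 | h6
  · exact allR_spec _ (98304 : ℕ) (16384 : ℕ) rk64_6 i (by omega) (by omega)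
  rcases Nat.lt_or_ge i 131072 with h7 | h7
  · exact allR_spec _ (114688 : ℕ) (16384 : ℕ) rk64_7 i (by omega) (by omega)
  rcases Nat.lt_or_ge i 147456 with h8 | h8
  · exact allR_spec _ (131072 : ℕ) (16384 : ℕ) rk64_8 i (by omega) (by omega)
  rcases Nat.lt_or_ge i 163840 with h9 | h9
  · exact allR_spec _ (147456 : ℕ) (16384 : ℕ) rk64_9 i (by omega) (by omega)
  rcases Nat.lt_or_ge i 180224 with h10 | h10
  · exact allR_spec _ (163840 : ℕ) (16384 : ℕ) rk64_10 i (by omega) (by omega)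
  rcases Nat.lt_or_ge i 196608 with h11 | h11
  · exact allR_spec _ (180224 : ℕ) (16384 : ℕ) rk64_11 i (by omega) (by omega)
  rcases Nat.lt_or_ge i 212992 with h12 | h12
  · exact allR_spec _ (196608 : ℕ) (16384 : ℕ) rk64_12 i (by omega) (by omega)
  rcases Nat.lt_or_ge i 229376 with h13 | h13
  · exact allR_spec _ (212992 : ℕ) (16384 : ℕ) rk64_13 i (by omega) (by omega)
  rcases Nat.lt_or_ge i 245760 with h14 | h14
  · exact allR_spec _ (229376 : ℕ) (16384 : ℕ) rk64_14 i (by omega) (by omega)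
  rcases Nat.lt_or_ge i 262144 with h15 | h15
  · exact allR_spec _ (245760 : ℕ) (16384 : ℕ) rk64_15 i (by omega) (by omega)
  rcases Nat.lt_or_ge i 278528 with h16 | h16
  · exact allR_spec _ (262144 : ℕ) (16384 : ℕ) rk64_16 i (by omega) (by omega)
  rcases Nat.lt_or_ge i 294912 with h17 | h17
  · exact allR_spec _ (278528 : ℕ) (16384 : ℕ) rk64_17 i (by omega) (by omega)
  exact allR_spec _ (294912 : ℕ) (12024 : ℕ) rk64_18 i (by omega) (by omega)
theorem rk65 : allR (fun i => powT [T1, T0] i (nat_lit 3) i) (nat_lit 0) (nat_lit 306936) = true := by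
  apply allR_of_forall
  intro i hi
  have hi : i < 306936 := hi
  rcases Nat.lt_or_ge i 16384 with h0 | h0
  · exact allR_spec _ (0 : ℕ) (16384 : ℕ) rk65_0 i (by omega) (by omega)
  rcases Nat.lt_or_ge i 32768 with h1 | h1
  · exact allR_spec _ (16384 : ℕ) (16384 : ℕ) rk65_1 i (by omega) (by omega)
  rcases Nat.lt_or_ge i 49152 with h2 | h2
  · exact allR_spec _ (32768 : ℕ) (16384 : ℕ) rk65_2 i (by omega) (by omega)
  rcases Nat.lt_or_ge i 65536 with h3 | h3
  · exact allR_spec _ (49152 : ℕ) (16384 : ℕ) rk65_3 i (by omega) (by omega)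
  rcases Nat.lt_or_ge i 81920 with h4 | h4
  · exact allR_spec _ (65536 : ℕ) (16384 : ℕ) rk65_4 i (by omega) (by omega)
  rcases Nat.lt_or_ge i 98304 with h5 | h5
  · exact allR_spec _ (81920 : ℕ) (16384 : ℕ) rk65_5 i (by omega) (by omega)
  rcases Nat.lt_or_ge i 114688 with h6 | h6
  · exact allR_spec _ (98304 : ℕ) (16384 : ℕ) rk65_6 i (by omega) (by omega)
  rcases Nat.lt_or_ge i 131072 with h7 | h7
  · exact allR_spec _ (114688 : ℕ) (16384 : ℕ) rk65_7 i (by omega) (by omega)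
  rcases Nat.lt_or_ge i 147456 with h8 | h8
  · exact allR_spec _ (131072 : ℕ) (16384 : ℕ) rk65_8 i (by omega) (by omega)
  rcases Nat.lt_or_ge i 163840 with h9 | h9
  · exact allR_spec _ (147456 : ℕ) (16384 : ℕ) rk65_9 i (by omega) (by omega)
  rcases Nat.lt_or_ge i 180224 with h10 | h10
  · exact allR_spec _ (163840 : ℕ) (16384 : ℕ) rk65_10 i (by omega) (by omega)
  rcases Nat.lt_or_ge i 196608 with h11 | h11
  · exact allR_spec _ (180224 : ℕ) (16384 : ℕ) rk65_11 i (by omega) (by omega)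
  rcases Nat.lt_or_ge i 212992 with h12 | h12
  · exact allR_spec _ (196608 : ℕ) (16384 : ℕ) rk65_12 i (by omega) (by omega)
  rcases Nat.lt_or_ge i 229376 with h13 | h13
  · exact allR_spec _ (212992 : ℕ) (16384 : ℕ) rk65_13 i (by omega) (by omega)
  rcases Nat.lt_or_ge i 245760 with h14 | h14
  · exact allR_spec _ (229376 : ℕ) (16384 : ℕ) rk65_14 i (by omega) (by omega)
  rcases Nat.lt_or_ge i 262144 with h15 | h15
  · exact allR_spec _ (245760 : ℕ) (16384 : ℕ) rk65_15 i (by omega) (by omega)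
  rcases Nat.lt_or_ge i 278528 with h16 | h16
  · exact allR_spec _ (262144 : ℕ) (16384 : ℕ) rk65_16 i (by omega) (by omega)
  rcases Nat.lt_or_ge i 294912 with h17 | h17
  · exact allR_spec _ (278528 : ℕ) (16384 : ℕ) rk65_17 i (by omega) (by omega)
  exact allR_spec _ (294912 : ℕ) (12024 : ℕ) rk65_18 i (by omega) (by omega)
theorem we_all : ∀ i < 306936, (OT.ckEqW [T5, T4, T3, T2, T1, T0, T5, T6, T7, T8, T9, T5, T10, T11] [W67]) i = true := by
  intro i hi
  rcases Nat.lt_or_ge i 8192 with h0 | h0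
  · exact allR_spec _ (0 : ℕ) (8192 : ℕ) we_0 i (by omega) (by omega)
  rcases Nat.lt_or_ge i 16384 with h1 | h1
  · exact allR_spec _ (8192 : ℕ) (8192 : ℕ) we_1 i (by omega) (by omega)
  rcases Nat.lt_or_ge i 24576 with h2 | h2
  · exact allR_spec _ (16384 : ℕ) (8192 : ℕ) we_2 i (by omega) (by omega)
  rcases Nat.lt_or_ge i 32768 with h3 | h3
  · exact allR_spec _ (24576 : ℕ) (8192 : ℕ) we_3 i (by omega) (by omega)
  rcases Nat.lt_or_ge i 40960 with h4 | h4
  · exact allR_spec _ (32768 : ℕ) (8192 : ℕ) we_4 i (by omega) (by omega)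
  rcases Nat.lt_or_ge i 49152 with h5 | h5
  · exact allR_spec _ (40960 : ℕ) (8192 : ℕ) we_5 i (by omega) (by omega)
  rcases Nat.lt_or_ge i 57344 with h6 | h6
  · exact allR_spec _ (49152 : ℕ) (8192 : ℕ) we_6 i (by omega) (by omega)
  rcases Nat.lt_or_ge i 65536 with h7 | h7
  · exact allR_spec _ (57344 : ℕ) (8192 : ℕ) we_7 i (by omega) (by omega)
  rcases Nat.lt_or_ge i 73728 with h8 | h8
  · exact allR_spec _ (65536 : ℕ) (8192 : ℕ) we_8 i (by omega) (by omega)
  rcases Nat.lt_or_ge i 81920 with h9 | h9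
  · exact allR_spec _ (73728 : ℕ) (8192 : ℕ) we_9 i (by omega) (by omega)
  rcases Nat.lt_or_ge i 90112 with h10 | h10
  · exact allR_spec _ (81920 : ℕ) (8192 : ℕ) we_10 i (by omega) (by omega)
  rcases Nat.lt_or_ge i 98304 with h11 | h11
  · exact allR_spec _ (90112 : ℕ) (8192 : ℕ) we_11 i (by omega) (by omega)
  rcases Nat.lt_or_ge i 106496 with h12 | h12
  · exact allR_spec _ (98304 : ℕ) (8192 : ℕ) we_12 i (by omega) (by omega)
  rcases Nat.lt_or_ge i 114688 with h13 | h13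
  · exact allR_spec _ (106496 : ℕ) (8192 : ℕ) we_13 i (by omega) (by omega)
  rcases Nat.lt_or_ge i 122880 with h14 | h14
  · exact allR_spec _ (114688 : ℕ) (8192 : ℕ) we_14 i (by omega) (by omega)
  rcases Nat.lt_or_ge i 131072 with h15 | h15
  · exact allR_spec _ (122880 : ℕ) (8192 : ℕ) we_15 i (by omega) (by omega)
  rcases Nat.lt_or_ge i 139264 with h16 | h16
  · exact allR_spec _ (131072 : ℕ) (8192 : ℕ) we_16 i (by omega) (by omega)
  rcases Nat.lt_or_ge i 147456 with h17 | h17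
  · exact allR_spec _ (139264 : ℕ) (8192 : ℕ) we_17 i (by omega) (by omega)
  rcases Nat.lt_or_ge i 155648 with h18 | h18
  · exact allR_spec _ (147456 : ℕ) (8192 : ℕ) we_18 i (by omega) (by omega)
  rcases Nat.lt_or_ge i 163840 with h19 | h19
  · exact allR_spec _ (155648 : ℕ) (8192 : ℕ) we_19 i (by omega) (by omega)
  rcases Nat.lt_or_ge i 172032 with h20 | h20
  · exact allR_spec _ (163840 : ℕ) (8192 : ℕ) we_20 i (by omega) (by omega)
  rcases Nat.lt_or_ge i 180224 with h21 | h21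
  · exact allR_spec _ (172032 : ℕ) (8192 : ℕ) we_21 i (by omega) (by omega)
  rcases Nat.lt_or_ge i 188416 with h22 | h22
  · exact allR_spec _ (180224 : ℕ) (8192 : ℕ) we_22 i (by omega) (by omega)
  rcases Nat.lt_or_ge i 196608 with h23 | h23
  · exact allR_spec _ (188416 : ℕ) (8192 : ℕ) we_23 i (by omega) (by omega)
  rcases Nat.lt_or_ge i 204800 with h24 | h24
  · exact allR_spec _ (196608 : ℕ) (8192 : ℕ) we_24 i (by omega) (by omega)
  rcases Nat.lt_or_ge i 212992 with h25 | h25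
  · exact allR_spec _ (204800 : ℕ) (8192 : ℕ) we_25 i (by omega) (by omega)
  rcases Nat.lt_or_ge i 221184 with h26 | h26
  · exact allR_spec _ (212992 : ℕ) (8192 : ℕ) we_26 i (by omega) (by omega)
  rcases Nat.lt_or_ge i 229376 with h27 | h27
  · exact allR_spec _ (221184 : ℕ) (8192 : ℕ) we_27 i (by omega) (by omega)
  rcases Nat.lt_or_ge i 237568 with h28 | h28
  · exact allR_spec _ (229376 : ℕ) (8192 : ℕ) we_28 i (by omega) (by omega)
  rcases Nat.lt_or_ge i 245760 with h29 | h29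
  · exact allR_spec _ (237568 : ℕ) (8192 : ℕ) we_29 i (by omega) (by omega)
  rcases Nat.lt_or_ge i 253952 with h30 | h30
  · exact allR_spec _ (245760 : ℕ) (8192 : ℕ) we_30 i (by omega) (by omega)
  rcases Nat.lt_or_ge i 262144 with h31 | h31
  · exact allR_spec _ (253952 : ℕ) (8192 : ℕ) we_31 i (by omega) (by omega)
  rcases Nat.lt_or_ge i 270336 with h32 | h32
  · exact allR_spec _ (262144 : ℕ) (8192 : ℕ) we_32 i (by omega) (by omega)
  rcases Nat.lt_or_ge i 278528 with h33 | h33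
  · exact allR_spec _ (270336 : ℕ) (8192 : ℕ) we_33 i (by omega) (by omega)
  rcases Nat.lt_or_ge i 286720 with h34 | h34
  · exact allR_spec _ (278528 : ℕ) (8192 : ℕ) we_34 i (by omega) (by omega)
  rcases Nat.lt_or_ge i 294912 with h35 | h35
  · exact allR_spec _ (286720 : ℕ) (8192 : ℕ) we_35 i (by omega) (by omega)
  rcases Nat.lt_or_ge i 303104 with h36 | h36
  · exact allR_spec _ (294912 : ℕ) (8192 : ℕ) we_36 i (by omega) (by omega)
  exact allR_spec _ (303104 : ℕ) (3832 : ℕ) we_37 i (by omega) (by omega)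
theorem wp_all : ∀ i < 306936, (fun i => powT [W67] i (nat_lit 17) i) i = true := by
  intro i hi
  rcases Nat.lt_or_ge i 8192 with h0 | h0
  · exact allR_spec _ (0 : ℕ) (8192 : ℕ) wp_0 i (by omega) (by omega)
  rcases Nat.lt_or_ge i 16384 with h1 | h1
  · exact allR_spec _ (8192 : ℕ) (8192 : ℕ) wp_1 i (by omega) (by omega)
  rcases Nat.lt_or_ge i 24576 with h2 | h2
  · exact allR_spec _ (16384 : ℕ) (8192 : ℕ) wp_2 i (by omega) (by omega)
  rcases Nat.lt_or_ge i 32768 with h3 | h3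
  · exact allR_spec _ (24576 : ℕ) (8192 : ℕ) wp_3 i (by omega) (by omega)
  rcases Nat.lt_or_ge i 40960 with h4 | h4
  · exact allR_spec _ (32768 : ℕ) (8192 : ℕ) wp_4 i (by omega) (by omega)
  rcases Nat.lt_or_ge i 49152 with h5 | h5
  · exact allR_spec _ (40960 : ℕ) (8192 : ℕ) wp_5 i (by omega) (by omega)
  rcases Nat.lt_or_ge i 57344 with h6 | h6
  · exact allR_spec _ (49152 : ℕ) (8192 : ℕ) wp_6 i (by omega) (by omega)
  rcases Nat.lt_or_ge i 65536 with h7 | h7
  · exact allR_spec _ (57344 : ℕ) (8192 : ℕ) wp_7 i (by omega) (by omega)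
  rcases Nat.lt_or_ge i 73728 with h8 | h8
  · exact allR_spec _ (65536 : ℕ) (8192 : ℕ) wp_8 i (by omega) (by omega)
  rcases Nat.lt_or_ge i 81920 with h9 | h9
  · exact allR_spec _ (73728 : ℕ) (8192 : ℕ) wp_9 i (by omega) (by omega)
  rcases Nat.lt_or_ge i 90112 with h10 | h10
  · exact allR_spec _ (81920 : ℕ) (8192 : ℕ) wp_10 i (by omega) (by omega)
  rcases Nat.lt_or_ge i 98304 with h11 | h11
  · exact allR_spec _ (90112 : ℕ) (8192 : ℕ) wp_11 i (by omega) (by omega)
  rcases Nat.lt_or_ge i 106496 with h12 | h12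
  · exact allR_spec _ (98304 : ℕ) (8192 : ℕ) wp_12 i (by omega) (by omega)
  rcases Nat.lt_or_ge i 114688 with h13 | h13
  · exact allR_spec _ (106496 : ℕ) (8192 : ℕ) wp_13 i (by omega) (by omega)
  rcases Nat.lt_or_ge i 122880 with h14 | h14
  · exact allR_spec _ (114688 : ℕ) (8192 : ℕ) wp_14 i (by omega) (by omega)
  rcases Nat.lt_or_ge i 131072 with h15 | h15
  · exact allR_spec _ (122880 : ℕ) (8192 : ℕ) wp_15 i (by omega) (by omega)
  rcases Nat.lt_or_ge i 139264 with h16 | h16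
  · exact allR_spec _ (131072 : ℕ) (8192 : ℕ) wp_16 i (by omega) (by omega)
  rcases Nat.lt_or_ge i 147456 with h17 | h17
  · exact allR_spec _ (139264 : ℕ) (8192 : ℕ) wp_17 i (by omega) (by omega)
  rcases Nat.lt_or_ge i 155648 with h18 | h18
  · exact allR_spec _ (147456 : ℕ) (8192 : ℕ) wp_18 i (by omega) (by omega)
  rcases Nat.lt_or_ge i 163840 with h19 | h19
  · exact allR_spec _ (155648 : ℕ) (8192 : ℕ) wp_19 i (by omega) (by omega)
  rcases Nat.lt_or_ge i 172032 with h20 | h20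
  · exact allR_spec _ (163840 : ℕ) (8192 : ℕ) wp_20 i (by omega) (by omega)
  rcases Nat.lt_or_ge i 180224 with h21 | h21
  · exact allR_spec _ (172032 : ℕ) (8192 : ℕ) wp_21 i (by omega) (by omega)
  rcases Nat.lt_or_ge i 188416 with h22 | h22
  · exact allR_spec _ (180224 : ℕ) (8192 : ℕ) wp_22 i (by omega) (by omega)
  rcases Nat.lt_or_ge i 196608 with h23 | h23
  · exact allR_spec _ (188416 : ℕ) (8192 : ℕ) wp_23 i (by omega) (by omega)
  rcases Nat.lt_or_ge i 204800 with h24 | h24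
  · exact allR_spec _ (196608 : ℕ) (8192 : ℕ) wp_24 i (by omega) (by omega)
  rcases Nat.lt_or_ge i 212992 with h25 | h25
  · exact allR_spec _ (204800 : ℕ) (8192 : ℕ) wp_25 i (by omega) (by omega)
  rcases Nat.lt_or_ge i 221184 with h26 | h26
  · exact allR_spec _ (212992 : ℕ) (8192 : ℕ) wp_26 i (by omega) (by omega)
  rcases Nat.lt_or_ge i 229376 with h27 | h27
  · exact allR_spec _ (221184 : ℕ) (8192 : ℕ) wp_27 i (by omega) (by omega)
  rcases Nat.lt_or_ge i 237568 with h28 | h28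
  · exact allR_spec _ (229376 : ℕ) (8192 : ℕ) wp_28 i (by omega) (by omega)
  rcases Nat.lt_or_ge i 245760 with h29 | h29
  · exact allR_spec _ (237568 : ℕ) (8192 : ℕ) wp_29 i (by omega) (by omega)
  rcases Nat.lt_or_ge i 253952 with h30 | h30
  · exact allR_spec _ (245760 : ℕ) (8192 : ℕ) wp_30 i (by omega) (by omega)
  rcases Nat.lt_or_ge i 262144 with h31 | h31
  · exact allR_spec _ (253952 : ℕ) (8192 : ℕ) wp_31 i (by omega) (by omega)
  rcases Nat.lt_or_ge i 270336 with h32 | h32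
  · exact allR_spec _ (262144 : ℕ) (8192 : ℕ) wp_32 i (by omega) (by omega)
  rcases Nat.lt_or_ge i 278528 with h33 | h33
  · exact allR_spec _ (270336 : ℕ) (8192 : ℕ) wp_33 i (by omega) (by omega)
  rcases Nat.lt_or_ge i 286720 with h34 | h34
  · exact allR_spec _ (278528 : ℕ) (8192 : ℕ) wp_34 i (by omega) (by omega)
  rcases Nat.lt_or_ge i 294912 with h35 | h35
  · exact allR_spec _ (286720 : ℕ) (8192 : ℕ) wp_35 i (by omega) (by omega)
  rcases Nat.lt_or_ge i 303104 with h36 | h36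
  · exact allR_spec _ (294912 : ℕ) (8192 : ℕ) wp_36 i (by omega) (by omega)
  exact allR_spec _ (303104 : ℕ) (3832 : ℕ) wp_37 i (by omega) (by omega)
theorem rk67 : allR (fun i => powT [T5, T4, T3, T2, T1, T0, T5, T6, T7, T8, T9, T5, T10, T11] i (nat_lit 17) i) (nat_lit 0) (nat_lit 306936) = true := by
  apply allR_of_forall
  intro i hi
  exact allR_powT_table tok W67 [5, 4, 3, 2, 1, 0, 5, 6, 7, 8, 9, 5, 10, 11] (by decide) 17 we_all wp_all i hi
theorem relp : ∀ p ∈ relsP, ((p.1.map (permL tok)).prod) ^ p.2 = 1 := by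
  refine List.forall_mem_cons.2 ⟨pow_eq_one_of_powT tok [2, 3] (by decide) 3 (fun i hi => allR_zero _ _ rk0 i hi), ?_⟩
  refine List.forall_mem_cons.2 ⟨comm_rel tok 2 4 (by decide) (by decide) (fun i hi => allR_zero _ _ rk1 i hi), ?_⟩
  refine List.forall_mem_cons.2 ⟨comm_rel tok 2 5 (by decide) (by decide) (fun i hi => allR_zero _ _ rk2 i hi), ?_⟩
  refine List.forall_mem_cons.2 ⟨comm_rel tok 2 6 (by decide) (by decide) (fun i hi => allR_zero _ _ rk3 i hi), ?_⟩
  refine List.forall_mem_cons.2 ⟨comm_rel tok 2 7 (by decide) (by decide) (fun i hi => allR_zero _ _ rk4 i hi), ?_⟩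
  refine List.forall_mem_cons.2 ⟨comm_rel tok 2 8 (by decide) (by decide) (fun i hi => allR_zero _ _ rk5 i hi), ?_⟩
  refine List.forall_mem_cons.2 ⟨comm_rel tok 2 10 (by decide) (by decide) (fun i hi => allR_zero _ _ rk6 i hi), ?_⟩
  refine List.forall_mem_cons.2 ⟨comm_rel tok 2 11 (by decide) (by decide) (fun i hi => allR_zero _ _ rk7 i hi), ?_⟩
  refine List.forall_mem_cons.2 ⟨comm_rel tok 2 9 (by decide) (by decide) (fun i hi => allR_zero _ _ rk8 i hi), ?_⟩
  refine List.forall_mem_cons.2 ⟨pow_eq_one_of_powT tok [2, 1] (by decide) 3 (fun i hi => allR_zero _ _ rk9 i hi), ?_⟩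
  refine List.forall_mem_cons.2 ⟨comm_rel tok 2 0 (by decide) (by decide) (fun i hi => allR_zero _ _ rk10 i hi), ?_⟩
  refine List.forall_mem_cons.2 ⟨pow_eq_one_of_powT tok [3, 4] (by decide) 3 (fun i hi => allR_zero _ _ rk11 i hi), ?_⟩
  refine List.forall_mem_cons.2 ⟨comm_rel tok 3 5 (by decide) (by decide) (fun i hi => allR_zero _ _ rk12 i hi), ?_⟩
  refine List.forall_mem_cons.2 ⟨comm_rel tok 3 6 (by decide) (by decide) (fun i hi => allR_zero _ _ rk13 i hi), ?_⟩
  refine List.forall_mem_cons.2 ⟨comm_rel tok 3 7 (by decide) (by decide) (fun i hi => allR_zero _ _ rk14 i hi), ?_⟩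
  refine List.forall_mem_cons.2 ⟨comm_rel tok 3 8 (by decide) (by decide) (fun i hi => allR_zero _ _ rk15 i hi), ?_⟩
  refine List.forall_mem_cons.2 ⟨comm_rel tok 3 10 (by decide) (by decide) (fun i hi => allR_zero _ _ rk16 i hi), ?_⟩
  refine List.forall_mem_cons.2 ⟨comm_rel tok 3 11 (by decide) (by decide) (fun i hi => allR_zero _ _ rk17 i hi), ?_⟩
  refine List.forall_mem_cons.2 ⟨comm_rel tok 3 9 (by decide) (by decide) (fun i hi => allR_zero _ _ rk18 i hi), ?_⟩
  refine List.forall_mem_cons.2 ⟨comm_rel tok 3 1 (by decide) (by decide) (fun i hi => allR_zero _ _ rk19 i hi), ?_⟩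
  refine List.forall_mem_cons.2 ⟨comm_rel tok 3 0 (by decide) (by decide) (fun i hi => allR_zero _ _ rk20 i hi), ?_⟩
  refine List.forall_mem_cons.2 ⟨pow_eq_one_of_powT tok [4, 5] (by decide) 3 (fun i hi => allR_zero _ _ rk21 i hi), ?_⟩
  refine List.forall_mem_cons.2 ⟨comm_rel tok 4 6 (by decide) (by decide) (fun i hi => allR_zero _ _ rk22 i hi), ?_⟩
  refine List.forall_mem_cons.2 ⟨comm_rel tok 4 7 (by decide) (by decide) (fun i hi => allR_zero _ _ rk23 i hi), ?_⟩
  refine List.forall_mem_cons.2 ⟨comm_rel tok 4 8 (by decide) (by decide) (fun i hi => allR_zero _ _ rk24 i hi), ?_⟩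
  refine List.forall_mem_cons.2 ⟨comm_rel tok 4 10 (by decide) (by decide) (fun i hi => allR_zero _ _ rk25 i hi), ?_⟩
  refine List.forall_mem_cons.2 ⟨comm_rel tok 4 11 (by decide) (by decide) (fun i hi => allR_zero _ _ rk26 i hi), ?_⟩
  refine List.forall_mem_cons.2 ⟨comm_rel tok 4 9 (by decide) (by decide) (fun i hi => allR_zero _ _ rk27 i hi), ?_⟩
  refine List.forall_mem_cons.2 ⟨comm_rel tok 4 1 (by decide) (by decide) (fun i hi => allR_zero _ _ rk28 i hi), ?_⟩
  refine List.forall_mem_cons.2 ⟨comm_rel tok 4 0 (by decide) (by decide) (fun i hi => allR_zero _ _ rk29 i hi), ?_⟩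
  refine List.forall_mem_cons.2 ⟨pow_eq_one_of_powT tok [5, 6] (by decide) 3 (fun i hi => allR_zero _ _ rk30 i hi), ?_⟩
  refine List.forall_mem_cons.2 ⟨comm_rel tok 5 7 (by decide) (by decide) (fun i hi => allR_zero _ _ rk31 i hi), ?_⟩
  refine List.forall_mem_cons.2 ⟨comm_rel tok 5 8 (by decide) (by decide) (fun i hi => allR_zero _ _ rk32 i hi), ?_⟩
  refine List.forall_mem_cons.2 ⟨pow_eq_one_of_powT tok [5, 10] (by decide) 3 (fun i hi => allR_zero _ _ rk33 i hi), ?_⟩
  refine List.forall_mem_cons.2 ⟨comm_rel tok 5 11 (by decide) (by decide) (fun i hi => allR_zero _ _ rk34 i hi), ?_⟩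
  refine List.forall_mem_cons.2 ⟨comm_rel tok 5 9 (by decide) (by decide) (fun i hi => allR_zero _ _ rk35 i hi), ?_⟩
  refine List.forall_mem_cons.2 ⟨comm_rel tok 5 1 (by decide) (by decide) (fun i hi => allR_zero _ _ rk36 i hi), ?_⟩
  refine List.forall_mem_cons.2 ⟨comm_rel tok 5 0 (by decide) (by decide) (fun i hi => allR_zero _ _ rk37 i hi), ?_⟩
  refine List.forall_mem_cons.2 ⟨pow_eq_one_of_powT tok [6, 7] (by decide) 3 (fun i hi => allR_zero _ _ rk38 i hi), ?_⟩
  refine List.forall_mem_cons.2 ⟨comm_rel tok 6 8 (by decide) (by decide) (fun i hi => allR_zero _ _ rk39 i hi), ?_⟩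
  refine List.forall_mem_cons.2 ⟨comm_rel tok 6 10 (by decide) (by decide) (fun i hi => allR_zero _ _ rk40 i hi), ?_⟩
  refine List.forall_mem_cons.2 ⟨comm_rel tok 6 11 (by decide) (by decide) (fun i hi => allR_zero _ _ rk41 i hi), ?_⟩
  refine List.forall_mem_cons.2 ⟨comm_rel tok 6 9 (by decide) (by decide) (fun i hi => allR_zero _ _ rk42 i hi), ?_⟩
  refine List.forall_mem_cons.2 ⟨comm_rel tok 6 1 (by decide) (by decide) (fun i hi => allR_zero _ _ rk43 i hi), ?_⟩
  refine List.forall_mem_cons.2 ⟨comm_rel tok 6 0 (by decide) (by decide) (fun i hi => allR_zero _ _ rk44 i hi), ?_⟩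
  refine List.forall_mem_cons.2 ⟨pow_eq_one_of_powT tok [7, 8] (by decide) 3 (fun i hi => allR_zero _ _ rk45 i hi), ?_⟩
  refine List.forall_mem_cons.2 ⟨comm_rel tok 7 10 (by decide) (by decide) (fun i hi => allR_zero _ _ rk46 i hi), ?_⟩
  refine List.forall_mem_cons.2 ⟨comm_rel tok 7 11 (by decide) (by decide) (fun i hi => allR_zero _ _ rk47 i hi), ?_⟩
  refine List.forall_mem_cons.2 ⟨comm_rel tok 7 9 (by decide) (by decide) (fun i hi => allR_zero _ _ rk48 i hi), ?_⟩
  refine List.forall_mem_cons.2 ⟨comm_rel tok 7 1 (by decide) (by decide) (fun i hi => allR_zero _ _ rk49 i hi), ?_⟩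
  refine List.forall_mem_cons.2 ⟨comm_rel tok 7 0 (by decide) (by decide) (fun i hi => allR_zero _ _ rk50 i hi), ?_⟩
  refine List.forall_mem_cons.2 ⟨comm_rel tok 8 10 (by decide) (by decide) (fun i hi => allR_zero _ _ rk51 i hi), ?_⟩
  refine List.forall_mem_cons.2 ⟨comm_rel tok 8 11 (by decide) (by decide) (fun i hi => allR_zero _ _ rk52 i hi), ?_⟩
  refine List.forall_mem_cons.2 ⟨pow_eq_one_of_powT tok [8, 9] (by decide) 3 (fun i hi => allR_zero _ _ rk53 i hi), ?_⟩
  refine List.forall_mem_cons.2 ⟨comm_rel tok 8 1 (by decide) (by decide) (fun i hi => allR_zero _ _ rk54 i hi), ?_⟩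
  refine List.forall_mem_cons.2 ⟨comm_rel tok 8 0 (by decide) (by decide) (fun i hi => allR_zero _ _ rk55 i hi), ?_⟩
  refine List.forall_mem_cons.2 ⟨pow_eq_one_of_powT tok [10, 11] (by decide) 3 (fun i hi => allR_zero _ _ rk56 i hi), ?_⟩
  refine List.forall_mem_cons.2 ⟨comm_rel tok 10 9 (by decide) (by decide) (fun i hi => allR_zero _ _ rk57 i hi), ?_⟩
  refine List.forall_mem_cons.2 ⟨comm_rel tok 10 1 (by decide) (by decide) (fun i hi => allR_zero _ _ rk58 i hi), ?_⟩
  refine List.forall_mem_cons.2 ⟨comm_rel tok 10 0 (by decide) (by decide) (fun i hi => allR_zero _ _ rk59 i hi), ?_⟩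
  refine List.forall_mem_cons.2 ⟨comm_rel tok 11 9 (by decide) (by decide) (fun i hi => allR_zero _ _ rk60 i hi), ?_⟩
  refine List.forall_mem_cons.2 ⟨comm_rel tok 11 1 (by decide) (by decide) (fun i hi => allR_zero _ _ rk61 i hi), ?_⟩
  refine List.forall_mem_cons.2 ⟨comm_rel tok 11 0 (by decide) (by decide) (fun i hi => allR_zero _ _ rk62 i hi), ?_⟩
  refine List.forall_mem_cons.2 ⟨comm_rel tok 9 1 (by decide) (by decide) (fun i hi => allR_zero _ _ rk63 i hi), ?_⟩
  refine List.forall_mem_cons.2 ⟨comm_rel tok 9 0 (by decide) (by decide) (fun i hi => allR_zero _ _ rk64 i hi), ?_⟩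
  refine List.forall_mem_cons.2 ⟨pow_eq_one_of_powT tok [1, 0] (by decide) 3 (fun i hi => allR_zero _ _ rk65 i hi), ?_⟩
  refine List.forall_mem_cons.2 ⟨rel_u9 tok [2, 3, 4, 5, 6, 7, 10] (by decide) 0 (by decide) Wu Wu3 (fun i hi => allR_zero _ _ wk1 i hi)
    (fun i hi => allR_zero _ _ wk2 i hi) (fun i hi => allR_zero _ _ wk3 i hi), ?_⟩
  refine List.forall_mem_cons.2 ⟨pow_eq_one_of_powT tok [5, 4, 3, 2, 1, 0, 5, 6, 7, 8, 9, 5, 10, 11] (by decide) 17 (fun i hi => allR_zero _ _ rk67 i hi), ?_⟩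
  intro c hc
  exact absurd hc List.not_mem_nil

/-- transitivity. -/
theorem rho_tr {G : Type*} [Group G] (s : Nat → G) (ρ : G →* Equiv.Perm (Fin 306936))
    (hρ : ∀ l < 12, ρ (s l) = permL tok l) : ∀ i, ∃ g, ρ g ⟨0, by decide⟩ = i := by
  intro i
  have h := rho_rep s tok ρ hρ (by decide) D dOK i i.2
  exact ⟨(repOf s D i)⁻¹, by rw [map_inv]; exact h⟩


end Cfsg.Agent.H8.Fi24t
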