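import Cfsg.Agent.H8.T.Fi24tTab
import Cfsg.Agent.H8.CosetComm

set_option Elab.async false
set_option autoImplicit false
set_option linter.all false
set_option maxRecDepth 100000

namespace Cfsg.Agent.H8.Fi24t
theorem pk4_0 : allR (ckPerm (nat_lit 0x4aef8) T4 T4) (nat_lit 0) (nat_lit 16384) = true := by decide +kernel
theorem pk4_1 : allR (ckPerm (nat_lit 0x4aef8) T4 T4) (nat_lit 16384) (nat_lit 16384) = true := by decide +kernel
theorem pk4_2 : allR (ckPerm (nat_lit 0x4aef8) T4 T4) (nat_lit 32768) (nat_lit 16384) = true := by decide +kernel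
theorem pk4_3 : allR (ckPerm (nat_lit 0x4aef8) T4 T4) (nat_lit 49152) (nat_lit 16384) = true := by decide +kernel
theorem pk4_4 : allR (ckPerm (nat_lit 0x4aef8) T4 T4) (nat_lit 65536) (nat_lit 16384) = true := by decide +kernel
theorem pk4_5 : allR (ckPerm (nat_lit 0x4aef8) T4 T4) (nat_lit 81920) (nat_lit 16384) = true := by decide +kernel
theorem pk4_6 : allR (ckPerm (nat_lit 0x4aef8) T4 T4) (nat_lit 98304) (nat_lit 16384) = true := by decide +kernel
theorem pk4_7 : allR (ckPerm (nat_lit 0x4aef8) T4 T4) (nat_lit 114688) (nat_lit 16384) = true := by decide +kernel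
theorem pk4_8 : allR (ckPerm (nat_lit 0x4aef8) T4 T4) (nat_lit 131072) (nat_lit 16384) = true := by decide +kernel
theorem pk4_9 : allR (ckPerm (nat_lit 0x4aef8) T4 T4) (nat_lit 147456) (nat_lit 16384) = true := by decide +kernel
theorem pk4_10 : allR (ckPerm (nat_lit 0x4aef8) T4 T4) (nat_lit 163840) (nat_lit 16384) = true := by decide +kernel
theorem pk4_11 : allR (ckPerm (nat_lit 0x4aef8) T4 T4) (nat_lit 180224) (nat_lit 16384) = true := by decide +kernel
theorem pk4_12 : allR (ckPerm (nat_lit 0x4aef8) T4 T4) (nat_lit 196608) (nat_lit 16384) = true := by decide +kernel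
theorem pk4_13 : allR (ckPerm (nat_lit 0x4aef8) T4 T4) (nat_lit 212992) (nat_lit 16384) = true := by decide +kernel
theorem pk4_14 : allR (ckPerm (nat_lit 0x4aef8) T4 T4) (nat_lit 229376) (nat_lit 16384) = true := by decide +kernel
theorem pk4_15 : allR (ckPerm (nat_lit 0x4aef8) T4 T4) (nat_lit 245760) (nat_lit 16384) = true := by decide +kernel
theorem pk4_16 : allR (ckPerm (nat_lit 0x4aef8) T4 T4) (nat_lit 262144) (nat_lit 16384) = true := by decide +kernel
theorem pk4_17 : allR (ckPerm (nat_lit 0x4aef8) T4 T4) (nat_lit 278528) (nat_lit 16384) = true := by decide +kernel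
theorem pk4_18 : allR (ckPerm (nat_lit 0x4aef8) T4 T4) (nat_lit 294912) (nat_lit 12024) = true := by decide +kernel
theorem pk4 : allR (ckPerm (nat_lit 0x4aef8) T4 T4) (nat_lit 0) (nat_lit 306936) = true := by
  apply allR_of_forall
  intro i hi
  have hi : i < 306936 := hi
  rcases Nat.lt_or_ge i 16384 with h0 | h0
  · exact allR_spec _ (0 : ℕ) (16384 : ℕ) pk4_0 i (by omega) (by omega)
  rcases Nat.lt_or_ge i 32768 with h1 | h1
  · exact allR_spec _ (16384 : ℕ) (16384 : ℕ) pk4_1 i (by omega) (by omega)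
  rcases Nat.lt_or_ge i 49152 with h2 | h2
  · exact allR_spec _ (32768 : ℕ) (16384 : ℕ) pk4_2 i (by omega) (by omega)
  rcases Nat.lt_or_ge i 65536 with h3 | h3
  · exact allR_spec _ (49152 : ℕ) (16384 : ℕ) pk4_3 i (by omega) (by omega)
  rcases Nat.lt_or_ge i 81920 with h4 | h4
  · exact allR_spec _ (65536 : ℕ) (16384 : ℕ) pk4_4 i (by omega) (by omega)
  rcases Nat.lt_or_ge i 98304 with h5 | h5
  · exact allR_spec _ (81920 : ℕ) (16384 : ℕ) pk4_5 i (by omega) (by omega)
  rcases Nat.lt_or_ge i 114688 with h6 | h6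
  · exact allR_spec _ (98304 : ℕ) (16384 : ℕ) pk4_6 i (by omega) (by omega)
  rcases Nat.lt_or_ge i 131072 with h7 | h7
  · exact allR_spec _ (114688 : ℕ) (16384 : ℕ) pk4_7 i (by omega) (by omega)
  rcases Nat.lt_or_ge i 147456 with h8 | h8
  · exact allR_spec _ (131072 : ℕ) (16384 : ℕ) pk4_8 i (by omega) (by omega)
  rcases Nat.lt_or_ge i 163840 with h9 | h9
  · exact allR_spec _ (147456 : ℕ) (16384 : ℕ) pk4_9 i (by omega) (by omega)
  rcases Nat.lt_or_ge i 180224 with h10 | h10
  · exact allR_spec _ (163840 : ℕ) (16384 : ℕ) pk4_10 i (by omega) (by omega)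
  rcases Nat.lt_or_ge i 196608 with h11 | h11
  · exact allR_spec _ (180224 : ℕ) (16384 : ℕ) pk4_11 i (by omega) (by omega)
  rcases Nat.lt_or_ge i 212992 with h12 | h12
  · exact allR_spec _ (196608 : ℕ) (16384 : ℕ) pk4_12 i (by omega) (by omega)
  rcases Nat.lt_or_ge i 229376 with h13 | h13
  · exact allR_spec _ (212992 : ℕ) (16384 : ℕ) pk4_13 i (by omega) (by omega)
  rcases Nat.lt_or_ge i 245760 with h14 | h14
  · exact allR_spec _ (229376 : ℕ) (16384 : ℕ) pk4_14 i (by omega) (by omega)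
  rcases Nat.lt_or_ge i 262144 with h15 | h15
  · exact allR_spec _ (245760 : ℕ) (16384 : ℕ) pk4_15 i (by omega) (by omega)
  rcases Nat.lt_or_ge i 278528 with h16 | h16
  · exact allR_spec _ (262144 : ℕ) (16384 : ℕ) pk4_16 i (by omega) (by omega)
  rcases Nat.lt_or_ge i 294912 with h17 | h17
  · exact allR_spec _ (278528 : ℕ) (16384 : ℕ) pk4_17 i (by omega) (by omega)
  exact allR_spec _ (294912 : ℕ) (12024 : ℕ) pk4_18 i (by omega) (by omega)
theorem pk5_0 : allR (ckPerm (nat_lit 0x4aef8) T5 T5) (nat_lit 0) (nat_lit 16384) = true := by decide +kernel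
theorem pk5_1 : allR (ckPerm (nat_lit 0x4aef8) T5 T5) (nat_lit 16384) (nat_lit 16384) = true := by decide +kernel
theorem pk5_2 : allR (ckPerm (nat_lit 0x4aef8) T5 T5) (nat_lit 32768) (nat_lit 16384) = true := by decide +kernel
theorem pk5_3 : allR (ckPerm (nat_lit 0x4aef8) T5 T5) (nat_lit 49152) (nat_lit 16384) = true := by decide +kernel
theorem pk5_4 : allR (ckPerm (nat_lit 0x4aef8) T5 T5) (nat_lit 65536) (nat_lit 16384) = true := by decide +kernel
theorem pk5_5 : allR (ckPerm (nat_lit 0x4aef8) T5 T5) (nat_lit 81920) (nat_lit 16384) = true := by decide +kernel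
theorem pk5_6 : allR (ckPerm (nat_lit 0x4aef8) T5 T5) (nat_lit 98304) (nat_lit 16384) = true := by decide +kernel
theorem pk5_7 : allR (ckPerm (nat_lit 0x4aef8) T5 T5) (nat_lit 114688) (nat_lit 16384) = true := by decide +kernel
theorem pk5_8 : allR (ckPerm (nat_lit 0x4aef8) T5 T5) (nat_lit 131072) (nat_lit 16384) = true := by decide +kernel
theorem pk5_9 : allR (ckPerm (nat_lit 0x4aef8) T5 T5) (nat_lit 147456) (nat_lit 16384) = true := by decide +kernel
theorem pk5_10 : allR (ckPerm (nat_lit 0x4aef8) T5 T5) (nat_lit 163840) (nat_lit 16384) = true := by decide +kernel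
theorem pk5_11 : allR (ckPerm (nat_lit 0x4aef8) T5 T5) (nat_lit 180224) (nat_lit 16384) = true := by decide +kernel
theorem pk5_12 : allR (ckPerm (nat_lit 0x4aef8) T5 T5) (nat_lit 196608) (nat_lit 16384) = true := by decide +kernel
theorem pk5_13 : allR (ckPerm (nat_lit 0x4aef8) T5 T5) (nat_lit 212992) (nat_lit 16384) = true := by decide +kernel
theorem pk5_14 : allR (ckPerm (nat_lit 0x4aef8) T5 T5) (nat_lit 229376) (nat_lit 16384) = true := by decide +kernel
theorem pk5_15 : allR (ckPerm (nat_lit 0x4aef8) T5 T5) (nat_lit 245760) (nat_lit 16384) = true := by decide +kernel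
theorem pk5_16 : allR (ckPerm (nat_lit 0x4aef8) T5 T5) (nat_lit 262144) (nat_lit 16384) = true := by decide +kernel
theorem pk5_17 : allR (ckPerm (nat_lit 0x4aef8) T5 T5) (nat_lit 278528) (nat_lit 16384) = true := by decide +kernel
theorem pk5_18 : allR (ckPerm (nat_lit 0x4aef8) T5 T5) (nat_lit 294912) (nat_lit 12024) = true := by decide +kernel
theorem pk5 : allR (ckPerm (nat_lit 0x4aef8) T5 T5) (nat_lit 0) (nat_lit 306936) = true := by
  apply allR_of_forall
  intro i hi
  have hi : i < 306936 := hi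
  rcases Nat.lt_or_ge i 16384 with h0 | h0
  · exact allR_spec _ (0 : ℕ) (16384 : ℕ) pk5_0 i (by omega) (by omega)
  rcases Nat.lt_or_ge i 32768 with h1 | h1
  · exact allR_spec _ (16384 : ℕ) (16384 : ℕ) pk5_1 i (by omega) (by omega)
  rcases Nat.lt_or_ge i 49152 with h2 | h2
  · exact allR_spec _ (32768 : ℕ) (16384 : ℕ) pk5_2 i (by omega) (by omega)
  rcases Nat.lt_or_ge i 65536 with h3 | h3
  · exact allR_spec _ (49152 : ℕ) (16384 : ℕ) pk5_3 i (by omega) (by omega)
  rcases Nat.lt_or_ge i 81920 with h4 | h4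
  · exact allR_spec _ (65536 : ℕ) (16384 : ℕ) pk5_4 i (by omega) (by omega)
  rcases Nat.lt_or_ge i 98304 with h5 | h5
  · exact allR_spec _ (81920 : ℕ) (16384 : ℕ) pk5_5 i (by omega) (by omega)
  rcases Nat.lt_or_ge i 114688 with h6 | h6
  · exact allR_spec _ (98304 : ℕ) (16384 : ℕ) pk5_6 i (by omega) (by omega)
  rcases Nat.lt_or_ge i 131072 with h7 | h7
  · exact allR_spec _ (114688 : ℕ) (16384 : ℕ) pk5_7 i (by omega) (by omega)
  rcases Nat.lt_or_ge i 147456 with h8 | h8
  · exact allR_spec _ (131072 : ℕ) (16384 : ℕ) pk5_8 i (by omega) (by omega)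
  rcases Nat.lt_or_ge i 163840 with h9 | h9
  · exact allR_spec _ (147456 : ℕ) (16384 : ℕ) pk5_9 i (by omega) (by omega)
  rcases Nat.lt_or_ge i 180224 with h10 | h10
  · exact allR_spec _ (163840 : ℕ) (16384 : ℕ) pk5_10 i (by omega) (by omega)
  rcases Nat.lt_or_ge i 196608 with h11 | h11
  · exact allR_spec _ (180224 : ℕ) (16384 : ℕ) pk5_11 i (by omega) (by omega)
  rcases Nat.lt_or_ge i 212992 with h12 | h12
  · exact allR_spec _ (196608 : ℕ) (16384 : ℕ) pk5_12 i (by omega) (by omega)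
  rcases Nat.lt_or_ge i 229376 with h13 | h13
  · exact allR_spec _ (212992 : ℕ) (16384 : ℕ) pk5_13 i (by omega) (by omega)
  rcases Nat.lt_or_ge i 245760 with h14 | h14
  · exact allR_spec _ (229376 : ℕ) (16384 : ℕ) pk5_14 i (by omega) (by omega)
  rcases Nat.lt_or_ge i 262144 with h15 | h15
  · exact allR_spec _ (245760 : ℕ) (16384 : ℕ) pk5_15 i (by omega) (by omega)
  rcases Nat.lt_or_ge i 278528 with h16 | h16
  · exact allR_spec _ (262144 : ℕ) (16384 : ℕ) pk5_16 i (by omega) (by omega)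
  rcases Nat.lt_or_ge i 294912 with h17 | h17
  · exact allR_spec _ (278528 : ℕ) (16384 : ℕ) pk5_17 i (by omega) (by omega)
  exact allR_spec _ (294912 : ℕ) (12024 : ℕ) pk5_18 i (by omega) (by omega)
theorem pk6_0 : allR (ckPerm (nat_lit 0x4aef8) T6 T6) (nat_lit 0) (nat_lit 16384) = true := by decide +kernel
theorem pk6_1 : allR (ckPerm (nat_lit 0x4aef8) T6 T6) (nat_lit 16384) (nat_lit 16384) = true := by decide +kernel
theorem pk6_2 : allR (ckPerm (nat_lit 0x4aef8) T6 T6) (nat_lit 32768) (nat_lit 16384) = true := by decide +kernel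
theorem pk6_3 : allR (ckPerm (nat_lit 0x4aef8) T6 T6) (nat_lit 49152) (nat_lit 16384) = true := by decide +kernel
theorem pk6_4 : allR (ckPerm (nat_lit 0x4aef8) T6 T6) (nat_lit 65536) (nat_lit 16384) = true := by decide +kernel
theorem pk6_5 : allR (ckPerm (nat_lit 0x4aef8) T6 T6) (nat_lit 81920) (nat_lit 16384) = true := by decide +kernel
theorem pk6_6 : allR (ckPerm (nat_lit 0x4aef8) T6 T6) (nat_lit 98304) (nat_lit 16384) = true := by decide +kernel
theorem pk6_7 : allR (ckPerm (nat_lit 0x4aef8) T6 T6) (nat_lit 114688) (nat_lit 16384) = true := by decide +kernel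
theorem pk6_8 : allR (ckPerm (nat_lit 0x4aef8) T6 T6) (nat_lit 131072) (nat_lit 16384) = true := by decide +kernel
theorem pk6_9 : allR (ckPerm (nat_lit 0x4aef8) T6 T6) (nat_lit 147456) (nat_lit 16384) = true := by decide +kernel
theorem pk6_10 : allR (ckPerm (nat_lit 0x4aef8) T6 T6) (nat_lit 163840) (nat_lit 16384) = true := by decide +kernel
theorem pk6_11 : allR (ckPerm (nat_lit 0x4aef8) T6 T6) (nat_lit 180224) (nat_lit 16384) = true := by decide +kernel
theorem pk6_12 : allR (ckPerm (nat_lit 0x4aef8) T6 T6) (nat_lit 196608) (nat_lit 16384) = true := by decide +kernel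
theorem pk6_13 : allR (ckPerm (nat_lit 0x4aef8) T6 T6) (nat_lit 212992) (nat_lit 16384) = true := by decide +kernel
theorem pk6_14 : allR (ckPerm (nat_lit 0x4aef8) T6 T6) (nat_lit 229376) (nat_lit 16384) = true := by decide +kernel
theorem pk6_15 : allR (ckPerm (nat_lit 0x4aef8) T6 T6) (nat_lit 245760) (nat_lit 16384) = true := by decide +kernel
theorem pk6_16 : allR (ckPerm (nat_lit 0x4aef8) T6 T6) (nat_lit 262144) (nat_lit 16384) = true := by decide +kernel
theorem pk6_17 : allR (ckPerm (nat_lit 0x4aef8) T6 T6) (nat_lit 278528) (nat_lit 16384) = true := by decide +kernel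
theorem pk6_18 : allR (ckPerm (nat_lit 0x4aef8) T6 T6) (nat_lit 294912) (nat_lit 12024) = true := by decide +kernel
theorem pk6 : allR (ckPerm (nat_lit 0x4aef8) T6 T6) (nat_lit 0) (nat_lit 306936) = true := by
  apply allR_of_forall
  intro i hi
  have hi : i < 306936 := hi
  rcases Nat.lt_or_ge i 16384 with h0 | h0
  · exact allR_spec _ (0 : ℕ) (16384 : ℕ) pk6_0 i (by omega) (by omega)
  rcases Nat.lt_or_ge i 32768 with h1 | h1
  · exact allR_spec _ (16384 : ℕ) (16384 : ℕ) pk6_1 i (by omega) (by omega)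
  rcases Nat.lt_or_ge i 49152 with h2 | h2
  · exact allR_spec _ (32768 : ℕ) (16384 : ℕ) pk6_2 i (by omega) (by omega)
  rcases Nat.lt_or_ge i 65536 with h3 | h3
  · exact allR_spec _ (49152 : ℕ) (16384 : ℕ) pk6_3 i (by omega) (by omega)
  rcases Nat.lt_or_ge i 81920 with h4 | h4
  · exact allR_spec _ (65536 : ℕ) (16384 : ℕ) pk6_4 i (by omega) (by omega)
  rcases Nat.lt_or_ge i 98304 with h5 | h5
  · exact allR_spec _ (81920 : ℕ) (16384 : ℕ) pk6_5 i (by omega) (by omega)
  rcases Nat.lt_or_ge i 114688 with h6 | h6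
  · exact allR_spec _ (98304 : ℕ) (16384 : ℕ) pk6_6 i (by omega) (by omega)
  rcases Nat.lt_or_ge i 131072 with h7 | h7
  · exact allR_spec _ (114688 : ℕ) (16384 : ℕ) pk6_7 i (by omega) (by omega)
  rcases Nat.lt_or_ge i 147456 with h8 | h8
  · exact allR_spec _ (131072 : ℕ) (16384 : ℕ) pk6_8 i (by omega) (by omega)
  rcases Nat.lt_or_ge i 163840 with h9 | h9
  · exact allR_spec _ (147456 : ℕ) (16384 : ℕ) pk6_9 i (by omega) (by omega)
  rcases Nat.lt_or_ge i 180224 with h10 | h10
  · exact allR_spec _ (163840 : ℕ) (16384 : ℕ) pk6_10 i (by omega) (by omega)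
  rcases Nat.lt_or_ge i 196608 with h11 | h11
  · exact allR_spec _ (180224 : ℕ) (16384 : ℕ) pk6_11 i (by omega) (by omega)
  rcases Nat.lt_or_ge i 212992 with h12 | h12
  · exact allR_spec _ (196608 : ℕ) (16384 : ℕ) pk6_12 i (by omega) (by omega)
  rcases Nat.lt_or_ge i 229376 with h13 | h13
  · exact allR_spec _ (212992 : ℕ) (16384 : ℕ) pk6_13 i (by omega) (by omega)
  rcases Nat.lt_or_ge i 245760 with h14 | h14
  · exact allR_spec _ (229376 : ℕ) (16384 : ℕ) pk6_14 i (by omega) (by omega)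
  rcases Nat.lt_or_ge i 262144 with h15 | h15
  · exact allR_spec _ (245760 : ℕ) (16384 : ℕ) pk6_15 i (by omega) (by omega)
  rcases Nat.lt_or_ge i 278528 with h16 | h16
  · exact allR_spec _ (262144 : ℕ) (16384 : ℕ) pk6_16 i (by omega) (by omega)
  rcases Nat.lt_or_ge i 294912 with h17 | h17
  · exact allR_spec _ (278528 : ℕ) (16384 : ℕ) pk6_17 i (by omega) (by omega)
  exact allR_spec _ (294912 : ℕ) (12024 : ℕ) pk6_18 i (by omega) (by omega)
theorem pk7_0 : allR (ckPerm (nat_lit 0x4aef8) T7 T7) (nat_lit 0) (nat_lit 16384) = true := by decide +kernel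
theorem pk7_1 : allR (ckPerm (nat_lit 0x4aef8) T7 T7) (nat_lit 16384) (nat_lit 16384) = true := by decide +kernel
theorem pk7_2 : allR (ckPerm (nat_lit 0x4aef8) T7 T7) (nat_lit 32768) (nat_lit 16384) = true := by decide +kernel
theorem pk7_3 : allR (ckPerm (nat_lit 0x4aef8) T7 T7) (nat_lit 49152) (nat_lit 16384) = true := by decide +kernel
theorem pk7_4 : allR (ckPerm (nat_lit 0x4aef8) T7 T7) (nat_lit 65536) (nat_lit 16384) = true := by decide +kernel
theorem pk7_5 : allR (ckPerm (nat_lit 0x4aef8) T7 T7) (nat_lit 81920) (nat_lit 16384) = true := by decide +kernel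
theorem pk7_6 : allR (ckPerm (nat_lit 0x4aef8) T7 T7) (nat_lit 98304) (nat_lit 16384) = true := by decide +kernel
theorem pk7_7 : allR (ckPerm (nat_lit 0x4aef8) T7 T7) (nat_lit 114688) (nat_lit 16384) = true := by decide +kernel
theorem pk7_8 : allR (ckPerm (nat_lit 0x4aef8) T7 T7) (nat_lit 131072) (nat_lit 16384) = true := by decide +kernel
theorem pk7_9 : allR (ckPerm (nat_lit 0x4aef8) T7 T7) (nat_lit 147456) (nat_lit 16384) = true := by decide +kernel
theorem pk7_10 : allR (ckPerm (nat_lit 0x4aef8) T7 T7) (nat_lit 163840) (nat_lit 16384) = true := by decide +kernel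
theorem pk7_11 : allR (ckPerm (nat_lit 0x4aef8) T7 T7) (nat_lit 180224) (nat_lit 16384) = true := by decide +kernel
theorem pk7_12 : allR (ckPerm (nat_lit 0x4aef8) T7 T7) (nat_lit 196608) (nat_lit 16384) = true := by decide +kernel
theorem pk7_13 : allR (ckPerm (nat_lit 0x4aef8) T7 T7) (nat_lit 212992) (nat_lit 16384) = true := by decide +kernel
theorem pk7_14 : allR (ckPerm (nat_lit 0x4aef8) T7 T7) (nat_lit 229376) (nat_lit 16384) = true := by decide +kernel
theorem pk7_15 : allR (ckPerm (nat_lit 0x4aef8) T7 T7) (nat_lit 245760) (nat_lit 16384) = true := by decide +kernel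
theorem pk7_16 : allR (ckPerm (nat_lit 0x4aef8) T7 T7) (nat_lit 262144) (nat_lit 16384) = true := by decide +kernel
theorem pk7_17 : allR (ckPerm (nat_lit 0x4aef8) T7 T7) (nat_lit 278528) (nat_lit 16384) = true := by decide +kernel
theorem pk7_18 : allR (ckPerm (nat_lit 0x4aef8) T7 T7) (nat_lit 294912) (nat_lit 12024) = true := by decide +kernel
theorem pk7 : allR (ckPerm (nat_lit 0x4aef8) T7 T7) (nat_lit 0) (nat_lit 306936) = true := by
  apply allR_of_forall
  intro i hi
  have hi : i < 306936 := hi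
  rcases Nat.lt_or_ge i 16384 with h0 | h0
  · exact allR_spec _ (0 : ℕ) (16384 : ℕ) pk7_0 i (by omega) (by omega)
  rcases Nat.lt_or_ge i 32768 with h1 | h1
  · exact allR_spec _ (16384 : ℕ) (16384 : ℕ) pk7_1 i (by omega) (by omega)
  rcases Nat.lt_or_ge i 49152 with h2 | h2
  · exact allR_spec _ (32768 : ℕ) (16384 : ℕ) pk7_2 i (by omega) (by omega)
  rcases Nat.lt_or_ge i 65536 with h3 | h3
  · exact allR_spec _ (49152 : ℕ) (16384 : ℕ) pk7_3 i (by omega) (by omega)
  rcases Nat.lt_or_ge i 81920 with h4 | h4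
  · exact allR_spec _ (65536 : ℕ) (16384 : ℕ) pk7_4 i (by omega) (by omega)
  rcases Nat.lt_or_ge i 98304 with h5 | h5
  · exact allR_spec _ (81920 : ℕ) (16384 : ℕ) pk7_5 i (by omega) (by omega)
  rcases Nat.lt_or_ge i 114688 with h6 | h6
  · exact allR_spec _ (98304 : ℕ) (16384 : ℕ) pk7_6 i (by omega) (by omega)
  rcases Nat.lt_or_ge i 131072 with h7 | h7
  · exact allR_spec _ (114688 : ℕ) (16384 : ℕ) pk7_7 i (by omega) (by omega)
  rcases Nat.lt_or_ge i 147456 with h8 | h8
  · exact allR_spec _ (131072 : ℕ) (16384 : ℕ) pk7_8 i (by omega) (by omega)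
  rcases Nat.lt_or_ge i 163840 with h9 | h9
  · exact allR_spec _ (147456 : ℕ) (16384 : ℕ) pk7_9 i (by omega) (by omega)
  rcases Nat.lt_or_ge i 180224 with h10 | h10
  · exact allR_spec _ (163840 : ℕ) (16384 : ℕ) pk7_10 i (by omega) (by omega)
  rcases Nat.lt_or_ge i 196608 with h11 | h11
  · exact allR_spec _ (180224 : ℕ) (16384 : ℕ) pk7_11 i (by omega) (by omega)
  rcases Nat.lt_or_ge i 212992 with h12 | h12
  · exact allR_spec _ (196608 : ℕ) (16384 : ℕ) pk7_12 i (by omega) (by omega)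
  rcases Nat.lt_or_ge i 229376 with h13 | h13
  · exact allR_spec _ (212992 : ℕ) (16384 : ℕ) pk7_13 i (by omega) (by omega)
  rcases Nat.lt_or_ge i 245760 with h14 | h14
  · exact allR_spec _ (229376 : ℕ) (16384 : ℕ) pk7_14 i (by omega) (by omega)
  rcases Nat.lt_or_ge i 262144 with h15 | h15
  · exact allR_spec _ (245760 : ℕ) (16384 : ℕ) pk7_15 i (by omega) (by omega)
  rcases Nat.lt_or_ge i 278528 with h16 | h16
  · exact allR_spec _ (262144 : ℕ) (16384 : ℕ) pk7_16 i (by omega) (by omega)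
  rcases Nat.lt_or_ge i 294912 with h17 | h17
  · exact allR_spec _ (278528 : ℕ) (16384 : ℕ) pk7_17 i (by omega) (by omega)
  exact allR_spec _ (294912 : ℕ) (12024 : ℕ) pk7_18 i (by omega) (by omega)

end Cfsg.Agent.H8.Fi24t
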