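import Cfsg.Agent.H8.T.Fi24tTab
import Cfsg.Agent.H8.CosetComm

set_option Elab.async false
set_option autoImplicit false
set_option linter.all false
set_option maxRecDepth 100000

namespace Cfsg.Agent.H8.Fi24t
theorem pk8_0 : allR (ckPerm (nat_lit 0x4aef8) T8 T8) (nat_lit 0) (nat_lit 16384) = true := by decide +kernel
theorem pk8_1 : allR (ckPerm (nat_lit 0x4aef8) T8 T8) (nat_lit 16384) (nat_lit 16384) = true := by decide +kernel
theorem pk8_2 : allR (ckPerm (nat_lit 0x4aef8) T8 T8) (nat_lit 32768) (nat_lit 16384) = true := by decide +kernel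
theorem pk8_3 : allR (ckPerm (nat_lit 0x4aef8) T8 T8) (nat_lit 49152) (nat_lit 16384) = true := by decide +kernel
theorem pk8_4 : allR (ckPerm (nat_lit 0x4aef8) T8 T8) (nat_lit 65536) (nat_lit 16384) = true := by decide +kernel
theorem pk8_5 : allR (ckPerm (nat_lit 0x4aef8) T8 T8) (nat_lit 81920) (nat_lit 16384) = true := by decide +kernel
theorem pk8_6 : allR (ckPerm (nat_lit 0x4aef8) T8 T8) (nat_lit 98304) (nat_lit 16384) = true := by decide +kernel
theorem pk8_7 : allR (ckPerm (nat_lit 0x4aef8) T8 T8) (nat_lit 114688) (nat_lit 16384) = true := by decide +kernel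
theorem pk8_8 : allR (ckPerm (nat_lit 0x4aef8) T8 T8) (nat_lit 131072) (nat_lit 16384) = true := by decide +kernel
theorem pk8_9 : allR (ckPerm (nat_lit 0x4aef8) T8 T8) (nat_lit 147456) (nat_lit 16384) = true := by decide +kernel
theorem pk8_10 : allR (ckPerm (nat_lit 0x4aef8) T8 T8) (nat_lit 163840) (nat_lit 16384) = true := by decide +kernel
theorem pk8_11 : allR (ckPerm (nat_lit 0x4aef8) T8 T8) (nat_lit 180224) (nat_lit 16384) = true := by decide +kernel
theorem pk8_12 : allR (ckPerm (nat_lit 0x4aef8) T8 T8) (nat_lit 196608) (nat_lit 16384) = true := by decide +kernel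
theorem pk8_13 : allR (ckPerm (nat_lit 0x4aef8) T8 T8) (nat_lit 212992) (nat_lit 16384) = true := by decide +kernel
theorem pk8_14 : allR (ckPerm (nat_lit 0x4aef8) T8 T8) (nat_lit 229376) (nat_lit 16384) = true := by decide +kernel
theorem pk8_15 : allR (ckPerm (nat_lit 0x4aef8) T8 T8) (nat_lit 245760) (nat_lit 16384) = true := by decide +kernel
theorem pk8_16 : allR (ckPerm (nat_lit 0x4aef8) T8 T8) (nat_lit 262144) (nat_lit 16384) = true := by decide +kernel
theorem pk8_17 : allR (ckPerm (nat_lit 0x4aef8) T8 T8) (nat_lit 278528) (nat_lit 16384) = true := by decide +kernel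
theorem pk8_18 : allR (ckPerm (nat_lit 0x4aef8) T8 T8) (nat_lit 294912) (nat_lit 12024) = true := by decide +kernel
theorem pk8 : allR (ckPerm (nat_lit 0x4aef8) T8 T8) (nat_lit 0) (nat_lit 306936) = true := by
  apply allR_of_forall
  intro i hi
  have hi : i < 306936 := hi
  rcases Nat.lt_or_ge i 16384 with h0 | h0
  · exact allR_spec _ (0 : ℕ) (16384 : ℕ) pk8_0 i (by omega) (by omega)
  rcases Nat.lt_or_ge i 32768 with h1 | h1
  · exact allR_spec _ (16384 : ℕ) (16384 : ℕ) pk8_1 i (by omega) (by omega)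
  rcases Nat.lt_or_ge i 49152 with h2 | h2
  · exact allR_spec _ (32768 : ℕ) (16384 : ℕ) pk8_2 i (by omega) (by omega)
  rcases Nat.lt_or_ge i 65536 with h3 | h3
  · exact allR_spec _ (49152 : ℕ) (16384 : ℕ) pk8_3 i (by omega) (by omega)
  rcases Nat.lt_or_ge i 81920 with h4 | h4
  · exact allR_spec _ (65536 : ℕ) (16384 : ℕ) pk8_4 i (by omega) (by omega)
  rcases Nat.lt_or_ge i 98304 with h5 | h5
  · exact allR_spec _ (81920 : ℕ) (16384 : ℕ) pk8_5 i (by omega) (by omega)
  rcases Nat.lt_or_ge i 114688 with h6 | h6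
  · exact allR_spec _ (98304 : ℕ) (16384 : ℕ) pk8_6 i (by omega) (by omega)
  rcases Nat.lt_or_ge i 131072 with h7 | h7
  · exact allR_spec _ (114688 : ℕ) (16384 : ℕ) pk8_7 i (by omega) (by omega)
  rcases Nat.lt_or_ge i 147456 with h8 | h8
  · exact allR_spec _ (131072 : ℕ) (16384 : ℕ) pk8_8 i (by omega) (by omega)
  rcases Nat.lt_or_ge i 163840 with h9 | h9
  · exact allR_spec _ (147456 : ℕ) (16384 : ℕ) pk8_9 i (by omega) (by omega)
  rcases Nat.lt_or_ge i 180224 with h10 | h10
  · exact allR_spec _ (163840 : ℕ) (16384 : ℕ) pk8_10 i (by omega) (by omega)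
  rcases Nat.lt_or_ge i 196608 with h11 | h11
  · exact allR_spec _ (180224 : ℕ) (16384 : ℕ) pk8_11 i (by omega) (by omega)
  rcases Nat.lt_or_ge i 212992 with h12 | h12
  · exact allR_spec _ (196608 : ℕ) (16384 : ℕ) pk8_12 i (by omega) (by omega)
  rcases Nat.lt_or_ge i 229376 with h13 | h13
  · exact allR_spec _ (212992 : ℕ) (16384 : ℕ) pk8_13 i (by omega) (by omega)
  rcases Nat.lt_or_ge i 245760 with h14 | h14
  · exact allR_spec _ (229376 : ℕ) (16384 : ℕ) pk8_14 i (by omega) (by omega)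
  rcases Nat.lt_or_ge i 262144 with h15 | h15
  · exact allR_spec _ (245760 : ℕ) (16384 : ℕ) pk8_15 i (by omega) (by omega)
  rcases Nat.lt_or_ge i 278528 with h16 | h16
  · exact allR_spec _ (262144 : ℕ) (16384 : ℕ) pk8_16 i (by omega) (by omega)
  rcases Nat.lt_or_ge i 294912 with h17 | h17
  · exact allR_spec _ (278528 : ℕ) (16384 : ℕ) pk8_17 i (by omega) (by omega)
  exact allR_spec _ (294912 : ℕ) (12024 : ℕ) pk8_18 i (by omega) (by omega)
theorem pk9_0 : allR (ckPerm (nat_lit 0x4aef8) T9 T9) (nat_lit 0) (nat_lit 16384) = true := by decide +kernel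
theorem pk9_1 : allR (ckPerm (nat_lit 0x4aef8) T9 T9) (nat_lit 16384) (nat_lit 16384) = true := by decide +kernel
theorem pk9_2 : allR (ckPerm (nat_lit 0x4aef8) T9 T9) (nat_lit 32768) (nat_lit 16384) = true := by decide +kernel
theorem pk9_3 : allR (ckPerm (nat_lit 0x4aef8) T9 T9) (nat_lit 49152) (nat_lit 16384) = true := by decide +kernel
theorem pk9_4 : allR (ckPerm (nat_lit 0x4aef8) T9 T9) (nat_lit 65536) (nat_lit 16384) = true := by decide +kernel
theorem pk9_5 : allR (ckPerm (nat_lit 0x4aef8) T9 T9) (nat_lit 81920) (nat_lit 16384) = true := by decide +kernel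
theorem pk9_6 : allR (ckPerm (nat_lit 0x4aef8) T9 T9) (nat_lit 98304) (nat_lit 16384) = true := by decide +kernel
theorem pk9_7 : allR (ckPerm (nat_lit 0x4aef8) T9 T9) (nat_lit 114688) (nat_lit 16384) = true := by decide +kernel
theorem pk9_8 : allR (ckPerm (nat_lit 0x4aef8) T9 T9) (nat_lit 131072) (nat_lit 16384) = true := by decide +kernel
theorem pk9_9 : allR (ckPerm (nat_lit 0x4aef8) T9 T9) (nat_lit 147456) (nat_lit 16384) = true := by decide +kernel
theorem pk9_10 : allR (ckPerm (nat_lit 0x4aef8) T9 T9) (nat_lit 163840) (nat_lit 16384) = true := by decide +kernel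
theorem pk9_11 : allR (ckPerm (nat_lit 0x4aef8) T9 T9) (nat_lit 180224) (nat_lit 16384) = true := by decide +kernel
theorem pk9_12 : allR (ckPerm (nat_lit 0x4aef8) T9 T9) (nat_lit 196608) (nat_lit 16384) = true := by decide +kernel
theorem pk9_13 : allR (ckPerm (nat_lit 0x4aef8) T9 T9) (nat_lit 212992) (nat_lit 16384) = true := by decide +kernel
theorem pk9_14 : allR (ckPerm (nat_lit 0x4aef8) T9 T9) (nat_lit 229376) (nat_lit 16384) = true := by decide +kernel
theorem pk9_15 : allR (ckPerm (nat_lit 0x4aef8) T9 T9) (nat_lit 245760) (nat_lit 16384) = true := by decide +kernel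
theorem pk9_16 : allR (ckPerm (nat_lit 0x4aef8) T9 T9) (nat_lit 262144) (nat_lit 16384) = true := by decide +kernel
theorem pk9_17 : allR (ckPerm (nat_lit 0x4aef8) T9 T9) (nat_lit 278528) (nat_lit 16384) = true := by decide +kernel
theorem pk9_18 : allR (ckPerm (nat_lit 0x4aef8) T9 T9) (nat_lit 294912) (nat_lit 12024) = true := by decide +kernel
theorem pk9 : allR (ckPerm (nat_lit 0x4aef8) T9 T9) (nat_lit 0) (nat_lit 306936) = true := by
  apply allR_of_forall
  intro i hi
  have hi : i < 306936 := hi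
  rcases Nat.lt_or_ge i 16384 with h0 | h0
  · exact allR_spec _ (0 : ℕ) (16384 : ℕ) pk9_0 i (by omega) (by omega)
  rcases Nat.lt_or_ge i 32768 with h1 | h1
  · exact allR_spec _ (16384 : ℕ) (16384 : ℕ) pk9_1 i (by omega) (by omega)
  rcases Nat.lt_or_ge i 49152 with h2 | h2
  · exact allR_spec _ (32768 : ℕ) (16384 : ℕ) pk9_2 i (by omega) (by omega)
  rcases Nat.lt_or_ge i 65536 with h3 | h3
  · exact allR_spec _ (49152 : ℕ) (16384 : ℕ) pk9_3 i (by omega) (by omega)
  rcases Nat.lt_or_ge i 81920 with h4 | h4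
  · exact allR_spec _ (65536 : ℕ) (16384 : ℕ) pk9_4 i (by omega) (by omega)
  rcases Nat.lt_or_ge i 98304 with h5 | h5
  · exact allR_spec _ (81920 : ℕ) (16384 : ℕ) pk9_5 i (by omega) (by omega)
  rcases Nat.lt_or_ge i 114688 with h6 | h6
  · exact allR_spec _ (98304 : ℕ) (16384 : ℕ) pk9_6 i (by omega) (by omega)
  rcases Nat.lt_or_ge i 131072 with h7 | h7
  · exact allR_spec _ (114688 : ℕ) (16384 : ℕ) pk9_7 i (by omega) (by omega)
  rcases Nat.lt_or_ge i 147456 with h8 | h8
  · exact allR_spec _ (131072 : ℕ) (16384 : ℕ) pk9_8 i (by omega) (by omega)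
  rcases Nat.lt_or_ge i 163840 with h9 | h9
  · exact allR_spec _ (147456 : ℕ) (16384 : ℕ) pk9_9 i (by omega) (by omega)
  rcases Nat.lt_or_ge i 180224 with h10 | h10
  · exact allR_spec _ (163840 : ℕ) (16384 : ℕ) pk9_10 i (by omega) (by omega)
  rcases Nat.lt_or_ge i 196608 with h11 | h11
  · exact allR_spec _ (180224 : ℕ) (16384 : ℕ) pk9_11 i (by omega) (by omega)
  rcases Nat.lt_or_ge i 212992 with h12 | h12
  · exact allR_spec _ (196608 : ℕ) (16384 : ℕ) pk9_12 i (by omega) (by omega)
  rcases Nat.lt_or_ge i 229376 with h13 | h13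
  · exact allR_spec _ (212992 : ℕ) (16384 : ℕ) pk9_13 i (by omega) (by omega)
  rcases Nat.lt_or_ge i 245760 with h14 | h14
  · exact allR_spec _ (229376 : ℕ) (16384 : ℕ) pk9_14 i (by omega) (by omega)
  rcases Nat.lt_or_ge i 262144 with h15 | h15
  · exact allR_spec _ (245760 : ℕ) (16384 : ℕ) pk9_15 i (by omega) (by omega)
  rcases Nat.lt_or_ge i 278528 with h16 | h16
  · exact allR_spec _ (262144 : ℕ) (16384 : ℕ) pk9_16 i (by omega) (by omega)
  rcases Nat.lt_or_ge i 294912 with h17 | h17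
  · exact allR_spec _ (278528 : ℕ) (16384 : ℕ) pk9_17 i (by omega) (by omega)
  exact allR_spec _ (294912 : ℕ) (12024 : ℕ) pk9_18 i (by omega) (by omega)
theorem pk10_0 : allR (ckPerm (nat_lit 0x4aef8) T10 T10) (nat_lit 0) (nat_lit 16384) = true := by decide +kernel
theorem pk10_1 : allR (ckPerm (nat_lit 0x4aef8) T10 T10) (nat_lit 16384) (nat_lit 16384) = true := by decide +kernel
theorem pk10_2 : allR (ckPerm (nat_lit 0x4aef8) T10 T10) (nat_lit 32768) (nat_lit 16384) = true := by decide +kernel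
theorem pk10_3 : allR (ckPerm (nat_lit 0x4aef8) T10 T10) (nat_lit 49152) (nat_lit 16384) = true := by decide +kernel
theorem pk10_4 : allR (ckPerm (nat_lit 0x4aef8) T10 T10) (nat_lit 65536) (nat_lit 16384) = true := by decide +kernel
theorem pk10_5 : allR (ckPerm (nat_lit 0x4aef8) T10 T10) (nat_lit 81920) (nat_lit 16384) = true := by decide +kernel
theorem pk10_6 : allR (ckPerm (nat_lit 0x4aef8) T10 T10) (nat_lit 98304) (nat_lit 16384) = true := by decide +kernel
theorem pk10_7 : allR (ckPerm (nat_lit 0x4aef8) T10 T10) (nat_lit 114688) (nat_lit 16384) = true := by decide +kernel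
theorem pk10_8 : allR (ckPerm (nat_lit 0x4aef8) T10 T10) (nat_lit 131072) (nat_lit 16384) = true := by decide +kernel
theorem pk10_9 : allR (ckPerm (nat_lit 0x4aef8) T10 T10) (nat_lit 147456) (nat_lit 16384) = true := by decide +kernel
theorem pk10_10 : allR (ckPerm (nat_lit 0x4aef8) T10 T10) (nat_lit 163840) (nat_lit 16384) = true := by decide +kernel
theorem pk10_11 : allR (ckPerm (nat_lit 0x4aef8) T10 T10) (nat_lit 180224) (nat_lit 16384) = true := by decide +kernel
theorem pk10_12 : allR (ckPerm (nat_lit 0x4aef8) T10 T10) (nat_lit 196608) (nat_lit 16384) = true := by decide +kernel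
theorem pk10_13 : allR (ckPerm (nat_lit 0x4aef8) T10 T10) (nat_lit 212992) (nat_lit 16384) = true := by decide +kernel
theorem pk10_14 : allR (ckPerm (nat_lit 0x4aef8) T10 T10) (nat_lit 229376) (nat_lit 16384) = true := by decide +kernel
theorem pk10_15 : allR (ckPerm (nat_lit 0x4aef8) T10 T10) (nat_lit 245760) (nat_lit 16384) = true := by decide +kernel
theorem pk10_16 : allR (ckPerm (nat_lit 0x4aef8) T10 T10) (nat_lit 262144) (nat_lit 16384) = true := by decide +kernel
theorem pk10_17 : allR (ckPerm (nat_lit 0x4aef8) T10 T10) (nat_lit 278528) (nat_lit 16384) = true := by decide +kernel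
theorem pk10_18 : allR (ckPerm (nat_lit 0x4aef8) T10 T10) (nat_lit 294912) (nat_lit 12024) = true := by decide +kernel
theorem pk10 : allR (ckPerm (nat_lit 0x4aef8) T10 T10) (nat_lit 0) (nat_lit 306936) = true := by
  apply allR_of_forall
  intro i hi
  have hi : i < 306936 := hi
  rcases Nat.lt_or_ge i 16384 with h0 | h0
  · exact allR_spec _ (0 : ℕ) (16384 : ℕ) pk10_0 i (by omega) (by omega)
  rcases Nat.lt_or_ge i 32768 with h1 | h1
  · exact allR_spec _ (16384 : ℕ) (16384 : ℕ) pk10_1 i (by omega) (by omega)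
  rcases Nat.lt_or_ge i 49152 with h2 | h2
  · exact allR_spec _ (32768 : ℕ) (16384 : ℕ) pk10_2 i (by omega) (by omega)
  rcases Nat.lt_or_ge i 65536 with h3 | h3
  · exact allR_spec _ (49152 : ℕ) (16384 : ℕ) pk10_3 i (by omega) (by omega)
  rcases Nat.lt_or_ge i 81920 with h4 | h4
  · exact allR_spec _ (65536 : ℕ) (16384 : ℕ) pk10_4 i (by omega) (by omega)
  rcases Nat.lt_or_ge i 98304 with h5 | h5
  · exact allR_spec _ (81920 : ℕ) (16384 : ℕ) pk10_5 i (by omega) (by omega)
  rcases Nat.lt_or_ge i 114688 with h6 | h6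
  · exact allR_spec _ (98304 : ℕ) (16384 : ℕ) pk10_6 i (by omega) (by omega)
  rcases Nat.lt_or_ge i 131072 with h7 | h7
  · exact allR_spec _ (114688 : ℕ) (16384 : ℕ) pk10_7 i (by omega) (by omega)
  rcases Nat.lt_or_ge i 147456 with h8 | h8
  · exact allR_spec _ (131072 : ℕ) (16384 : ℕ) pk10_8 i (by omega) (by omega)
  rcases Nat.lt_or_ge i 163840 with h9 | h9
  · exact allR_spec _ (147456 : ℕ) (16384 : ℕ) pk10_9 i (by omega) (by omega)
  rcases Nat.lt_or_ge i 180224 with h10 | h10
  · exact allR_spec _ (163840 : ℕ) (16384 : ℕ) pk10_10 i (by omega) (by omega)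
  rcases Nat.lt_or_ge i 196608 with h11 | h11
  · exact allR_spec _ (180224 : ℕ) (16384 : ℕ) pk10_11 i (by omega) (by omega)
  rcases Nat.lt_or_ge i 212992 with h12 | h12
  · exact allR_spec _ (196608 : ℕ) (16384 : ℕ) pk10_12 i (by omega) (by omega)
  rcases Nat.lt_or_ge i 229376 with h13 | h13
  · exact allR_spec _ (212992 : ℕ) (16384 : ℕ) pk10_13 i (by omega) (by omega)
  rcases Nat.lt_or_ge i 245760 with h14 | h14
  · exact allR_spec _ (229376 : ℕ) (16384 : ℕ) pk10_14 i (by omega) (by omega)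
  rcases Nat.lt_or_ge i 262144 with h15 | h15
  · exact allR_spec _ (245760 : ℕ) (16384 : ℕ) pk10_15 i (by omega) (by omega)
  rcases Nat.lt_or_ge i 278528 with h16 | h16
  · exact allR_spec _ (262144 : ℕ) (16384 : ℕ) pk10_16 i (by omega) (by omega)
  rcases Nat.lt_or_ge i 294912 with h17 | h17
  · exact allR_spec _ (278528 : ℕ) (16384 : ℕ) pk10_17 i (by omega) (by omega)
  exact allR_spec _ (294912 : ℕ) (12024 : ℕ) pk10_18 i (by omega) (by omega)
theorem pk11_0 : allR (ckPerm (nat_lit 0x4aef8) T11 T11) (nat_lit 0) (nat_lit 16384) = true := by decide +kernel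
theorem pk11_1 : allR (ckPerm (nat_lit 0x4aef8) T11 T11) (nat_lit 16384) (nat_lit 16384) = true := by decide +kernel
theorem pk11_2 : allR (ckPerm (nat_lit 0x4aef8) T11 T11) (nat_lit 32768) (nat_lit 16384) = true := by decide +kernel
theorem pk11_3 : allR (ckPerm (nat_lit 0x4aef8) T11 T11) (nat_lit 49152) (nat_lit 16384) = true := by decide +kernel
theorem pk11_4 : allR (ckPerm (nat_lit 0x4aef8) T11 T11) (nat_lit 65536) (nat_lit 16384) = true := by decide +kernel
theorem pk11_5 : allR (ckPerm (nat_lit 0x4aef8) T11 T11) (nat_lit 81920) (nat_lit 16384) = true := by decide +kernel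
theorem pk11_6 : allR (ckPerm (nat_lit 0x4aef8) T11 T11) (nat_lit 98304) (nat_lit 16384) = true := by decide +kernel
theorem pk11_7 : allR (ckPerm (nat_lit 0x4aef8) T11 T11) (nat_lit 114688) (nat_lit 16384) = true := by decide +kernel
theorem pk11_8 : allR (ckPerm (nat_lit 0x4aef8) T11 T11) (nat_lit 131072) (nat_lit 16384) = true := by decide +kernel
theorem pk11_9 : allR (ckPerm (nat_lit 0x4aef8) T11 T11) (nat_lit 147456) (nat_lit 16384) = true := by decide +kernel
theorem pk11_10 : allR (ckPerm (nat_lit 0x4aef8) T11 T11) (nat_lit 163840) (nat_lit 16384) = true := by decide +kernel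
theorem pk11_11 : allR (ckPerm (nat_lit 0x4aef8) T11 T11) (nat_lit 180224) (nat_lit 16384) = true := by decide +kernel
theorem pk11_12 : allR (ckPerm (nat_lit 0x4aef8) T11 T11) (nat_lit 196608) (nat_lit 16384) = true := by decide +kernel
theorem pk11_13 : allR (ckPerm (nat_lit 0x4aef8) T11 T11) (nat_lit 212992) (nat_lit 16384) = true := by decide +kernel
theorem pk11_14 : allR (ckPerm (nat_lit 0x4aef8) T11 T11) (nat_lit 229376) (nat_lit 16384) = true := by decide +kernel
theorem pk11_15 : allR (ckPerm (nat_lit 0x4aef8) T11 T11) (nat_lit 245760) (nat_lit 16384) = true := by decide +kernel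
theorem pk11_16 : allR (ckPerm (nat_lit 0x4aef8) T11 T11) (nat_lit 262144) (nat_lit 16384) = true := by decide +kernel
theorem pk11_17 : allR (ckPerm (nat_lit 0x4aef8) T11 T11) (nat_lit 278528) (nat_lit 16384) = true := by decide +kernel
theorem pk11_18 : allR (ckPerm (nat_lit 0x4aef8) T11 T11) (nat_lit 294912) (nat_lit 12024) = true := by decide +kernel
theorem pk11 : allR (ckPerm (nat_lit 0x4aef8) T11 T11) (nat_lit 0) (nat_lit 306936) = true := by
  apply allR_of_forall
  intro i hi
  have hi : i < 306936 := hi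
  rcases Nat.lt_or_ge i 16384 with h0 | h0
  · exact allR_spec _ (0 : ℕ) (16384 : ℕ) pk11_0 i (by omega) (by omega)
  rcases Nat.lt_or_ge i 32768 with h1 | h1
  · exact allR_spec _ (16384 : ℕ) (16384 : ℕ) pk11_1 i (by omega) (by omega)
  rcases Nat.lt_or_ge i 49152 with h2 | h2
  · exact allR_spec _ (32768 : ℕ) (16384 : ℕ) pk11_2 i (by omega) (by omega)
  rcases Nat.lt_or_ge i 65536 with h3 | h3
  · exact allR_spec _ (49152 : ℕ) (16384 : ℕ) pk11_3 i (by omega) (by omega)
  rcases Nat.lt_or_ge i 81920 with h4 | h4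
  · exact allR_spec _ (65536 : ℕ) (16384 : ℕ) pk11_4 i (by omega) (by omega)
  rcases Nat.lt_or_ge i 98304 with h5 | h5
  · exact allR_spec _ (81920 : ℕ) (16384 : ℕ) pk11_5 i (by omega) (by omega)
  rcases Nat.lt_or_ge i 114688 with h6 | h6
  · exact allR_spec _ (98304 : ℕ) (16384 : ℕ) pk11_6 i (by omega) (by omega)
  rcases Nat.lt_or_ge i 131072 with h7 | h7
  · exact allR_spec _ (114688 : ℕ) (16384 : ℕ) pk11_7 i (by omega) (by omega)
  rcases Nat.lt_or_ge i 147456 with h8 | h8
  · exact allR_spec _ (131072 : ℕ) (16384 : ℕ) pk11_8 i (by omega) (by omega)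
  rcases Nat.lt_or_ge i 163840 with h9 | h9
  · exact allR_spec _ (147456 : ℕ) (16384 : ℕ) pk11_9 i (by omega) (by omega)
  rcases Nat.lt_or_ge i 180224 with h10 | h10
  · exact allR_spec _ (163840 : ℕ) (16384 : ℕ) pk11_10 i (by omega) (by omega)
  rcases Nat.lt_or_ge i 196608 with h11 | h11
  · exact allR_spec _ (180224 : ℕ) (16384 : ℕ) pk11_11 i (by omega) (by omega)
  rcases Nat.lt_or_ge i 212992 with h12 | h12
  · exact allR_spec _ (196608 : ℕ) (16384 : ℕ) pk11_12 i (by omega) (by omega)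
  rcases Nat.lt_or_ge i 229376 with h13 | h13
  · exact allR_spec _ (212992 : ℕ) (16384 : ℕ) pk11_13 i (by omega) (by omega)
  rcases Nat.lt_or_ge i 245760 with h14 | h14
  · exact allR_spec _ (229376 : ℕ) (16384 : ℕ) pk11_14 i (by omega) (by omega)
  rcases Nat.lt_or_ge i 262144 with h15 | h15
  · exact allR_spec _ (245760 : ℕ) (16384 : ℕ) pk11_15 i (by omega) (by omega)
  rcases Nat.lt_or_ge i 278528 with h16 | h16
  · exact allR_spec _ (262144 : ℕ) (16384 : ℕ) pk11_16 i (by omega) (by omega)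
  rcases Nat.lt_or_ge i 294912 with h17 | h17
  · exact allR_spec _ (278528 : ℕ) (16384 : ℕ) pk11_17 i (by omega) (by omega)
  exact allR_spec _ (294912 : ℕ) (12024 : ℕ) pk11_18 i (by omega) (by omega)
theorem dk_0 : allR (ckD 12 T D) (nat_lit 0) (nat_lit 16384) = true := by decide +kernel
theorem dk_1 : allR (ckD 12 T D) (nat_lit 16384) (nat_lit 16384) = true := by decide +kernel
theorem dk_2 : allR (ckD 12 T D) (nat_lit 32768) (nat_lit 16384) = true := by decide +kernel
theorem dk_3 : allR (ckD 12 T D) (nat_lit 49152) (nat_lit 16384) = true := by decide +kernel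
theorem dk_4 : allR (ckD 12 T D) (nat_lit 65536) (nat_lit 16384) = true := by decide +kernel
theorem dk_5 : allR (ckD 12 T D) (nat_lit 81920) (nat_lit 16384) = true := by decide +kernel
theorem dk_6 : allR (ckD 12 T D) (nat_lit 98304) (nat_lit 16384) = true := by decide +kernel
theorem dk_7 : allR (ckD 12 T D) (nat_lit 114688) (nat_lit 16384) = true := by decide +kernel
theorem dk_8 : allR (ckD 12 T D) (nat_lit 131072) (nat_lit 16384) = true := by decide +kernel
theorem dk_9 : allR (ckD 12 T D) (nat_lit 147456) (nat_lit 16384) = true := by decide +kernel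
theorem dk_10 : allR (ckD 12 T D) (nat_lit 163840) (nat_lit 16384) = true := by decide +kernel
theorem dk_11 : allR (ckD 12 T D) (nat_lit 180224) (nat_lit 16384) = true := by decide +kernel
theorem dk_12 : allR (ckD 12 T D) (nat_lit 196608) (nat_lit 16384) = true := by decide +kernel
theorem dk_13 : allR (ckD 12 T D) (nat_lit 212992) (nat_lit 16384) = true := by decide +kernel
theorem dk_14 : allR (ckD 12 T D) (nat_lit 229376) (nat_lit 16384) = true := by decide +kernel
theorem dk_15 : allR (ckD 12 T D) (nat_lit 245760) (nat_lit 16384) = true := by decide +kernel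
theorem dk_16 : allR (ckD 12 T D) (nat_lit 262144) (nat_lit 16384) = true := by decide +kernel
theorem dk_17 : allR (ckD 12 T D) (nat_lit 278528) (nat_lit 16384) = true := by decide +kernel
theorem dk_18 : allR (ckD 12 T D) (nat_lit 294912) (nat_lit 12024) = true := by decide +kernel
theorem dk : allR (ckD 12 T D) (nat_lit 0) (nat_lit 306936) = true := by
  apply allR_of_forall
  intro i hi
  have hi : i < 306936 := hi
  rcases Nat.lt_or_ge i 16384 with h0 | h0
  · exact allR_spec _ (0 : ℕ) (16384 : ℕ) dk_0 i (by omega) (by omega)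
  rcases Nat.lt_or_ge i 32768 with h1 | h1
  · exact allR_spec _ (16384 : ℕ) (16384 : ℕ) dk_1 i (by omega) (by omega)
  rcases Nat.lt_or_ge i 49152 with h2 | h2
  · exact allR_spec _ (32768 : ℕ) (16384 : ℕ) dk_2 i (by omega) (by omega)
  rcases Nat.lt_or_ge i 65536 with h3 | h3
  · exact allR_spec _ (49152 : ℕ) (16384 : ℕ) dk_3 i (by omega) (by omega)
  rcases Nat.lt_or_ge i 81920 with h4 | h4
  · exact allR_spec _ (65536 : ℕ) (16384 : ℕ) dk_4 i (by omega) (by omega)
  rcases Nat.lt_or_ge i 98304 with h5 | h5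
  · exact allR_spec _ (81920 : ℕ) (16384 : ℕ) dk_5 i (by omega) (by omega)
  rcases Nat.lt_or_ge i 114688 with h6 | h6
  · exact allR_spec _ (98304 : ℕ) (16384 : ℕ) dk_6 i (by omega) (by omega)
  rcases Nat.lt_or_ge i 131072 with h7 | h7
  · exact allR_spec _ (114688 : ℕ) (16384 : ℕ) dk_7 i (by omega) (by omega)
  rcases Nat.lt_or_ge i 147456 with h8 | h8
  · exact allR_spec _ (131072 : ℕ) (16384 : ℕ) dk_8 i (by omega) (by omega)
  rcases Nat.lt_or_ge i 163840 with h9 | h9
  · exact allR_spec _ (147456 : ℕ) (16384 : ℕ) dk_9 i (by omega) (by omega)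
  rcases Nat.lt_or_ge i 180224 with h10 | h10
  · exact allR_spec _ (163840 : ℕ) (16384 : ℕ) dk_10 i (by omega) (by omega)
  rcases Nat.lt_or_ge i 196608 with h11 | h11
  · exact allR_spec _ (180224 : ℕ) (16384 : ℕ) dk_11 i (by omega) (by omega)
  rcases Nat.lt_or_ge i 212992 with h12 | h12
  · exact allR_spec _ (196608 : ℕ) (16384 : ℕ) dk_12 i (by omega) (by omega)
  rcases Nat.lt_or_ge i 229376 with h13 | h13
  · exact allR_spec _ (212992 : ℕ) (16384 : ℕ) dk_13 i (by omega) (by omega)
  rcases Nat.lt_or_ge i 245760 with h14 | h14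
  · exact allR_spec _ (229376 : ℕ) (16384 : ℕ) dk_14 i (by omega) (by omega)
  rcases Nat.lt_or_ge i 262144 with h15 | h15
  · exact allR_spec _ (245760 : ℕ) (16384 : ℕ) dk_15 i (by omega) (by omega)
  rcases Nat.lt_or_ge i 278528 with h16 | h16
  · exact allR_spec _ (262144 : ℕ) (16384 : ℕ) dk_16 i (by omega) (by omega)
  rcases Nat.lt_or_ge i 294912 with h17 | h17
  · exact allR_spec _ (278528 : ℕ) (16384 : ℕ) dk_17 i (by omega) (by omega)
  exact allR_spec _ (294912 : ℕ) (12024 : ℕ) dk_18 i (by omega) (by omega)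

end Cfsg.Agent.H8.Fi24t
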