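import Cfsg.Agent.H8.T.Fi24tPa0
import Cfsg.Agent.H8.T.Fi24tPa1
import Cfsg.Agent.H8.T.Fi24tPa2

set_option Elab.async false
set_option autoImplicit false
set_option linter.all false
set_option maxRecDepth 100000

namespace Cfsg.Agent.H8.Fi24t

theorem tok : TableOK 306936 12 T inv where
  lt := by
    intro l hl i hi
    interval_cases l
    · exact (ckPerm_sound _ _ _ _ (allR_zero _ _ pk0 i hi)).1
    · exact (ckPerm_sound _ _ _ _ (allR_zero _ _ pk1 i hi)).1
    · exact (ckPerm_sound _ _ _ _ (allR_zero _ _ pk2 i hi)).1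
    · exact (ckPerm_sound _ _ _ _ (allR_zero _ _ pk3 i hi)).1
    · exact (ckPerm_sound _ _ _ _ (allR_zero _ _ pk4 i hi)).1
    · exact (ckPerm_sound _ _ _ _ (allR_zero _ _ pk5 i hi)).1
    · exact (ckPerm_sound _ _ _ _ (allR_zero _ _ pk6 i hi)).1
    · exact (ckPerm_sound _ _ _ _ (allR_zero _ _ pk7 i hi)).1
    · exact (ckPerm_sound _ _ _ _ (allR_zero _ _ pk8 i hi)).1
    · exact (ckPerm_sound _ _ _ _ (allR_zero _ _ pk9 i hi)).1
    · exact (ckPerm_sound _ _ _ _ (allR_zero _ _ pk10 i hi)).1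
    · exact (ckPerm_sound _ _ _ _ (allR_zero _ _ pk11 i hi)).1
  inv_lt := by
    intro l hl
    interval_cases l <;> decide
  inv_inv := by
    intro l hl
    interval_cases l <;> decide
  inv_apply := by
    intro l hl i hi
    interval_cases l
    · exact (ckPerm_sound _ _ _ _ (allR_zero _ _ pk0 i hi)).2
    · exact (ckPerm_sound _ _ _ _ (allR_zero _ _ pk1 i hi)).2
    · exact (ckPerm_sound _ _ _ _ (allR_zero _ _ pk2 i hi)).2
    · exact (ckPerm_sound _ _ _ _ (allR_zero _ _ pk3 i hi)).2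
    · exact (ckPerm_sound _ _ _ _ (allR_zero _ _ pk4 i hi)).2
    · exact (ckPerm_sound _ _ _ _ (allR_zero _ _ pk5 i hi)).2
    · exact (ckPerm_sound _ _ _ _ (allR_zero _ _ pk6 i hi)).2
    · exact (ckPerm_sound _ _ _ _ (allR_zero _ _ pk7 i hi)).2
    · exact (ckPerm_sound _ _ _ _ (allR_zero _ _ pk8 i hi)).2
    · exact (ckPerm_sound _ _ _ _ (allR_zero _ _ pk9 i hi)).2
    · exact (ckPerm_sound _ _ _ _ (allR_zero _ _ pk10 i hi)).2
    · exact (ckPerm_sound _ _ _ _ (allR_zero _ _ pk11 i hi)).2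

theorem dOK : ∀ t, 0 < t → t < 306936 → D t / 32 < t ∧ D t % 32 < 12 ∧ T (D t % 32) (D t / 32) = t :=
  fun t h0 h1 => ckD_sound (L := 12) (T := T) D t h0 (allR_zero _ _ dk t h1)


end Cfsg.Agent.H8.Fi24t
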