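import Cfsg.Agent.H8.Sp4Lib
import Cfsg.Agent.H8.T.Het
import Cfsg.Agent.H8.T.HetO
import Cfsg.Agent.H8.T.Sp4tP

set_option autoImplicit false
set_option linter.all false
set_option maxRecDepth 100000

namespace Cfsg.Agent.H8.Sp4t
theorem kb0 : allR (ckBl Het.clC bl T0 [Het.T0]) (nat_lit 0) (nat_lit 2058) = true := by decide +kernel
theorem km0 : allR (ckMv F4id (nat_lit 1260192769) vc T0) (nat_lit 0) (nat_lit 85) = true := by decide +kernel
theorem kb1 : allR (ckBl Het.clC bl T1 [Het.T2]) (nat_lit 0) (nat_lit 2058) = true := by decide +kernel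
theorem km1 : allR (ckMv F4id (nat_lit 1074922497) vc T1) (nat_lit 0) (nat_lit 85) = true := by decide +kernel
theorem kb2 : allR (ckBl Het.clC bl T2 [Het.T3]) (nat_lit 0) (nat_lit 2058) = true := by decide +kernel
theorem km2 : allR (ckMv F4id (nat_lit 857596061) vc T2) (nat_lit 0) (nat_lit 85) = true := by decide +kernel
theorem kb3 : allR (ckBl Het.clC bl T3 [Het.T4]) (nat_lit 0) (nat_lit 2058) = true := by decide +kernel
theorem km3 : allR (ckMv F4id (nat_lit 1260127233) vc T3) (nat_lit 0) (nat_lit 85) = true := by decide +kernel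
theorem kb4 : allR (ckBl Het.clC bl T4 [Het.T5]) (nat_lit 0) (nat_lit 2058) = true := by decide +kernel
theorem km4 : allR (ckMv F4id (nat_lit 1125975041) vc T4) (nat_lit 0) (nat_lit 85) = true := by decide +kernel
theorem kb5 : allR (ckBl Het.clC bl T5 [Het.T1, Het.T0, Het.T1, Het.T0]) (nat_lit 0) (nat_lit 2058) = true := by decide +kernel
theorem km5 : allR (ckMv F4sq (nat_lit 2266565633) vc T5) (nat_lit 0) (nat_lit 85) = true := by decide +kernel
theorem kb6 : allR (ckBl Het.clC bl T6 [Het.T1, Het.T2, Het.T3, Het.T4, Het.T1, Het.T2, Het.T3, Het.T4, Het.T1, Het.T2, Het.T3, Het.T4, Het.T1, Het.T2, Het.T3, Het.T4, Het.T1, Het.T2, Het.T3, Het.T4, Het.T1, Het.T2, Het.T3, Het.T4, Het.T1, Het.T2, Het.T3, Het.T4, Het.T0, Het.T4, Het.T3, Het.T2, Het.T1, Het.T4, Het.T3, Het.T2, Het.T1, Het.T4, Het.T3, Het.T2, Het.T1, Het.T4, Het.T3, Het.T2, Het.T1, Het.T4, Het.T3, Het.T2, Het.T1, Het.T4, Het.T3, Het.T2, Het.T1, Het.T4, Het.T3, Het.T2, Het.T1]) (nat_lit 0) (nat_lit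 2058) = true := by decide +kernel
theorem km6 : allR (ckMv F4id (nat_lit 2413808385) vc T6) (nat_lit 0) (nat_lit 85) = true := by decide +kernel
theorem krt : allR (ckRoot Het.clC bl rt) (nat_lit 0) (nat_lit 85) = true := by decide +kernel
theorem kix : allR (fun i => ckIxL 4 ix (vc i) i) (nat_lit 0) (nat_lit 85) = true := by decide +kernel
theorem kbl : allR (fun i => Nat.ble (Nat.succ (bl i)) (nat_lit 85)) (nat_lit 0) (nat_lit 2058) = true := by decide +kernel

end Cfsg.Agent.H8.Sp4t
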