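import Cfsg.Agent.H8.T.Suz2tTab

set_option autoImplicit false
set_option linter.all false
set_option maxRecDepth 100000

namespace Cfsg.Agent.H8.Suz2t
theorem ck0 : allR (ckE (nat_lit 0x5960) (nat_lit 0x7fff) (nat_lit 15) (nat_lit 63) (nat_lit 21) (nat_lit 0) D E0 E0 RF0 sp) (nat_lit 0) (nat_lit 0x5960) = true := by decide +kernel
theorem rf0 : RF0 = (RW0).map (·.map E) := rfl
theorem rc0 : ckRels 7 inv rels 0 RW0 RC0 = true := by decide +kernel

end Cfsg.Agent.H8.Suz2t
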