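import Cfsg.Agent.H8.T.Suz2tTab

set_option autoImplicit false
set_option linter.all false
set_option maxRecDepth 100000

namespace Cfsg.Agent.H8.Suz2t
theorem rk19 : allR (fun i => powT [T4, T6] i (nat_lit 2) i) (nat_lit 0) (nat_lit 0x5960) = true := by decide +kernel
theorem rk25 : allR (fun i => powT [T1, T2, T3, T2, T3, T1, T2, T3, T2, T3, T1, T2, T3, T2, T3, T1, T2, T3, T2, T3, T1, T2, T3, T2, T3, T4] i (nat_lit 3) i) (nat_lit 0) (nat_lit 0x5960) = true := by decide +kernel

end Cfsg.Agent.H8.Suz2t
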