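import Cfsg.Agent.H8.T.Suz2tTab

set_option autoImplicit false
set_option linter.all false
set_option maxRecDepth 100000

namespace Cfsg.Agent.H8.Suz2t
theorem rk0 : allR (fun i => powT [T0, T1] i (nat_lit 5) i) (nat_lit 0) (nat_lit 0x5960) = true := by decide +kernel
theorem rk3 : allR (fun i => powT [T0, T4] i (nat_lit 2) i) (nat_lit 0) (nat_lit 0x5960) = true := by decide +kernel
theorem rk5 : allR (fun i => powT [T0, T6] i (nat_lit 2) i) (nat_lit 0) (nat_lit 0x5960) = true := by decide +kernel
theorem rk6 : allR (fun i => powT [T1, T2] i (nat_lit 3) i) (nat_lit 0) (nat_lit 0x5960) = true := by decide +kernel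
theorem rk8 : allR (fun i => powT [T1, T4] i (nat_lit 2) i) (nat_lit 0) (nat_lit 0x5960) = true := by decide +kernel
theorem rk10 : allR (fun i => powT [T1, T6] i (nat_lit 3) i) (nat_lit 0) (nat_lit 0x5960) = true := by decide +kernel
theorem rk13 : allR (fun i => powT [T2, T5] i (nat_lit 2) i) (nat_lit 0) (nat_lit 0x5960) = true := by decide +kernel
theorem rk16 : allR (fun i => powT [T3, T5] i (nat_lit 2) i) (nat_lit 0) (nat_lit 0x5960) = true := by decide +kernel
theorem rk18 : allR (fun i => powT [T4, T5] i (nat_lit 2) i) (nat_lit 0) (nat_lit 0x5960) = true := by decide +kernel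
theorem rk21 : allR (fun i => powT [T0, T2, T3, T2, T3, T2, T3, T2, T3] i (nat_lit 1) i) (nat_lit 0) (nat_lit 0x5960) = true := by decide +kernel
theorem rk22 : allR (fun i => powT [T0, T5, T6, T5, T6] i (nat_lit 1) i) (nat_lit 0) (nat_lit 0x5960) = true := by decide +kernel
theorem rk23 : allR (fun i => powT [T0, T1, T2, T5] i (nat_lit 5) i) (nat_lit 0) (nat_lit 0x5960) = true := by decide +kernel

end Cfsg.Agent.H8.Suz2t
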